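import Mathlib
import Cfsg.Prelude.Def_GeometricClasses

set_option autoImplicit false

/-!
# The group `4 ∘ 2^{1+4}` inside `GL_4(F)` and some elements of its normaliser
(helper69, definitions for S6000)

Index convention on `Fin 4`: the index `2 a + b` is the basis vector `e_a ⊗ e_b` of `F² ⊗ F²`.
-/

namespace Cfsg.Agent.Helper69

/-- `X ⊗ 1` -/
def e4X1 (F : Type*) [Field F] : Matrix (Fin 4) (Fin 4) F :=
  !![0, 0, 1, 0; 0, 0, 0, 1; 1, 0, 0, 0; 0, 1, 0, 0]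

/-- `Z ⊗ 1` -/
def e4Z1 (F : Type*) [Field F] : Matrix (Fin 4) (Fin 4) F :=
  !![1, 0, 0, 0; 0, 1, 0, 0; 0, 0, -1, 0; 0, 0, 0, -1]

/-- `1 ⊗ X` -/
def e4X2 (F : Type*) [Field F] : Matrix (Fin 4) (Fin 4) F :=
  !![0, 1, 0, 0; 1, 0, 0, 0; 0, 0, 0, 1; 0, 0, 1, 0]

/-- `1 ⊗ Z` -/
def e4Z2 (F : Type*) [Field F] : Matrix (Fin 4) (Fin 4) F :=
  !![1, 0, 0, 0; 0, -1, 0, 0; 0, 0, 1, 0; 0, 0, 0, -1]

/-- the product `X1^b * Z1^c * X2^d * Z2^e` -/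
def e4Pauli (F : Type*) [Field F] (b c d e : ℕ) : Matrix (Fin 4) (Fin 4) F :=
  e4X1 F ^ b * e4Z1 F ^ c * e4X2 F ^ d * e4Z2 F ^ e

/-- the subgroup of `GL_4(F)` generated by the scalar `ι` and the four matrices above: for
`ι ^ 2 = -1` this is the group `4 ∘ 2^{1+4}` of order 64 -/
def E4 {F : Type*} [Field F] (ι : F) : Subgroup (GL (Fin 4) F) :=
  Subgroup.closure {g | (g : Matrix (Fin 4) (Fin 4) F) = ι • (1 : Matrix (Fin 4) (Fin 4) F) ∨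
    (g : Matrix (Fin 4) (Fin 4) F) = e4X1 F ∨ (g : Matrix (Fin 4) (Fin 4) F) = e4Z1 F ∨
    (g : Matrix (Fin 4) (Fin 4) F) = e4X2 F ∨ (g : Matrix (Fin 4) (Fin 4) F) = e4Z2 F}

/-- `c ⊗ 1` for `c = -((1 + ι)/2) * !![1, 1; ι, -ι]`, an element of order 3 normalising `E4 ι` -/
def e4T1 {F : Type*} [Field F] (ι : F) : Matrix (Fin 4) (Fin 4) F :=
  (2 : F)⁻¹ • !![-(1 + ι), 0, -(1 + ι), 0; 0, -(1 + ι), 0, -(1 + ι);
    1 - ι, 0, -(1 - ι), 0; 0, 1 - ι, 0, -(1 - ι)]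

/-- `c ⊗ c`, an element of order 3 normalising `E4 ι` with a fixed plane -/
def e4T2 {F : Type*} [Field F] (ι : F) : Matrix (Fin 4) (Fin 4) F :=
  (2 : F)⁻¹ • !![ι, ι, ι, ι; -1, 1, -1, 1; -1, -1, 1, 1; -ι, ι, ι, -ι]

/-- an element of order 5 normalising `E4 ι` -/
def e4Y5 {F : Type*} [Field F] (ι : F) : Matrix (Fin 4) (Fin 4) F :=
  (2 : F)⁻¹ • !![-ι, -ι, 1, -1; -ι, ι, 1, 1; -ι, -ι, -1, 1; -ι, ι, -1, -1]

end Cfsg.Agent.Helper69
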