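import Mathlib
import Cfsg.Prelude.Def_GeometricClasses

set_option autoImplicit false

/-!
# Canonical forms for unitary elements of order 3 and 5 of `GU_4` (helper69, definitions for S6001)

A pair `(D, J)` is used as follows: a matrix `y` has canonical data `B` when `y * B = B * D` and
the Gram matrix `Bᵀ * B.map σ` of the columns of `B` is `J`.
-/

namespace Cfsg.Agent.Helper69

/-- eigenvalues `ω, ω², ω, ω²` -/
def e4uD1 {F : Type*} [Field F] (ω : F) : Matrix (Fin 4) (Fin 4) F :=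
  Matrix.diagonal ![ω, ω ^ 2, ω, ω ^ 2]

/-- two hyperbolic pairs `(0,1)` and `(2,3)` -/
def e4uJ1 (F : Type*) [Field F] : Matrix (Fin 4) (Fin 4) F :=
  !![0, 1, 0, 0; 1, 0, 0, 0; 0, 0, 0, 1; 0, 0, 1, 0]

/-- eigenvalues `ω, ω², 1, 1` -/
def e4uD2 {F : Type*} [Field F] (ω : F) : Matrix (Fin 4) (Fin 4) F :=
  Matrix.diagonal ![ω, ω ^ 2, 1, 1]

/-- a hyperbolic pair `(0,1)` and two orthonormal vectors -/
def e4uJ2 (F : Type*) [Field F] : Matrix (Fin 4) (Fin 4) F :=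
  !![0, 1, 0, 0; 1, 0, 0, 0; 0, 0, 1, 0; 0, 0, 0, 1]

/-- block diagonal of the companion matrices of `X² - τ X + 1` and `X² - (-1-τ) X + 1` -/
def e4uM0 {F : Type*} [Field F] (τ : F) : Matrix (Fin 4) (Fin 4) F :=
  !![0, -1, 0, 0; 1, τ, 0, 0; 0, 0, 0, -1; 0, 0, 1, -1 - τ]

/-- block diagonal of `C = !![0, -1; 1, τ]` and the inverse of the conjugate transpose of `C`
(for `σ τ = -1 - τ`) -/
def e4uD5 {F : Type*} [Field F] (τ : F) : Matrix (Fin 4) (Fin 4) F :=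
  !![0, -1, 0, 0; 1, τ, 0, 0; 0, 0, -1 - τ, -1; 0, 0, 1, 0]

/-- the pairing of the coordinate planes `(0,1)` and `(2,3)` -/
def e4uJ5 (F : Type*) [Field F] : Matrix (Fin 4) (Fin 4) F :=
  !![0, 0, 1, 0; 0, 0, 0, 1; 1, 0, 0, 0; 0, 1, 0, 0]

end Cfsg.Agent.Helper69
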