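import Mathlib
import Cfsg.Agent.Helper69.E4Def

set_option autoImplicit false

/-!
# Definitions for S6002 (helper69): the extraspecial group `2^{1+4}_-` inside `GL_4(F)`.

For `a ^ 2 + b ^ 2 = -1` the matrices `e5I`, `e5J a b`, `e4X2`, `e4Z2` generate a group
`Q_8 ∘ D_8` of order 32: `e5I = i₀ ⊗ 1`, `e5J a b = j₀ ⊗ 1` with `i₀ = !![0, -1; 1, 0]`,
`j₀ = !![a, b; b, -a]`, and `e4X2 = 1 ⊗ X`, `e4Z2 = 1 ⊗ Z`
(index `2 u + v` of `Fin 4` is `e_u ⊗ e_v`).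
-/

namespace Cfsg.Agent.Helper69

/-- `i₀ ⊗ 1` with `i₀ = !![0, -1; 1, 0]` -/
def e5I (F : Type*) [Field F] : Matrix (Fin 4) (Fin 4) F :=
  !![0, 0, -1, 0; 0, 0, 0, -1; 1, 0, 0, 0; 0, 1, 0, 0]

/-- `j₀ ⊗ 1` with `j₀ = !![a, b; b, -a]` -/
def e5J {F : Type*} [Field F] (a b : F) : Matrix (Fin 4) (Fin 4) F :=
  !![a, 0, b, 0; 0, a, 0, b; b, 0, -a, 0; 0, b, 0, -a]

/-- the word `I^α J^β X^γ Z^δ` -/
def e5W {F : Type*} [Field F] (a b : F) (α β γ δ : ℕ) : Matrix (Fin 4) (Fin 4) F :=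
  e5I F ^ α * e5J a b ^ β * e4X2 F ^ γ * e4Z2 F ^ δ

/-- an element of order 5 normalising the group of the words -/
def e5Y {F : Type*} [Field F] (a b : F) : Matrix (Fin 4) (Fin 4) F :=
  (-2 : F)⁻¹ • !![a - b, -1, a + b, 1; a - b, 1, a + b, -1; a + b, -1, b - a, -1;
    a + b, 1, b - a, 1]

/-- the companion matrix of `X^4 + X^3 + X^2 + X + 1` -/
def e5C (F : Type*) [Field F] : Matrix (Fin 4) (Fin 4) F :=
  !![0, 0, 0, -1; 1, 0, 0, -1; 0, 1, 0, -1; 0, 0, 1, -1]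

/-- the Gram matrix of the canonical basis `v, x v, x² v, x³ v` of an element of order 5 -/
def e5G (F : Type*) [Field F] : Matrix (Fin 4) (Fin 4) F :=
  !![0, 1, 0, 0; -1, 0, 1, 0; 0, -1, 0, 1; 0, 0, -1, 0]

/-- the Gram matrix of two orthogonal hyperbolic pairs `(e₁, f₁), (e₂, f₂)` -/
def e5GA (F : Type*) [Field F] : Matrix (Fin 4) (Fin 4) F :=
  !![0, 1, 0, 0; -1, 0, 0, 0; 0, 0, 0, 1; 0, 0, -1, 0]

/-- the matrix of `x` with `x² = -1` in a basis `e₁, x e₁, e₂, x e₂` -/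
def e5NB (F : Type*) [Field F] : Matrix (Fin 4) (Fin 4) F :=
  !![0, -1, 0, 0; 1, 0, 0, 0; 0, 0, 0, -1; 0, 0, 1, 0]

end Cfsg.Agent.Helper69
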