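/-
helper69: CALL S5954 piece UDETC (helper13).
-/
import Mathlib
import Cfsg.Agent.Helper13.TLDefs

set_option autoImplicit false

namespace Cfsg.Agent.Helper69.TI5954

open Module Polynomial
open Cfsg.Agent.Helper13.TIu Cfsg.Agent.Helper13.TIsp

variable {F : Type*} [Field F] {σ : F →+* F} {V : Type*} [AddCommGroup V] [Module F V]
  [FiniteDimensional F V] (B : V →ₛₗ[σ] V →ₗ[F] F)

/-- UDETC (case C; no form): `T ^ r = z • 1` with `X ^ r - C z` irreducible, `r` odd. -/
theorem udet_irr (T : Module.End F V) (z : F) (r : ℕ) [Fact r.Prime] (hr : Odd r)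
    (hTr : T ^ r = z • (1 : Module.End F V)) (hirr : Irreducible (X ^ r - C z : F[X])) :
    r ∣ finrank F V ∧ LinearMap.det T = z ^ (finrank F V / r) := by
  classical
  set f : F[X] := X ^ r - C z with hf
  have hr0 : 0 < r := (Fact.out : r.Prime).pos
  have hmonic : f.Monic := monic_X_pow_sub_C z hr0.ne'
  have hdeg : f.natDegree = r := natDegree_X_pow_sub_C
  have hfT : aeval T f = 0 := by
    rw [hf, map_sub, map_pow, aeval_X, aeval_C, hTr, Algebra.algebraMap_eq_smul_one, sub_self]
  have : Fact (Irreducible f) := ⟨hirr⟩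
  have htors : Module.IsTorsionBySet F[X] (Module.AEval' T) (Ideal.span {f}) := by
    rw [Module.isTorsionBySet_span_singleton_iff]
    intro m
    obtain ⟨v, rfl⟩ := (Module.AEval'.of T).surjective m
    rw [← Module.AEval.of_aeval_smul, hfT, zero_smul, map_zero]
  let instM : Module (AdjoinRoot f) (Module.AEval' T) := htors.module
  have : IsScalarTower F (AdjoinRoot f) (Module.AEval' T) := htors.isScalarTower
  have hfinE : Module.finrank F (AdjoinRoot f) = f.natDegree := finrank_quotient_span_eq_natDegree
  have hfinM : Module.finrank F (Module.AEval' T) = Module.finrank F V :=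
    ((Module.AEval'.of T).finrank_eq).symm
  have : Module.Finite F (Module.AEval' T) := Module.Finite.equiv (Module.AEval'.of T)
  have : Module.Finite F (AdjoinRoot f) :=
    Module.finite_of_finrank_pos (by rw [hfinE, hdeg]; exact hr0)
  have : Module.Finite (AdjoinRoot f) (Module.AEval' T) :=
    Module.Finite.of_restrictScalars_finite F _ _
  have htower := Module.finrank_mul_finrank F (AdjoinRoot f) (Module.AEval' T)
  rw [hfinE, hfinM, hdeg] at htower
  have hdiv : Module.finrank F V / r = Module.finrank (AdjoinRoot f) (Module.AEval' T) := by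
    rw [← htower]; exact Nat.mul_div_cancel_left _ hr0
  refine ⟨⟨_, htower.symm⟩, ?_⟩
  rw [hdiv]
  have hsmul : ∀ (a : F[X]) (m : Module.AEval' T), (AdjoinRoot.mk f a) • m = a • m :=
    fun a m => rfl
  let TK : Module.AEval' T →ₗ[AdjoinRoot f] Module.AEval' T :=
    (AdjoinRoot.root f) • LinearMap.id
  have hconj : TK.restrictScalars F =
      ((Module.AEval'.of T : V ≃ₗ[F] Module.AEval' T) : V →ₗ[F] Module.AEval' T) ∘ₗ T ∘ₗ
        ((Module.AEval'.of T).symm : Module.AEval' T →ₗ[F] V) := by
    apply LinearMap.ext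
    intro m
    obtain ⟨v, rfl⟩ := (Module.AEval'.of T).surjective m
    simp only [LinearMap.restrictScalars_apply, TK, LinearMap.smul_apply, LinearMap.id_apply,
      LinearMap.comp_apply, LinearEquiv.coe_coe, LinearEquiv.symm_apply_apply]
    rw [← AdjoinRoot.mk_X, hsmul, ← Module.AEval.of_aeval_smul, aeval_X]
    rfl
  have hdet1 : LinearMap.det T = LinearMap.det (TK.restrictScalars F) := by
    rw [hconj, LinearMap.det_conj]
  rw [hdet1, LinearMap.det_restrictScalars, LinearMap.det_smul, LinearMap.det_id, mul_one, map_pow]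
  congr 1
  have hnorm := Algebra.PowerBasis.norm_gen_eq_coeff_zero_minpoly
    (AdjoinRoot.powerBasis hmonic.ne_zero)
  rw [AdjoinRoot.minpoly_powerBasis_gen_of_monic hmonic] at hnorm
  simp only [AdjoinRoot.powerBasis_gen, AdjoinRoot.powerBasis_dim] at hnorm
  rw [hnorm, hdeg, hr.neg_one_pow, hf]
  simp [coeff_X_pow]
  exact hr0.ne

end Cfsg.Agent.Helper69.TI5954
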