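import Mathlib

/-!
# Kuelshammer's cube lemma (PIECE A of CALL S4648, helper69)
-/

set_option autoImplicit false
set_option linter.unusedVariables false
set_option linter.unusedSectionVars false

universe u v w

namespace Cfsg.Agent.Helper69

section kulA
variable {k : Type v} [Field k]

/-- the linear algebra behind the cube lemma. -/
theorem kul_cube_lin {M : Type u} [AddCommGroup M] [Module k M] (N : Submodule k M)
    (X1 X2 Y1 Y2 : M) (α β γ γ' : k) (hγ : γ = γ' + 1)
    (h1 : α • X1 - α • X2 ∈ N) (h2 : α • Y1 - γ • X2 ∈ N) (h3 : γ • X1 - γ' • X2 ∈ N)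
    (h4 : γ • Y1 - β • X2 ∈ N) (h5 : γ' • X1 - α • Y2 ∈ N) (h6 : γ' • Y1 - γ • Y2 ∈ N)
    (h7 : β • X1 - γ' • Y2 ∈ N) (h8 : β • Y1 - β • Y2 ∈ N) : X2 ∈ N ∧ Y2 ∈ N := by
  have hcancel : ∀ (s : k) (Z : M), s ≠ 0 → s • Z ∈ N → Z ∈ N := by
    intro s Z hs h
    have := N.smul_mem s⁻¹ h
    rwa [inv_smul_smul₀ hs] at this
  subst hγ
  by_cases hg' : γ' = 0
  · subst hg'
    -- `γ' = 0`, `γ = 1`
    have hY2 : Y2 ∈ N := by
      have e : Y2 = -((0 : k) • Y1 - ((0 : k) + 1) • Y2) := by module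
      rw [e]
      exact N.neg_mem h6
    refine ⟨?_, hY2⟩
    by_cases hα : α = 0
    · subst hα
      have e : X2 = -((0 : k) • Y1 - ((0 : k) + 1) • X2) := by module
      rw [e]
      exact N.neg_mem h2
    · apply hcancel α X2 hα
      have e : α • X2 = α • (((0 : k) + 1) • X1 - (0 : k) • X2) - (α • X1 - α • X2) := by module
      rw [e]
      exact N.sub_mem (N.smul_mem _ h3) h1
  · by_cases hg : γ' + 1 = 0
    · -- `γ = 0`, `γ' = -1`
      have hγ' : γ' = -1 := by linear_combination hg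
      subst hγ'
      have hX2 : X2 ∈ N := by
        have e : X2 = ((-1 : k) + 1) • X1 - (-1 : k) • X2 := by module
        rw [e]
        exact h3
      refine ⟨hX2, ?_⟩
      by_cases hα : α = 0
      · subst hα
        by_cases hβ : β = 0
        · subst hβ
          have e : Y2 = (0 : k) • X1 - (-1 : k) • Y2 := by module
          rw [e]
          exact h7
        · apply hcancel β Y2 hβ
          have e : β • Y2 = -((β • Y1 - β • Y2) + β • ((-1 : k) • Y1 - ((-1 : k) + 1) • Y2)) := by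
            module
          rw [e]
          exact N.neg_mem (N.add_mem h8 (N.smul_mem _ h6))
      · apply hcancel (α ^ 2) Y2 (pow_ne_zero 2 hα)
        have e : α ^ 2 • Y2 = -(α • ((-1 : k) • X1 - α • Y2) + (α • X1 - α • X2)) - α • X2 := by
          module
        rw [e]
        exact N.sub_mem (N.neg_mem (N.add_mem (N.smul_mem _ h5) h1)) (N.smul_mem _ hX2)
    · -- main case
      -- rows in `X2`, `Y2`
      have rowb : (α * β - (γ' + 1)) • X2 - (α * (γ' + 1)) • Y2 ∈ N := by
        have e : (α * β - (γ' + 1)) • X2 - (α * (γ' + 1)) • Y2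
            = (α • Y1 - (γ' + 1) • X2)
              - α • (((γ' + 1) • Y1 - β • X2) - (γ' • Y1 - (γ' + 1) • Y2)) := by module
        rw [e]
        exact N.sub_mem h2 (N.smul_mem _ (N.sub_mem h4 h6))
      have rowc : (γ' ^ 2) • X2 - (α * (γ' + 1)) • Y2 ∈ N := by
        have e : (γ' ^ 2) • X2 - (α * (γ' + 1)) • Y2
            = ((γ' + 1) • X1 - γ' • X2)
              - (γ' + 1) • (((γ' + 1) • X1 - γ' • X2) - (γ' • X1 - α • Y2)) := by module
        rw [e]
        exact N.sub_mem h3 (N.smul_mem _ (N.sub_mem h3 h5))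
      have rowd : (β * γ') • X2 - ((γ' + 1) ^ 2) • Y2 ∈ N := by
        have e : (β * γ') • X2 - ((γ' + 1) ^ 2) • Y2
            = ((γ' + 1) • Y1 - β • X2)
              - (γ' + 1) • (((γ' + 1) • Y1 - β • X2) - (γ' • Y1 - (γ' + 1) • Y2)) := by module
        rw [e]
        exact N.sub_mem h4 (N.smul_mem _ (N.sub_mem h4 h6))
      by_cases hαβ : α * β = (γ' + 1) * γ'
      · -- rows b, d
        have hs : (γ' + 1) * (α * β - (γ' + 1) ^ 2) ≠ 0 := by
          have e : (γ' + 1) * (α * β - (γ' + 1) ^ 2) = -(γ' + 1) ^ 2 := by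
            rw [hαβ]; ring
          rw [e]
          exact neg_ne_zero.2 (pow_ne_zero 2 hg)
        constructor
        · apply hcancel _ X2 hs
          have e : ((γ' + 1) * (α * β - (γ' + 1) ^ 2)) • X2
              = ((γ' + 1) ^ 2) • ((α * β - (γ' + 1)) • X2 - (α * (γ' + 1)) • Y2)
                - (α * (γ' + 1)) • ((β * γ') • X2 - ((γ' + 1) ^ 2) • Y2) := by module
          rw [e]
          exact N.sub_mem (N.smul_mem _ rowb) (N.smul_mem _ rowd)
        · apply hcancel _ Y2 hs
          have e : ((γ' + 1) * (α * β - (γ' + 1) ^ 2)) • Y2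
              = (β * γ') • ((α * β - (γ' + 1)) • X2 - (α * (γ' + 1)) • Y2)
                - (α * β - (γ' + 1)) • ((β * γ') • X2 - ((γ' + 1) ^ 2) • Y2) := by module
          rw [e]
          exact N.sub_mem (N.smul_mem _ rowb) (N.smul_mem _ rowd)
      · -- rows c, d
        have hs : (γ' + 1) * γ' * ((γ' + 1) * γ' - α * β) ≠ 0 := by
          refine mul_ne_zero (mul_ne_zero hg hg') ?_
          intro h
          apply hαβ
          linear_combination -h
        constructor
        · apply hcancel _ X2 hs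
          have e : ((γ' + 1) * γ' * ((γ' + 1) * γ' - α * β)) • X2
              = ((γ' + 1) ^ 2) • ((γ' ^ 2) • X2 - (α * (γ' + 1)) • Y2)
                - (α * (γ' + 1)) • ((β * γ') • X2 - ((γ' + 1) ^ 2) • Y2) := by module
          rw [e]
          exact N.sub_mem (N.smul_mem _ rowc) (N.smul_mem _ rowd)
        · apply hcancel _ Y2 hs
          have e : ((γ' + 1) * γ' * ((γ' + 1) * γ' - α * β)) • Y2
              = (β * γ') • ((γ' ^ 2) • X2 - (α * (γ' + 1)) • Y2)
                - (γ' ^ 2) • ((β * γ') • X2 - ((γ' + 1) ^ 2) • Y2) := by module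
          rw [e]
          exact N.sub_mem (N.smul_mem _ rowc) (N.smul_mem _ rowd)

variable {A : Type u} [Ring A] [Algebra k A]

/-- **PIECE A of CALL S4648** (cube lemma). -/
theorem kul_cube (J : Submodule k A) (x y c : A) (hx : x ∈ J) (hy : y ∈ J)
    (hc : c = x * y - y * x)
    (hJ : J ≤ Submodule.span k {x, y} ⊔ J * J)
    (hJ2 : J * J ≤ Submodule.span k {c} ⊔ J * J * J)
    (hc3 : c ∉ J * J * J) :
    J * J * J ≤ J * J * J * J := by
  have hJ4a : J * (J * J * J) = J * J * J * J := by simp only [mul_assoc]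
  have hJ4b : J * J * (J * J) = J * J * J * J := by simp only [mul_assoc]
  have hcJ2 : c ∈ J * J := by
    rw [hc]
    exact Submodule.sub_mem _ (Submodule.mul_mem_mul hx hy) (Submodule.mul_mem_mul hy hx)
  have hmul : ∀ u v : A, u ∈ J → v ∈ J → ∃ (μ : k) (r : A), r ∈ J * J * J ∧ u * v = μ • c + r := by
    intro u v hu hv
    obtain ⟨a, ha, r, hr, e⟩ := Submodule.mem_sup.1 (hJ2 (Submodule.mul_mem_mul hu hv))
    obtain ⟨μ, rfl⟩ := Submodule.mem_span_singleton.1 ha
    exact ⟨μ, r, hr, e.symm⟩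
  have assoc_rel : ∀ (u v w : A) (μ1 μ2 : k) (r1 r2 : A), u ∈ J → w ∈ J → r1 ∈ J * J * J →
      r2 ∈ J * J * J → u * v = μ1 • c + r1 → v * w = μ2 • c + r2 →
      μ1 • (c * w) - μ2 • (u * c) ∈ J * J * J * J := by
    intro u v w μ1 μ2 r1 r2 hu hw hr1 hr2 e1 e2
    have h1 : (u * v) * w = μ1 • (c * w) + r1 * w := by rw [e1, add_mul, smul_mul_assoc]
    have h2 : u * (v * w) = μ2 • (u * c) + u * r2 := by rw [e2, mul_add, mul_smul_comm]
    have h : μ1 • (c * w) + r1 * w = μ2 • (u * c) + u * r2 := by rw [← h1, ← h2, mul_assoc]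
    have e : μ1 • (c * w) - μ2 • (u * c) = u * r2 - r1 * w := by
      rw [sub_eq_sub_iff_add_eq_add, h, add_comm]
    rw [e]
    refine Submodule.sub_mem _ ?_ (Submodule.mul_mem_mul hr1 hw)
    rw [← hJ4a]
    exact Submodule.mul_mem_mul hu hr2
  obtain ⟨α, rxx, hrxx, exx⟩ := hmul x x hx hx
  obtain ⟨β, ryy, hryy, eyy⟩ := hmul y y hy hy
  obtain ⟨γ, rxy, hrxy, exy⟩ := hmul x y hx hy
  obtain ⟨γ', ryx, hryx, eyx⟩ := hmul y x hy hx
  have hγ : γ = γ' + 1 := by
    by_contra hne
    have hs : 1 - γ + γ' ≠ 0 := by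
      intro h
      apply hne
      linear_combination -h
    apply hc3
    have e : (1 - γ + γ') • c = rxy - ryx := by
      have h1 : rxy = x * y - γ • c := by rw [exy]; abel
      have h2 : ryx = y * x - γ' • c := by rw [eyx]; abel
      have h3 : x * y - γ • c - (y * x - γ' • c) = (x * y - y * x) - γ • c + γ' • c := by abel
      rw [h1, h2, h3, ← hc]
      module
    have hm : (1 - γ + γ') • c ∈ J * J * J := by
      rw [e]
      exact Submodule.sub_mem _ hrxy hryx
    have := Submodule.smul_mem (J * J * J) (1 - γ + γ')⁻¹ hm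
    rwa [inv_smul_smul₀ hs] at this
  obtain ⟨hxc, hyc⟩ := kul_cube_lin (J * J * J * J) (c * x) (x * c) (c * y) (y * c) α β γ γ' hγ
    (assoc_rel x x x α α rxx rxx hx hx hrxx hrxx exx exx)
    (assoc_rel x x y α γ rxx rxy hx hy hrxx hrxy exx exy)
    (assoc_rel x y x γ γ' rxy ryx hx hx hrxy hryx exy eyx)
    (assoc_rel x y y γ β rxy ryy hx hy hrxy hryy exy eyy)
    (assoc_rel y x x γ' α ryx rxx hy hx hryx hrxx eyx exx)
    (assoc_rel y x y γ' γ ryx rxy hy hy hryx hrxy eyx exy)
    (assoc_rel y y x β γ' ryy ryx hy hx hryy hryx eyy eyx)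
    (assoc_rel y y y β β ryy ryy hy hy hryy hryy eyy eyy)
  rw [show J * J * J = J * (J * J) from mul_assoc J J J, Submodule.mul_le]
  intro a ha b hb
  rw [← mul_assoc]
  obtain ⟨a1, ha1, a2, ha2, rfl⟩ := Submodule.mem_sup.1 (hJ ha)
  obtain ⟨s, t, rfl⟩ := Submodule.mem_span_pair.1 ha1
  obtain ⟨b1, hb1, b3, hb3, rfl⟩ := Submodule.mem_sup.1 (hJ2 hb)
  obtain ⟨μ, rfl⟩ := Submodule.mem_span_singleton.1 hb1
  have e : (s • x + t • y + a2) * (μ • c + b3)
      = μ • (s • (x * c) + t • (y * c)) + μ • (a2 * c) + (s • x + t • y + a2) * b3 := by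
    simp only [add_mul, mul_add, smul_mul_assoc, mul_smul_comm]
    module
  rw [e]
  refine Submodule.add_mem _ (Submodule.add_mem _ (Submodule.smul_mem _ _
    (Submodule.add_mem _ (Submodule.smul_mem _ _ hxc) (Submodule.smul_mem _ _ hyc)))
    (Submodule.smul_mem _ _ ?_)) ?_
  · rw [← hJ4b]
    exact Submodule.mul_mem_mul ha2 hcJ2
  · rw [← hJ4a]
    exact Submodule.mul_mem_mul ha hb3

end kulA

end Cfsg.Agent.Helper69
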