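import Mathlib

set_option autoImplicit false

/-!
# Piece DIAGINV of S6000 (helper69): an involution of `F ^ 4` (char ≠ 2) is diagonalisable with
eigenvalues `± 1`.
-/

namespace Cfsg.Agent.Helper69

open scoped Matrix

theorem e4_diag_involution {F : Type*} [Field F] (h2 : (2 : F) ≠ 0)
    (y : Matrix (Fin 4) (Fin 4) F) (hy : y ^ 2 = 1) :
    ∃ (Q : Matrix (Fin 4) (Fin 4) F) (d : Fin 4 → F), Q.det ≠ 0 ∧ (∀ i, d i ^ 2 = 1) ∧
      Q * y = Matrix.diagonal d * Q := by
  classical
  have hyy : y * y = 1 := by rw [← pow_two, hy]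
  -- the set of left eigenvectors
  set s : Set (Fin 4 → F) := {w | w ᵥ* y = w ∨ w ᵥ* y = -w} with hs
  have hspan : Submodule.span F s = ⊤ := by
    rw [eq_top_iff]
    intro w _
    have h1 : w + w ᵥ* y ∈ s := by
      left
      rw [Matrix.add_vecMul, Matrix.vecMul_vecMul, hyy, Matrix.vecMul_one, add_comm]
    have h2' : w - w ᵥ* y ∈ s := by
      right
      rw [Matrix.sub_vecMul, Matrix.vecMul_vecMul, hyy, Matrix.vecMul_one, neg_sub]
    have hw : w = (2 : F)⁻¹ • (w + w ᵥ* y) + (2 : F)⁻¹ • (w - w ᵥ* y) := by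
      rw [← smul_add]
      have : w + w ᵥ* y + (w - w ᵥ* y) = (2 : F) • w := by
        rw [two_smul]; abel
      rw [this, smul_smul, inv_mul_cancel₀ h2, one_smul]
    rw [hw]
    exact Submodule.add_mem _ (Submodule.smul_mem _ _ (Submodule.subset_span h1))
      (Submodule.smul_mem _ _ (Submodule.subset_span h2'))
  obtain ⟨b, hbs, hbspan, hbli⟩ := exists_linearIndependent F s
  have hbtop : ⊤ ≤ Submodule.span F (Set.range ((↑) : b → (Fin 4 → F))) := by
    rw [Subtype.range_coe, hbspan, hspan]
  let B0 : Module.Basis b F (Fin 4 → F) := Module.Basis.mk hbli hbtop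
  let e : b ≃ Fin 4 := B0.indexEquiv (Pi.basisFun F (Fin 4))
  let B : Module.Basis (Fin 4) F (Fin 4 → F) := B0.reindex e
  have hBs : ∀ i, B i ∈ s := by
    intro i
    have : B i = ((e.symm i : b) : Fin 4 → F) := by
      simp [B, B0]
    rw [this]
    exact hbs (e.symm i).2
  let d : Fin 4 → F := fun i => if (B i) ᵥ* y = B i then 1 else -1
  have hdB : ∀ i, (B i) ᵥ* y = d i • B i := by
    intro i
    by_cases h : (B i) ᵥ* y = B i
    · simp only [d, if_pos h, one_smul]; exact h
    · simp only [d, if_neg h, neg_smul, one_smul]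
      exact (hBs i).resolve_left h
  refine ⟨Matrix.of (fun i => B i), d, ?_, ?_, ?_⟩
  · have hli : LinearIndependent F (Matrix.of (fun i => B i) : Matrix (Fin 4) (Fin 4) F).row := by
      have : (Matrix.of (fun i => B i) : Matrix (Fin 4) (Fin 4) F).row = fun i => B i := rfl
      rw [this]
      exact B.linearIndependent
    have hu := Matrix.linearIndependent_rows_iff_isUnit.mp hli
    exact (Matrix.isUnit_iff_isUnit_det _).mp hu |>.ne_zero
  · intro i
    by_cases h : (B i) ᵥ* y = B i
    · simp [d, if_pos h]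
    · simp [d, if_neg h]
  · ext i j
    have h1 := congrFun (hdB i) j
    rw [Matrix.diagonal_mul]
    simp only [Matrix.of_apply]
    rw [Matrix.mul_apply]
    simp only [Matrix.of_apply]
    rw [Pi.smul_apply, smul_eq_mul] at h1
    rw [← h1]
    rfl

end Cfsg.Agent.Helper69
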