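import Mathlib
import Cfsg.Prelude.Def_GeometricClasses

set_option autoImplicit false

/-!
# The standard extraspecial group `3^{1+2}` inside `GL_3(F)` (helper69, definitions for S5998)
-/

namespace Cfsg.Agent.Helper69

/-- the cyclic shift `e₀ → e₁ → e₂ → e₀` -/
def e3X (F : Type*) [Field F] : Matrix (Fin 3) (Fin 3) F := !![0, 0, 1; 1, 0, 0; 0, 1, 0]

/-- `diag(1, ω, ω²)` -/
def e3Z {F : Type*} [Field F] (ω : F) : Matrix (Fin 3) (Fin 3) F := !![1, 0, 0; 0, ω, 0; 0, 0, ω ^ 2]

/-- the subgroup of `GL_3(F)` generated by the shift and `diag(1, ω, ω²)`: for a primitive cube root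
of unity `ω` this is the extraspecial group of order 27 and exponent 3 -/
def E3 {F : Type*} [Field F] (ω : F) : Subgroup (GL (Fin 3) F) :=
  Subgroup.closure {g | (g : Matrix (Fin 3) (Fin 3) F) = e3X F ∨ (g : Matrix (Fin 3) (Fin 3) F) = e3Z ω}

end Cfsg.Agent.Helper69
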