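/-
helper69: CALL C3O piece JEX (helper43).
-/
import Mathlib
import Cfsg.Agent.Helper14.Forms

set_option autoImplicit false

namespace Cfsg.Agent.Helper69

open Module

/-- PIECE JEX -/
theorem c3o_jex {F : Type*} [Field F] [Fintype F] (h2 : (2 : F) ≠ 0) {V : Type*} [AddCommGroup V]
    [Module F V] [FiniteDimensional F V] (B : LinearMap.BilinForm F V) (hB : B.Nondegenerate)
    (hs : B.IsSymm) (hev : Even (Module.finrank F V)) (n : F) :
    ∃ J : V →ₗ[F] V, (∀ v, J (J v) = n • v) ∧ ∀ u v, B (J u) v = B u (J v) := by
  classical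
  obtain ⟨k, hk⟩ := hev
  obtain ⟨e₀, he₀, hne₀⟩ := Helper14.exists_orthogonal_basis' h2 hB hs hk
  obtain ⟨e, horth, hne⟩ : ∃ e : Basis (Fin k ⊕ Fin k) F V,
      (∀ x y, x ≠ y → B (e x) (e y) = 0) ∧ ∀ x, B (e x) (e x) ≠ 0 := by
    refine ⟨e₀.reindex finSumFinEquiv.symm, ?_, ?_⟩
    · intro x y hxy
      simp only [Basis.reindex_apply, Equiv.symm_symm]
      exact he₀ _ _ (fun h => hxy (finSumFinEquiv.injective h))
    · intro x
      simp only [Basis.reindex_apply, Equiv.symm_symm]
      exact hne₀ _
  have hst : ∀ j : Fin k, ∃ s t : F,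
      s ^ 2 + (B (e (Sum.inr j)) (e (Sum.inr j)) / B (e (Sum.inl j)) (e (Sum.inl j))) * t ^ 2
        = n := by
    intro j
    obtain ⟨s, t, h⟩ := Helper14.exists_sq_add_sq h2 (one_ne_zero (α := F))
      (div_ne_zero (hne (Sum.inr j)) (hne (Sum.inl j))) n
    exact ⟨s, t, by rw [← h]; ring⟩
  choose s t hst using hst
  obtain ⟨J, hJl, hJr⟩ : ∃ J : V →ₗ[F] V,
      (∀ j, J (e (Sum.inl j)) = s j • e (Sum.inl j) + t j • e (Sum.inr j)) ∧
      (∀ j, J (e (Sum.inr j)) =
        (B (e (Sum.inr j)) (e (Sum.inr j)) / B (e (Sum.inl j)) (e (Sum.inl j)) * t j) •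
          e (Sum.inl j) - s j • e (Sum.inr j)) := by
    refine ⟨e.constr F (Sum.elim
      (fun j => s j • e (Sum.inl j) + t j • e (Sum.inr j))
      (fun j => (B (e (Sum.inr j)) (e (Sum.inr j)) / B (e (Sum.inl j)) (e (Sum.inl j)) * t j) •
          e (Sum.inl j) - s j • e (Sum.inr j))), ?_, ?_⟩
    · intro j; rw [Basis.constr_basis]; rfl
    · intro j; rw [Basis.constr_basis]; rfl
  refine ⟨J, ?_, ?_⟩
  · have hJJ : J ∘ₗ J = n • LinearMap.id := by
      apply e.ext
      rintro (j | j)
      · simp only [LinearMap.comp_apply, hJl, map_add, map_smul, hJr, LinearMap.smul_apply,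
          LinearMap.id_apply]
        rw [← hst j]; module
      · simp only [LinearMap.comp_apply, hJl, map_sub, map_smul, hJr, LinearMap.smul_apply,
          LinearMap.id_apply]
        rw [← hst j]; module
    intro v
    have := congrArg (fun f => f v) hJJ
    simpa using this
  · have key : B.compl₁₂ J LinearMap.id = B.compl₁₂ LinearMap.id J := by
      apply LinearMap.ext_basis e e
      rintro (i | i) (j | j)
      · simp only [LinearMap.compl₁₂_apply, LinearMap.id_apply, hJl, map_add, map_smul,
          LinearMap.add_apply, LinearMap.smul_apply, smul_eq_mul]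
        rw [horth (Sum.inr i) (Sum.inl j) (by simp), horth (Sum.inl i) (Sum.inr j) (by simp)]
        by_cases hij : i = j
        · subst hij; ring
        · rw [horth (Sum.inl i) (Sum.inl j) (by simpa using hij)]; ring
      · simp only [LinearMap.compl₁₂_apply, LinearMap.id_apply, hJl, hJr, map_add, map_sub,
          map_smul, LinearMap.add_apply, LinearMap.smul_apply, smul_eq_mul]
        rw [horth (Sum.inl i) (Sum.inr j) (by simp)]
        by_cases hij : i = j
        · subst hij
          have := hne (Sum.inl i)
          field_simp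
          ring
        · rw [horth (Sum.inr i) (Sum.inr j) (by simpa using hij),
            horth (Sum.inl i) (Sum.inl j) (by simpa using hij)]; ring
      · simp only [LinearMap.compl₁₂_apply, LinearMap.id_apply, hJl, hJr, map_add, map_sub,
          map_smul, LinearMap.sub_apply, LinearMap.smul_apply, smul_eq_mul]
        rw [horth (Sum.inr i) (Sum.inl j) (by simp)]
        by_cases hij : i = j
        · subst hij
          have := hne (Sum.inl i)
          field_simp
          ring
        · rw [horth (Sum.inr i) (Sum.inr j) (by simpa using hij),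
            horth (Sum.inl i) (Sum.inl j) (by simpa using hij)]; ring
      · simp only [LinearMap.compl₁₂_apply, LinearMap.id_apply, hJr, map_sub, map_smul,
          LinearMap.sub_apply, LinearMap.smul_apply, smul_eq_mul]
        rw [horth (Sum.inl i) (Sum.inr j) (by simp), horth (Sum.inr i) (Sum.inl j) (by simp)]
        by_cases hij : i = j
        · subst hij; ring
        · rw [horth (Sum.inr i) (Sum.inr j) (by simpa using hij)]; ring
    intro u v
    have := congrArg (fun f => f u v) key
    simpa using this

end Cfsg.Agent.Helper69
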