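import Mathlib
import Cfsg.Agent.Helper96.OHDefs

set_option autoImplicit false
set_option linter.unusedSectionVars false

/-!
# CALL OD hub (helper69; rows S5989 + S5991): discriminant class of a subspace.

`ODs Q W`: some (equivalently, for nondegenerate-free reasons, every: piece DSBASIS) basis of `W`
has a Gram matrix (for the polar form of `Q`) whose determinant is a square.
-/

namespace Cfsg.Agent.Helper69.OD

open Module Cfsg Cfsg.Geo
open Cfsg.Agent.Helper96.OH

variable {ι : Type} [Fintype ι] [DecidableEq ι] {F : Type*} [Field F]

/-- the discriminant of `W` is a square. -/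
def ODs (Q : (ι → F) → F) (W : Submodule F (ι → F)) : Prop :=
  ∃ e : Basis (Fin (finrank F W)) F W,
    IsSquare (Matrix.det (Matrix.of fun i j : Fin (finrank F W) =>
      QuadraticMap.polar Q (e i : ι → F) (e j : ι → F)))

end Cfsg.Agent.Helper69.OD
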