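import Mathlib
import Cfsg.Prelude.Def_GeometricClasses
import Cfsg.Agent.Helper90.UFRDefs
import Cfsg.Agent.Helper90.UFRBase

/-!
# S5982, piece NECU (helper69): a diagonal matrix with an `SL`-conjugate in the unitary
similarity group has eigenvalue multiset stable under `a ↦ c / a ^ q₀`.
-/

set_option autoImplicit false

namespace Cfsg.Agent.Helper69

open Module Polynomial Cfsg.Agent.Helper90.UFR

section fin
variable {F : Type*} [Field F]

theorem ufr_roots_prod {n : ℕ} (a : Fin n → F) :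
    (∏ i : Fin n, (X - C (a i))).roots = Finset.univ.val.map a := by
  have h5 : (fun i => X - C (a i)) = (fun t : F => X - C t) ∘ a := rfl
  rw [Finset.prod_eq_multiset_prod, h5, ← Multiset.map_map,
    Polynomial.roots_multiset_prod_X_sub_C]

theorem ufr_charpoly_conj_diag {n : ℕ} (A B : Matrix (Fin n) (Fin n) F) (hBA : B * A = 1)
    (a : Fin n → F) : (A * Matrix.diagonal a * B).charpoly = ∏ i : Fin n, (X - C (a i)) := by
  rw [mul_assoc, Matrix.charpoly_mul_comm, mul_assoc, hBA, mul_one, Matrix.charpoly_diagonal]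

theorem conj_diag_nec_u [Fintype F] (q₀ : ℕ) (hq : Fintype.card F = q₀ ^ 2) (n : ℕ)
    (f : (Fin n → F) → (Fin n → F) → F) (hf : Cfsg.Geo.IsUnitaryFormPow q₀ f)
    (x : GL (Fin n) F) (d : Fin n → F)
    (hx : (x : Matrix (Fin n) (Fin n) F) = Matrix.diagonal d) (h : IsConjU f x) :
    ∃ c : F, c ≠ 0 ∧ (Finset.univ.val.map fun i : Fin n => (d i) ^ q₀)
      = Finset.univ.val.map fun i : Fin n => c * (d i)⁻¹ := by
  obtain ⟨σ, J, hσ, hσσ, hJdet, hJt, hsim⟩ := ufr_setup q₀ hq n f hf
  obtain ⟨g, _, hgsim⟩ := h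
  obtain ⟨c, hc, hcJ⟩ := (hsim _).1 hgsim
  refine ⟨c, hc, ?_⟩
  -- the entries of `d` are non-zero and `x⁻¹` is diagonal
  have hgg : (g : Matrix (Fin n) (Fin n) F) * ((g⁻¹ : GL (Fin n) F) : Matrix (Fin n) (Fin n) F)
      = 1 := by rw [← Units.val_mul, mul_inv_cancel, Units.val_one]
  have hgg' : ((g⁻¹ : GL (Fin n) F) : Matrix (Fin n) (Fin n) F) * (g : Matrix (Fin n) (Fin n) F)
      = 1 := by rw [← Units.val_mul, inv_mul_cancel, Units.val_one]
  have hxx : (x : Matrix (Fin n) (Fin n) F) * ((x⁻¹ : GL (Fin n) F) : Matrix (Fin n) (Fin n) F)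
      = 1 := by rw [← Units.val_mul, mul_inv_cancel, Units.val_one]
  have hd0 : ∀ i, d i ≠ 0 := by
    intro i hi
    have h1 := congrFun (congrFun hxx i) i
    rw [hx, Matrix.diagonal_mul, hi, zero_mul, Matrix.one_apply_eq] at h1
    exact zero_ne_one h1
  have hxinv : ((x⁻¹ : GL (Fin n) F) : Matrix (Fin n) (Fin n) F)
      = Matrix.diagonal (fun i => (d i)⁻¹) := by
    have h1 : Matrix.diagonal (fun i => (d i)⁻¹) * Matrix.diagonal d = 1 := by
      rw [Matrix.diagonal_mul_diagonal]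
      have : (fun i => (d i)⁻¹ * d i) = fun _ => (1 : F) := by
        funext i
        exact inv_mul_cancel₀ (hd0 i)
      rw [this, Matrix.diagonal_one]
    calc ((x⁻¹ : GL (Fin n) F) : Matrix (Fin n) (Fin n) F)
        = (Matrix.diagonal (fun i => (d i)⁻¹) * Matrix.diagonal d)
            * ((x⁻¹ : GL (Fin n) F) : Matrix (Fin n) (Fin n) F) := by rw [h1, one_mul]
      _ = Matrix.diagonal (fun i => (d i)⁻¹) := by rw [mul_assoc, ← hx, hxx, mul_one]
  -- M and its inverse N
  set M : Matrix (Fin n) (Fin n) F := ((g⁻¹ * x * g : GL (Fin n) F) : Matrix (Fin n) (Fin n) F)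
    with hM
  have hMval : M = ((g⁻¹ : GL (Fin n) F) : Matrix (Fin n) (Fin n) F) * Matrix.diagonal d
      * (g : Matrix (Fin n) (Fin n) F) := by
    rw [hM, Units.val_mul, Units.val_mul, hx]
  obtain ⟨N, hNdef⟩ : ∃ N : Matrix (Fin n) (Fin n) F,
      N = ((g⁻¹ : GL (Fin n) F) : Matrix (Fin n) (Fin n) F)
        * Matrix.diagonal (fun i => (d i)⁻¹) * (g : Matrix (Fin n) (Fin n) F) := ⟨_, rfl⟩
  have hMN : M * N = 1 := by
    have e1 : (g⁻¹ * x * g : GL (Fin n) F) * (g⁻¹ * x⁻¹ * g) = 1 := by group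
    have e2 := congrArg (fun u : GL (Fin n) F => (u : Matrix (Fin n) (Fin n) F)) e1
    simp only [Units.val_mul, Units.val_one] at e2
    rw [hNdef, hMval, ← hxinv, ← hx]
    exact e2
  -- the key matrix identity
  have hkey : J * M.map σ = (c • N.transpose) * J := by
    have h1 : N.transpose * (M.transpose * J * M.map σ) = N.transpose * (c • J) := by rw [hcJ]
    have h2 : N.transpose * M.transpose = 1 := by
      rw [← Matrix.transpose_mul, hMN, Matrix.transpose_one]
    rw [← mul_assoc, ← mul_assoc, h2, one_mul, Matrix.mul_smul] at h1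
    rw [h1, Matrix.smul_mul]
  have hJu : IsUnit J.det := isUnit_iff_ne_zero.mpr hJdet
  have hJJ : J * J⁻¹ = 1 := Matrix.mul_nonsing_inv J hJu
  have hJJ' : J⁻¹ * J = 1 := Matrix.nonsing_inv_mul J hJu
  have hMσ : M.map σ = J⁻¹ * ((c • N.transpose) * J) := by
    rw [← hkey, ← mul_assoc, hJJ', one_mul]
  -- charpoly of both sides
  have hch1 : (M.map σ).charpoly = ∏ i : Fin n, (X - C ((d i) ^ q₀)) := by
    have h1 : (M.map (σ : F →+* F)).charpoly = M.charpoly.map (σ : F →+* F) :=
      Matrix.charpoly_map M (σ : F →+* F)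
    have h2 : M.charpoly = ∏ i : Fin n, (X - C (d i)) := by
      rw [hMval]
      exact ufr_charpoly_conj_diag _ _ hgg d
    have h3 : (M.map σ).charpoly = M.charpoly.map (σ : F →+* F) := h1
    rw [h3, h2, Polynomial.map_prod]
    apply Finset.prod_congr rfl
    intro i _
    rw [Polynomial.map_sub, Polynomial.map_X, Polynomial.map_C]
    congr 2
    exact hσ (d i)
  have hch2 : (M.map σ).charpoly = ∏ i : Fin n, (X - C (c * (d i)⁻¹)) := by
    rw [hMσ, Matrix.charpoly_mul_comm, mul_assoc, hJJ, mul_one]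
    have h1 : c • N.transpose = (c • N).transpose := (Matrix.transpose_smul c N).symm
    rw [h1, Matrix.charpoly_transpose]
    have h2 : c • N = ((g⁻¹ : GL (Fin n) F) : Matrix (Fin n) (Fin n) F)
        * Matrix.diagonal (fun i => c * (d i)⁻¹) * (g : Matrix (Fin n) (Fin n) F) := by
      have h7 : Matrix.diagonal (fun i => c * (d i)⁻¹) = c • Matrix.diagonal (fun i => (d i)⁻¹) :=
        Matrix.diagonal_smul c _
      rw [hNdef, h7, Matrix.mul_smul, Matrix.smul_mul]
    rw [h2]
    exact ufr_charpoly_conj_diag _ _ hgg _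
  have h6 := congrArg Polynomial.roots (hch1.symm.trans hch2)
  rw [ufr_roots_prod, ufr_roots_prod] at h6
  exact h6

end fin

end Cfsg.Agent.Helper69
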