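import Mathlib
import Cfsg.Prelude.Def_GeometricClasses
import Cfsg.Agent.Helper90.UFRDefs
import Cfsg.Agent.Helper90.UFRBase

/-!
# S5982, piece SIMPOW (helper69): a conjugate of `x` in the unitary similarity group with
`x ^ k = z • 1` gives a multiplier `c` with `c ^ q₀ = c` and `c ^ k = z ^ (q₀ + 1)`.
-/

set_option autoImplicit false

namespace Cfsg.Agent.Helper69

open Module Polynomial Cfsg.Agent.Helper90.UFR

section fin
variable {F : Type*} [Field F]

theorem ufr_map_map_invol (σ : F ≃+* F) (hσσ : ∀ t, σ (σ t) = t) {n : ℕ}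
    (M : Matrix (Fin n) (Fin n) F) : (M.map σ).map σ = M := by
  ext i j
  simp [Matrix.map_apply, hσσ]

theorem ufr_map_mul' (σ : F ≃+* F) {n : ℕ} (A B : Matrix (Fin n) (Fin n) F) :
    (A * B).map σ = A.map σ * B.map σ := by
  exact Matrix.map_mul (L := A) (M := B) (f := (σ : F →+* F))

theorem ufr_map_smul' (σ : F ≃+* F) {n : ℕ} (c : F) (A : Matrix (Fin n) (Fin n) F) :
    (c • A).map σ = σ c • A.map σ := by
  ext i j
  simp [Matrix.map_apply, Matrix.smul_apply]

theorem ufr_ne_zero_of_det {n : ℕ} (hn : 0 < n) (J : Matrix (Fin n) (Fin n) F)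
    (hJ : J.det ≠ 0) : J ≠ 0 := by
  rintro rfl
  haveI : Nonempty (Fin n) := ⟨⟨0, hn⟩⟩
  exact hJ Matrix.det_zero

theorem ufr_smul_cancel {n : ℕ} (J : Matrix (Fin n) (Fin n) F) (hJ : J ≠ 0) (a b : F)
    (h : a • J = b • J) : a = b := by
  by_contra hab
  apply hJ
  have h2 : (a - b) • J = 0 := by rw [sub_smul, h, sub_self]
  rcases smul_eq_zero.mp h2 with h3 | h3
  · exact absurd (sub_eq_zero.mp h3) hab
  · exact h3

theorem sim_pow [Fintype F] (q₀ : ℕ) (hq : Fintype.card F = q₀ ^ 2) (n : ℕ) (hn : 0 < n)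
    (f : (Fin n → F) → (Fin n → F) → F) (hf : Cfsg.Geo.IsUnitaryFormPow q₀ f)
    (x : GL (Fin n) F) (k : ℕ) (z : F)
    (hxz : ((x ^ k : GL (Fin n) F) : Matrix (Fin n) (Fin n) F)
      = z • (1 : Matrix (Fin n) (Fin n) F)) (h : IsConjU f x) :
    ∃ c : F, c ≠ 0 ∧ c ^ q₀ = c ∧ c ^ k = z ^ (q₀ + 1) := by
  obtain ⟨σ, J, hσ, hσσ, hJdet, hJt, hsim⟩ := ufr_setup q₀ hq n f hf
  obtain ⟨g, _, hgsim⟩ := h
  obtain ⟨c, hc, hcJ⟩ := (hsim _).1 hgsim
  have hJ0 : J ≠ 0 := ufr_ne_zero_of_det hn J hJdet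
  set M : Matrix (Fin n) (Fin n) F := ((g⁻¹ * x * g : GL (Fin n) F) : Matrix (Fin n) (Fin n) F)
    with hM
  refine ⟨c, hc, ?_, ?_⟩
  · -- c ^ q₀ = c
    have h1 : (M.transpose * J * M.map σ).map σ = (c • J).map σ := by rw [hcJ]
    rw [ufr_map_mul', ufr_map_mul', ufr_map_map_invol σ hσσ, ufr_map_smul', ← hJt] at h1
    have h2 := congrArg Matrix.transpose h1
    rw [Matrix.transpose_mul, Matrix.transpose_mul, Matrix.transpose_smul,
      Matrix.transpose_transpose] at h2
    have h3 : M.transpose * J * M.map σ = σ c • J := by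
      rw [← h2, Matrix.mul_assoc]
      rfl
    rw [hcJ] at h3
    have := ufr_smul_cancel J hJ0 _ _ h3
    rw [hσ] at this
    exact this.symm
  · -- c ^ k = z ^ (q₀ + 1)
    have hpow : ∀ m : ℕ, (M ^ m).transpose * J * (M ^ m).map σ = c ^ m • J := by
      intro m
      induction m with
      | zero => simp
      | succ m ih =>
        have e1 : M ^ (m + 1) = M ^ m * M := pow_succ M m
        rw [e1, Matrix.transpose_mul, ufr_map_mul']
        calc M.transpose * (M ^ m).transpose * J * ((M ^ m).map σ * M.map σ)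
            = M.transpose * ((M ^ m).transpose * J * (M ^ m).map σ) * M.map σ := by
              simp only [Matrix.mul_assoc]
          _ = M.transpose * (c ^ m • J) * M.map σ := by rw [ih]
          _ = c ^ m • (M.transpose * J * M.map σ) := by
              rw [Matrix.mul_smul, Matrix.smul_mul]
          _ = c ^ (m + 1) • J := by rw [hcJ, smul_smul, pow_succ]
    have hMk : M ^ k = z • (1 : Matrix (Fin n) (Fin n) F) := by
      have e2 : (g⁻¹ * x * g) ^ k = g⁻¹ * x ^ k * g := by
        have := conj_pow (a := g⁻¹) (b := x) (i := k)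
        simpa using this
      have e3 : M ^ k = (((g⁻¹ * x * g) ^ k : GL (Fin n) F) : Matrix (Fin n) (Fin n) F) := by
        rw [hM, Units.val_pow_eq_pow_val]
      rw [e3, e2, Units.val_mul, Units.val_mul, hxz, Matrix.mul_smul, Matrix.mul_one,
        Matrix.smul_mul, ← Units.val_mul, inv_mul_cancel, Units.val_one]
    have h4 := hpow k
    rw [hMk] at h4
    have h5 : (z • (1 : Matrix (Fin n) (Fin n) F)).transpose * J
        * (z • (1 : Matrix (Fin n) (Fin n) F)).map σ = (z * σ z) • J := by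
      rw [ufr_map_smul', Matrix.transpose_smul, Matrix.transpose_one]
      have : (1 : Matrix (Fin n) (Fin n) F).map σ = 1 := by
        ext i j
        simp [Matrix.map_apply, Matrix.one_apply]
      rw [this, Matrix.smul_mul, Matrix.one_mul, Matrix.mul_smul, Matrix.mul_one, smul_smul, mul_comm]
    rw [h5] at h4
    have h6 := ufr_smul_cancel J hJ0 _ _ h4
    rw [hσ, ← pow_succ'] at h6
    exact h6.symm

end fin

end Cfsg.Agent.Helper69
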