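/-
helper69: CALL C3O piece BWD (helper43).
-/
import Mathlib
import Cfsg.Agent.Helper43.C3ODefs
import Cfsg.Agent.Helper45.Spinor
import Cfsg.Agent.Helper45.PSO

set_option autoImplicit false

namespace Cfsg.Agent.Helper69

open Matrix Module Polynomial
open Cfsg.Agent.Helper43.C3O

universe u

variable {F : Type u} [Field F] [Fintype F] {ι : Type} [Fintype ι] [DecidableEq ι]

/-- PIECE BWD -/
theorem c3o_bwd (h2 : (2 : F) ≠ 0) (Q : QuadraticForm F (ι → F))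
    (hQ : (QuadraticMap.polarBilin Q).Nondegenerate) (hcard : 2 ≤ Fintype.card ι) (n : F)
    (J : Matrix ι ι F) (ε₀ : F) (hε₀ : ¬ IsSquare ε₀)
    (hconj : ∀ J' : Matrix ι ι F, IsJ Q n J' →
      ∃ h : ↥(Cfsg.isometryGroup F ⇑Q), gm h * J = J' * gm h)
    (k : ↥(Cfsg.isometryGroup F ⇑Q)) (hkJ : gm k * J = J * gm k)
    (hk1 : Cfsg.Agent.Helper45.spin ⇑Q 1 k = -1) (hk2 : Cfsg.Agent.Helper45.spin ⇑Q ε₀ k = -1)
    (x : ↥(Cfsg.isometryGroup F ⇑Q)) (J' : Matrix ι ι F) (hJ' : IsJ Q n J')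
    (ρ : ↥(Cfsg.isometryGroup F ⇑Q)) (hρ : (gm ρ).det = -1) (ε : F)
    (h1 : gm x * J' = ε • (J' * gm x))
    (h1' : gm x * (gm ρ * J' * gm ρ⁻¹) = ε • ((gm ρ * J' * gm ρ⁻¹) * gm x)) :
    ∃ g : ↥(Cfsg.isometryGroup F ⇑Q), g ∈ Cfsg.Omega F ⇑Q ∧
      gm (g⁻¹ * x * g) * J = ε • (J * gm (g⁻¹ * x * g)) := by
  classical
  obtain ⟨h, hh⟩ := hconj J' hJ'
  have hm : ∀ a b : ↥(Cfsg.isometryGroup F ⇑Q), gm (a * b) = gm a * gm b := fun a b => rfl
  have hinv : ∀ a : ↥(Cfsg.isometryGroup F ⇑Q), gm a⁻¹ * gm a = 1 := by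
    intro a; rw [← hm, inv_mul_cancel]; rfl
  have hinv' : ∀ a : ↥(Cfsg.isometryGroup F ⇑Q), gm a * gm a⁻¹ = 1 := by
    intro a; rw [← hm, mul_inv_cancel]; rfl
  -- general conjugation step
  have step : ∀ (g : ↥(Cfsg.isometryGroup F ⇑Q)) (J'' : Matrix ι ι F),
      gm g * J = J'' * gm g → gm x * J'' = ε • (J'' * gm x) →
      gm (g⁻¹ * x * g) * J = ε • (J * gm (g⁻¹ * x * g)) := by
    intro g J'' hg hx
    have hJ : J * gm g⁻¹ = gm g⁻¹ * J'' := by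
      calc J * gm g⁻¹ = gm g⁻¹ * (gm g * J) * gm g⁻¹ := by
            rw [← mul_assoc, hinv, one_mul]
        _ = gm g⁻¹ * J'' * (gm g * gm g⁻¹) := by rw [hg]; simp only [mul_assoc]
        _ = gm g⁻¹ * J'' := by rw [hinv', mul_one]
    rw [hm, hm]
    calc gm g⁻¹ * gm x * gm g * J = gm g⁻¹ * gm x * (gm g * J) := by simp only [mul_assoc]
      _ = gm g⁻¹ * (gm x * J'') * gm g := by rw [hg]; simp only [mul_assoc]
      _ = ε • (gm g⁻¹ * J'' * gm x * gm g) := by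
          rw [hx]; simp only [mul_assoc, Matrix.mul_smul, Matrix.smul_mul]
      _ = ε • (J * (gm g⁻¹ * gm x * gm g)) := by rw [← hJ]; simp only [mul_assoc]
  -- the four candidates
  have c1 : gm h * J = J' * gm h := hh
  have c2 : gm (h * k) * J = J' * gm (h * k) := by
    rw [hm, mul_assoc, hkJ, ← mul_assoc, hh, mul_assoc]
  have c3 : gm (ρ * h) * J = (gm ρ * J' * gm ρ⁻¹) * gm (ρ * h) := by
    rw [hm, mul_assoc, hh]
    calc gm ρ * (J' * gm h) = gm ρ * J' * (gm ρ⁻¹ * gm ρ) * gm h := by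
          rw [hinv, mul_one, mul_assoc]
      _ = gm ρ * J' * gm ρ⁻¹ * (gm ρ * gm h) := by simp only [mul_assoc]
  have c4 : gm (ρ * h * k) * J = (gm ρ * J' * gm ρ⁻¹) * gm (ρ * h * k) := by
    rw [hm (ρ * h) k, mul_assoc, hkJ, ← mul_assoc, c3, mul_assoc]
  -- spins
  have hρs : Cfsg.Agent.Helper45.spin ⇑Q 1 ρ * Cfsg.Agent.Helper45.spin ⇑Q ε₀ ρ = -1 := by
    rcases Int.units_eq_one_or
      (Cfsg.Agent.Helper45.spin ⇑Q 1 ρ * Cfsg.Agent.Helper45.spin ⇑Q ε₀ ρ) with hs | hs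
    · exfalso
      have hd : (gm ρ).det = 1 := (Cfsg.Agent.Helper45.det_eq_one_iff Q h2 hQ ε₀ hε₀ ρ).2 hs
      rw [hρ] at hd
      apply h2
      linear_combination -hd
    · exact hs
  have hom := fun g => Cfsg.Agent.Helper45.mem_omega_iff Q h2 hQ hcard ε₀ hε₀ g
  rcases Int.units_eq_one_or (Cfsg.Agent.Helper45.spin ⇑Q 1 h) with a | a <;>
    rcases Int.units_eq_one_or (Cfsg.Agent.Helper45.spin ⇑Q ε₀ h) with b | b
  · exact ⟨h, (hom h).2 ⟨a, b⟩, step h J' c1 h1⟩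
  · rcases Int.units_eq_one_or (Cfsg.Agent.Helper45.spin ⇑Q 1 ρ) with c | c
    · have e : Cfsg.Agent.Helper45.spin ⇑Q ε₀ ρ = -1 := by rw [c, one_mul] at hρs; exact hρs
      refine ⟨ρ * h, (hom _).2 ⟨?_, ?_⟩, step _ _ c3 h1'⟩
      · rw [map_mul, c, a]; rfl
      · rw [map_mul, e, b]; rfl
    · have e : Cfsg.Agent.Helper45.spin ⇑Q ε₀ ρ = 1 := by
        rw [c] at hρs
        have := congrArg (fun t : ℤˣ => -1 * t) hρs
        simpa using this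
      refine ⟨ρ * h * k, (hom _).2 ⟨?_, ?_⟩, step _ _ c4 h1'⟩
      · rw [map_mul, map_mul, c, a, hk1]; rfl
      · rw [map_mul, map_mul, e, b, hk2]; rfl
  · rcases Int.units_eq_one_or (Cfsg.Agent.Helper45.spin ⇑Q 1 ρ) with c | c
    · have e : Cfsg.Agent.Helper45.spin ⇑Q ε₀ ρ = -1 := by rw [c, one_mul] at hρs; exact hρs
      refine ⟨ρ * h * k, (hom _).2 ⟨?_, ?_⟩, step _ _ c4 h1'⟩
      · rw [map_mul, map_mul, c, a, hk1]; rfl
      · rw [map_mul, map_mul, e, b, hk2]; rfl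
    · have e : Cfsg.Agent.Helper45.spin ⇑Q ε₀ ρ = 1 := by
        rw [c] at hρs
        have := congrArg (fun t : ℤˣ => -1 * t) hρs
        simpa using this
      refine ⟨ρ * h, (hom _).2 ⟨?_, ?_⟩, step _ _ c3 h1'⟩
      · rw [map_mul, c, a]; rfl
      · rw [map_mul, e, b]; rfl
  · refine ⟨h * k, (hom _).2 ⟨?_, ?_⟩, step _ _ c2 h1⟩
    · rw [map_mul, a, hk1]; rfl
    · rw [map_mul, b, hk2]; rfl

end Cfsg.Agent.Helper69
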