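import Mathlib

set_option autoImplicit false

/-!
# Piece STRUCT of S6000 (helper69): 2-groups of exponent 4 with centre of order 4 in which every
characteristic abelian subgroup is cyclic have central squares and central commutators of
order at most 2.
-/

namespace Cfsg.Agent.Helper69

/-- in a group of exponent dividing 4 a central commutator has order at most 2 -/
theorem e4s_comm_sq {G : Type*} [Group G] (hexp : ∀ g : G, g ^ 4 = 1) (h u : G)
    (hz : h * u * h⁻¹ * u⁻¹ ∈ Subgroup.center G) : (h * u * h⁻¹ * u⁻¹) ^ 2 = 1 := by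
  obtain ⟨z, hzdef⟩ : ∃ z : G, z = h * u * h⁻¹ * u⁻¹ := ⟨_, rfl⟩
  rw [← hzdef] at hz ⊢
  have hL : ∀ g : G, g * z = z * g := fun g => Subgroup.mem_center_iff.mp hz g
  have hL' : ∀ g k : G, g * (z * k) = z * (g * k) := by
    intro g k
    rw [← mul_assoc, hL, mul_assoc]
  have hhu : h * u = z * (u * h) := by rw [hzdef]; group
  have hhu' : ∀ k : G, h * (u * k) = z * (u * (h * k)) := by
    intro k
    rw [← mul_assoc, hhu, mul_assoc, mul_assoc]
  have key : h * u * (h * u) * (h * u) * (h * u) =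
      z * (z * (z * (z * (z * (z * (z * (z * (z * (z * (u * (u * (u * (u *
        (h * (h * (h * h)))))))))))))))) := by
    simp only [mul_assoc, hL, hL', hhu, hhu']
  have h4 : ∀ g : G, g * (g * (g * g)) = 1 := by
    intro g
    have := hexp g
    rw [pow_succ, pow_succ, pow_succ, pow_one] at this
    rw [← this]
    simp only [mul_assoc]
  have h4' : ∀ g k : G, g * (g * (g * (g * k))) = k := by
    intro g k
    have := h4 g
    calc g * (g * (g * (g * k))) = (g * (g * (g * g))) * k := by simp only [mul_assoc]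
      _ = k := by rw [this, one_mul]
  have hlhs : h * u * (h * u) * (h * u) * (h * u) = 1 := by
    have := hexp (h * u)
    rw [pow_succ, pow_succ, pow_succ, pow_one] at this
    exact this
  rw [hlhs, h4, h4', h4', h4', mul_one] at key
  rw [pow_two]
  exact key.symm

theorem e4_struct {G : Type*} [Group G] [Finite G] (hp : IsPGroup 2 G)
    (hexp : Monoid.exponent G = 4) (hZ : Nat.card (Subgroup.center G) = 4)
    (hchar : ∀ A : Subgroup G, A.Characteristic → IsMulCommutative A → IsCyclic A) (g h : G) :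
    g ^ 2 ∈ Subgroup.center G ∧ g * h * g⁻¹ * h⁻¹ ∈ Subgroup.center G ∧
      (g * h * g⁻¹ * h⁻¹) ^ 2 = 1 := by
  classical
  haveI : Fact (Nat.Prime 2) := ⟨Nat.prime_two⟩
  have hexp4 : ∀ g : G, g ^ 4 = 1 := by
    intro g
    rw [← hexp]
    exact Monoid.pow_exponent_eq_one g
  set Z2 : Subgroup G := Subgroup.upperCentralSeries G 2 with hZ2
  have hZ2mem : ∀ u : G, u ∈ Z2 ↔ ∀ y : G, u * y * u⁻¹ * y⁻¹ ∈ Subgroup.center G := by
    intro u
    rw [hZ2, show (2 : ℕ) = 1 + 1 from rfl, Subgroup.mem_upperCentralSeries_succ_iff,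
      Subgroup.upperCentralSeries_one]
    rfl
  have hZle : Subgroup.center G ≤ Z2 := by
    rw [hZ2, ← Subgroup.upperCentralSeries_one]
    exact Subgroup.upperCentralSeries_mono G (by norm_num)
  -- the centre of Z2
  set A : Subgroup G := Z2 ⊓ Subgroup.centralizer (Z2 : Set G) with hA
  have hAchar : A.Characteristic := by
    rw [hA, hZ2]
    infer_instance
  have hAcomm : IsMulCommutative A := by
    refine ⟨⟨fun a b => ?_⟩⟩
    apply Subtype.ext
    have ha : (a : G) ∈ Z2 ⊓ Subgroup.centralizer (Z2 : Set G) := a.2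
    have hb : (b : G) ∈ Z2 ⊓ Subgroup.centralizer (Z2 : Set G) := b.2
    have ha' := Subgroup.mem_inf.mp ha
    have hb' := Subgroup.mem_inf.mp hb
    have := (Subgroup.mem_centralizer_iff.mp hb'.2) (a : G) ha'.1
    show (a : G) * (b : G) = (b : G) * (a : G)
    exact this
  have hAcyc : IsCyclic A := hchar A hAchar hAcomm
  have hAcard : Nat.card A ≤ 4 := by
    have h1 : Monoid.exponent A = Nat.card A := IsCyclic.exponent_eq_card
    have h2 : Monoid.exponent A ∣ 4 := by
      apply Monoid.exponent_dvd_of_forall_pow_eq_one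
      intro a
      apply Subtype.ext
      rw [Subgroup.coe_pow, hexp4]
      rfl
    rw [h1] at h2
    exact Nat.le_of_dvd (by norm_num) h2
  have hZA : Subgroup.center G ≤ A := by
    rw [hA]
    refine le_inf hZle ?_
    intro z hz
    rw [Subgroup.mem_centralizer_iff]
    intro k _
    exact Subgroup.mem_center_iff.mp hz k
  have hAZ : A = Subgroup.center G := by
    symm
    apply Subgroup.eq_of_le_of_card_ge hZA
    rw [hZ]
    exact hAcard
  -- the centraliser of Z2 is the centre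
  have hCnormal : (Subgroup.centralizer (Z2 : Set G)).Normal := by
    rw [hZ2]
    infer_instance
  have hnil : Group.IsNilpotent G := hp.isNilpotent
  have hC : ∀ k : ℕ, ∀ c ∈ Subgroup.centralizer (Z2 : Set G),
      c ∈ Subgroup.upperCentralSeries G (k + 1) → c ∈ Subgroup.center G := by
    intro k
    induction k with
    | zero =>
      intro c _ hc
      rw [zero_add, Subgroup.upperCentralSeries_one] at hc
      exact hc
    | succ k ih =>
      intro c hcC hc
      have h1 : ∀ y : G, c * y * c⁻¹ * y⁻¹ ∈ Subgroup.center G := by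
        intro y
        apply ih
        · have h2 : c * y * c⁻¹ * y⁻¹ = c * (y * c⁻¹ * y⁻¹) := by group
          rw [h2]
          exact Subgroup.mul_mem _ hcC
            (hCnormal.conj_mem _ (Subgroup.inv_mem _ hcC) y)
        · exact (Subgroup.mem_upperCentralSeries_succ_iff.mp hc) y
      have h3 : c ∈ A := by
        rw [hA]
        exact ⟨(hZ2mem c).mpr h1, hcC⟩
      rw [hAZ] at h3
      exact h3
  have hCZ : ∀ c ∈ Subgroup.centralizer (Z2 : Set G), c ∈ Subgroup.center G := by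
    intro c hc
    obtain ⟨n, hn⟩ := hnil.nilpotent
    apply hC n c hc
    have : Subgroup.upperCentralSeries G n ≤ Subgroup.upperCentralSeries G (n + 1) :=
      Subgroup.upperCentralSeries_mono G (Nat.le_succ n)
    apply this
    rw [hn]
    exact Subgroup.mem_top c
  -- for u ∈ Z2 the map x ↦ [u, x] is a homomorphism into the centre, with values of order ≤ 2
  have hmul : ∀ u ∈ Z2, ∀ a b : G, u * (a * b) * u⁻¹ * (a * b)⁻¹ =
      (u * a * u⁻¹ * a⁻¹) * (u * b * u⁻¹ * b⁻¹) := by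
    intro u hu a b
    have hb : u * b * u⁻¹ * b⁻¹ ∈ Subgroup.center G := (hZ2mem u).mp hu b
    have hc := Subgroup.mem_center_iff.mp hb a⁻¹
    calc u * (a * b) * u⁻¹ * (a * b)⁻¹ = (u * a * u⁻¹) * ((u * b * u⁻¹ * b⁻¹) * a⁻¹) := by group
      _ = (u * a * u⁻¹) * (a⁻¹ * (u * b * u⁻¹ * b⁻¹)) := by rw [hc]
      _ = (u * a * u⁻¹ * a⁻¹) * (u * b * u⁻¹ * b⁻¹) := by group
  have hcomm_of : ∀ u x : G, u * x * u⁻¹ * x⁻¹ = 1 → u * x = x * u := by
    intro u x h1
    have : u * x = (u * x * u⁻¹ * x⁻¹) * (x * u) := by group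
    rw [this, h1, one_mul]
  -- membership in the centraliser: squares
  have hsq : ∀ x : G, x ^ 2 ∈ Subgroup.centralizer (Z2 : Set G) := by
    intro x
    rw [Subgroup.mem_centralizer_iff]
    intro u hu
    apply hcomm_of
    rw [pow_two, hmul u hu x x, ← pow_two]
    exact e4s_comm_sq hexp4 u x ((hZ2mem u).mp hu x)
  -- membership in the centraliser: commutators
  have hcm : ∀ x y : G, x * y * x⁻¹ * y⁻¹ ∈ Subgroup.centralizer (Z2 : Set G) := by
    intro x y
    rw [Subgroup.mem_centralizer_iff]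
    intro u hu
    apply hcomm_of
    have hx : u * x * u⁻¹ * x⁻¹ ∈ Subgroup.center G := (hZ2mem u).mp hu x
    have hy : u * y * u⁻¹ * y⁻¹ ∈ Subgroup.center G := (hZ2mem u).mp hu y
    have hxi : u * x⁻¹ * u⁻¹ * x⁻¹⁻¹ = (u * x * u⁻¹ * x⁻¹)⁻¹ := by
      have h1 := hmul u hu x x⁻¹
      rw [mul_inv_cancel] at h1
      have h2 : u * 1 * u⁻¹ * (1 : G)⁻¹ = 1 := by group
      rw [h2] at h1
      exact (inv_eq_of_mul_eq_one_right h1.symm).symm
    have hyi : u * y⁻¹ * u⁻¹ * y⁻¹⁻¹ = (u * y * u⁻¹ * y⁻¹)⁻¹ := by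
      have h1 := hmul u hu y y⁻¹
      rw [mul_inv_cancel] at h1
      have h2 : u * 1 * u⁻¹ * (1 : G)⁻¹ = 1 := by group
      rw [h2] at h1
      exact (inv_eq_of_mul_eq_one_right h1.symm).symm
    rw [hmul u hu (x * y * x⁻¹) y⁻¹, hmul u hu (x * y) x⁻¹, hmul u hu x y, hxi, hyi]
    have hc := Subgroup.mem_center_iff.mp hy (u * x * u⁻¹ * x⁻¹)
    calc (u * x * u⁻¹ * x⁻¹) * (u * y * u⁻¹ * y⁻¹) * (u * x * u⁻¹ * x⁻¹)⁻¹ *
          (u * y * u⁻¹ * y⁻¹)⁻¹
        = ((u * x * u⁻¹ * x⁻¹) * (u * y * u⁻¹ * y⁻¹)) * (u * x * u⁻¹ * x⁻¹)⁻¹ *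
          (u * y * u⁻¹ * y⁻¹)⁻¹ := by group
      _ = ((u * y * u⁻¹ * y⁻¹) * (u * x * u⁻¹ * x⁻¹)) * (u * x * u⁻¹ * x⁻¹)⁻¹ *
          (u * y * u⁻¹ * y⁻¹)⁻¹ := by rw [hc]
      _ = 1 := by group
  refine ⟨hCZ _ (hsq g), hCZ _ (hcm g h), ?_⟩
  exact e4s_comm_sq hexp4 g h (hCZ _ (hcm g h))

end Cfsg.Agent.Helper69
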