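import Mathlib
import Cfsg.Agent.Helper30.BGSinger

set_option autoImplicit false

/-!
# PIECE SING of CALL S5949 (helper69)

`bgl_exists_fpf`: over a finite field `F` with `q` elements, for a prime `r ≠ p` such that the
order `i` of `q` modulo `r` satisfies `2 ≤ i ≤ n`, there is `x ∈ SL_n(F)` with `x ^ r = 1`, not
scalar, whose fixed space has dimension exactly `n % i`.
-/

namespace Cfsg.Agent.Helper69

open Matrix

/-- no nontrivial `r`-th roots of unity in `F` when the order of `q` mod `r` is at least 2 -/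
theorem bgl_root_unity_trivial {F : Type*} [Field F] [Fintype F] (r : ℕ) [Fact r.Prime]
    (hi2 : 2 ≤ orderOf ((Fintype.card F : ℕ) : ZMod r)) (c : F) (hc : c ^ r = 1) : c = 1 := by
  have hr := (Fact.out : r.Prime)
  have hc0 : c ≠ 0 := by
    rintro rfl
    rw [zero_pow hr.ne_zero] at hc
    exact zero_ne_one hc
  have h1 : c ^ (Fintype.card F - 1) = 1 := FiniteField.pow_card_sub_one_eq_one c hc0
  have hcop : Nat.Coprime r (Fintype.card F - 1) := by
    rw [Nat.Prime.coprime_iff_not_dvd hr]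
    intro hdvd
    have hq : ((Fintype.card F : ℕ) : ZMod r) = 1 := by
      have hpos : 1 ≤ Fintype.card F := Fintype.card_pos
      have h0 : ((Fintype.card F - 1 : ℕ) : ZMod r) = 0 := (ZMod.natCast_eq_zero_iff _ _).mpr hdvd
      rw [Nat.cast_sub hpos, Nat.cast_one, sub_eq_zero] at h0
      exact h0
    rw [hq, orderOf_one] at hi2
    omega
  exact (pow_eq_one_iff_of_coprime hcop).mp ⟨hc, h1⟩

theorem bgl_fromBlocks_pow {F : Type*} [Field F] {d e : ℕ} (A : Matrix (Fin d) (Fin d) F) (k : ℕ) :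
    (Matrix.fromBlocks A 0 0 (1 : Matrix (Fin e) (Fin e) F)) ^ k =
      Matrix.fromBlocks (A ^ k) 0 0 (1 : Matrix (Fin e) (Fin e) F) := by
  induction k with
  | zero => simp [Matrix.fromBlocks_one]
  | succ k ih =>
    rw [pow_succ, ih, Matrix.fromBlocks_multiply, pow_succ]
    simp

theorem bgl_exists_fpf {F : Type*} [Field F] [Fintype F] (p : ℕ) [Fact p.Prime] [CharP F p] (n r : ℕ) [Fact r.Prime] (hrp : r ≠ p)
    (hi2 : 2 ≤ orderOf ((Fintype.card F : ℕ) : ZMod r)) (hin : orderOf ((Fintype.card F : ℕ) : ZMod r) ≤ n) :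
    ∃ x : Matrix.SpecialLinearGroup (Fin n) F,
      ((x ^ r : Matrix.SpecialLinearGroup (Fin n) F) : Matrix (Fin n) (Fin n) F) = 1 ∧
      (∀ c : F, (x : Matrix (Fin n) (Fin n) F) ≠ c • (1 : Matrix (Fin n) (Fin n) F)) ∧
      Module.finrank F ↥(LinearMap.ker (Matrix.toLin' (x : Matrix (Fin n) (Fin n) F) - 1)) = n % orderOf ((Fintype.card F : ℕ) : ZMod r) := by
  classical
  have hr := (Fact.out : r.Prime)
  obtain ⟨i, hi⟩ : ∃ i, i = orderOf ((Fintype.card F : ℕ) : ZMod r) := ⟨_, rfl⟩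
  rw [← hi] at hin hi2 ⊢
  obtain ⟨d, hd⟩ : ∃ d, d = i * (n / i) := ⟨_, rfl⟩
  obtain ⟨e, he⟩ : ∃ e, e = n % i := ⟨_, rfl⟩
  rw [← he]
  have hde : d + e = n := by rw [hd, he]; exact Nat.div_add_mod n i
  have hd1 : 1 ≤ n / i := Nat.div_pos hin (by omega)
  have hdpos : 0 < d := by rw [hd]; exact Nat.mul_pos (by omega) hd1
  have : NeZero d := ⟨hdpos.ne'⟩
  have hrdvd : r ∣ Fintype.card F ^ d - 1 := by
    have h1 : ((Fintype.card F : ℕ) : ZMod r) ^ d = 1 := by
      rw [hd, pow_mul, hi, pow_orderOf_eq_one, one_pow]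
    have hpos : 1 ≤ Fintype.card F ^ d := Nat.one_le_pow _ _ Fintype.card_pos
    rw [← ZMod.natCast_eq_zero_iff, Nat.cast_sub hpos, Nat.cast_pow, h1, Nat.cast_one, sub_self]
  obtain ⟨A, hAr, hAdet⟩ := Cfsg.Agent.Helper30.bgSinger_exists (F := F) p d r hrdvd
  have hdetA : A.det = 1 := by
    apply bgl_root_unity_trivial r (hi ▸ hi2)
    rw [← Matrix.det_pow, hAr, Matrix.det_one]
  let σ : Fin d ⊕ Fin e ≃ Fin n := finSumFinEquiv.trans (finCongr hde)
  let B : Matrix (Fin d ⊕ Fin e) (Fin d ⊕ Fin e) F := Matrix.fromBlocks A 0 0 1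
  have hBr : B ^ r = 1 := by
    show (Matrix.fromBlocks A 0 0 (1 : Matrix (Fin e) (Fin e) F)) ^ r = 1
    rw [bgl_fromBlocks_pow, hAr, Matrix.fromBlocks_one]
  have hBdet : B.det = 1 := by
    show (Matrix.fromBlocks A 0 0 (1 : Matrix (Fin e) (Fin e) F)).det = 1
    rw [Matrix.det_fromBlocks_zero₁₂, hdetA, Matrix.det_one, one_mul]
  let φ := Matrix.reindexAlgEquiv F F σ
  have hxdet : (φ B).det = 1 := by
    rw [Matrix.det_reindexAlgEquiv, hBdet]
  -- the action of `φ B`
  have hmulVec : ∀ v : Fin n → F, (φ B) *ᵥ v =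
      (Sum.elim (A *ᵥ (v ∘ σ ∘ Sum.inl)) (v ∘ σ ∘ Sum.inr)) ∘ σ.symm := by
    intro v
    have h1 : φ B = B.submatrix σ.symm σ.symm := rfl
    rw [h1, Matrix.submatrix_mulVec_equiv]
    have h2 : v ∘ ⇑σ.symm.symm = Sum.elim (v ∘ σ ∘ Sum.inl) (v ∘ σ ∘ Sum.inr) := by
      funext a
      cases a <;> rfl
    rw [h2]
    show ((Matrix.fromBlocks A 0 0 (1 : Matrix (Fin e) (Fin e) F)) *ᵥ
      Sum.elim (v ∘ σ ∘ Sum.inl) (v ∘ σ ∘ Sum.inr)) ∘ σ.symm = _
    rw [Matrix.fromBlocks_mulVec]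
    simp
  let x : Matrix.SpecialLinearGroup (Fin n) F := ⟨φ B, hxdet⟩
  refine ⟨x, ?_, ?_, ?_⟩
  · rw [Matrix.SpecialLinearGroup.coe_pow]
    show (φ B) ^ r = 1
    rw [← map_pow, hBr, map_one]
  · intro c hc
    have hc' : φ B = c • (1 : Matrix (Fin n) (Fin n) F) := hc
    have hB : B = c • (1 : Matrix (Fin d ⊕ Fin e) (Fin d ⊕ Fin e) F) := by
      apply φ.injective
      rw [hc', map_smul, map_one]
    have hA : A = c • (1 : Matrix (Fin d) (Fin d) F) := by
      ext a b
      have h1 := congrFun (congrFun hB (Sum.inl a)) (Sum.inl b)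
      simp only [B, Matrix.fromBlocks_apply₁₁, Matrix.smul_apply, Matrix.one_apply,
        Sum.inl.injEq] at h1
      rw [h1]
      simp [Matrix.one_apply]
    have hcr : c ^ r = 1 := by
      have h2 : A.det ^ r = 1 := by rw [hdetA, one_pow]
      have h3 : (c • (1 : Matrix (Fin d) (Fin d) F)) ^ r = 1 := hA ▸ hAr
      rw [smul_pow, one_pow] at h3
      have h4 := congrFun (congrFun h3 ⟨0, hdpos⟩) ⟨0, hdpos⟩
      simpa using h4
    have hc1 : c = 1 := bgl_root_unity_trivial r (hi ▸ hi2) c hcr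
    apply hAdet
    have hne : Nonempty (Fin d) := ⟨⟨0, hdpos⟩⟩
    rw [hA, hc1, one_smul, sub_self, Matrix.det_zero]
  · show Module.finrank F ↥(LinearMap.ker (Matrix.toLin' (φ B) - 1)) = e
    let L : (Fin n → F) →ₗ[F] (Fin d → F) := LinearMap.funLeft F F (σ ∘ Sum.inl)
    have hker : LinearMap.ker (Matrix.toLin' (φ B) - 1) = LinearMap.ker L := by
      ext v
      rw [LinearMap.mem_ker, LinearMap.mem_ker, LinearMap.sub_apply, Matrix.toLin'_apply,
        Module.End.one_apply, sub_eq_zero, hmulVec]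
      constructor
      · intro h
        have h1 : A *ᵥ (v ∘ σ ∘ Sum.inl) = v ∘ σ ∘ Sum.inl := by
          funext a
          have h2 := congrFun h (σ (Sum.inl a))
          simpa using h2
        have h3 : (A - 1) *ᵥ (v ∘ σ ∘ Sum.inl) = 0 := by
          rw [Matrix.sub_mulVec, h1, Matrix.one_mulVec, sub_self]
        exact Matrix.eq_zero_of_mulVec_eq_zero hAdet h3
      · intro h
        have h0 : v ∘ σ ∘ Sum.inl = 0 := h
        rw [h0, Matrix.mulVec_zero]
        funext k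
        obtain ⟨a, rfl⟩ := σ.surjective k
        cases a with
        | inl a =>
          have := congrFun h0 a
          simpa using this.symm
        | inr b => simp
    have hsurj : LinearMap.range L = ⊤ := by
      rw [LinearMap.range_eq_top]
      intro u
      refine ⟨(Sum.elim u 0) ∘ σ.symm, ?_⟩
      funext a
      simp [L, LinearMap.funLeft_apply]
    have hrn := LinearMap.finrank_range_add_finrank_ker L
    rw [hsurj, finrank_top, Module.finrank_fin_fun, Module.finrank_fin_fun] at hrn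
    rw [hker]
    omega

end Cfsg.Agent.Helper69
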