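import Cfsg.Statements.S1383

set_option autoImplicit false

namespace Cfsg.Agent.Helper69

open Cfsg Subgroup

universe u

/-- In a finite nilpotent group, two elements commute as soon as, for every prime dividing both
orders, the Sylow subgroups for that prime are commutative. -/
theorem bg83der_commute {X : Type u} [Group X] [Finite X] (hnil : Group.IsNilpotent X) (x y : X)
    (h : ∀ q : ℕ, q.Prime → q ∣ orderOf x → q ∣ orderOf y →
      ∀ Q : Sylow q X, ∀ s ∈ (Q : Subgroup X), ∀ t ∈ (Q : Subgroup X), s * t = t * s) :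
    x * y = y * x := by
  have htfae := Group.isNilpotent_of_finite_tfae (G := X)
  obtain ⟨e⟩ := (htfae.out 0 4).1 hnil
  apply e.symm.injective
  rw [map_mul, map_mul]
  funext q
  funext Q
  have hqprime : (q : ℕ).Prime := Nat.prime_of_mem_primeFactors q.2
  -- the coordinates
  set s := (e.symm x) q Q with hs
  set t := (e.symm y) q Q with ht
  show s * t = t * s
  -- orders of coordinates
  have hsx : orderOf s ∣ orderOf x := by
    have h1 : orderOf (e.symm x) ∣ orderOf x := by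
      rw [MulEquiv.orderOf_eq]
    have h2 : orderOf ((Pi.evalMonoidHom _ Q) ((Pi.evalMonoidHom _ q) (e.symm x))) ∣
        orderOf (e.symm x) :=
      (orderOf_map_dvd _ _).trans (orderOf_map_dvd _ _)
    exact h2.trans h1
  have hty : orderOf t ∣ orderOf y := by
    have h1 : orderOf (e.symm y) ∣ orderOf y := by
      rw [MulEquiv.orderOf_eq]
    have h2 : orderOf ((Pi.evalMonoidHom _ Q) ((Pi.evalMonoidHom _ q) (e.symm y))) ∣
        orderOf (e.symm y) :=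
      (orderOf_map_dvd _ _).trans (orderOf_map_dvd _ _)
    exact h2.trans h1
  obtain ⟨k, hk⟩ := Q.isPGroup' s
  obtain ⟨l, hl⟩ := Q.isPGroup' t
  have hsq : orderOf s ∣ (q : ℕ) ^ k := orderOf_dvd_of_pow_eq_one hk
  have htq : orderOf t ∣ (q : ℕ) ^ l := orderOf_dvd_of_pow_eq_one hl
  by_cases hqx : (q : ℕ) ∣ orderOf x
  · by_cases hqy : (q : ℕ) ∣ orderOf y
    · have := h q hqprime hqx hqy Q s s.2 t t.2
      exact Subtype.ext this
    · have hcop : Nat.Coprime ((q : ℕ) ^ l) (orderOf y) :=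
        Nat.Coprime.pow_left _ ((Nat.Prime.coprime_iff_not_dvd hqprime).2 hqy)
      have h1 : orderOf t = 1 := Nat.eq_one_of_dvd_coprimes hcop htq hty
      have : t = 1 := orderOf_eq_one_iff.1 h1
      rw [this, mul_one, one_mul]
  · have hcop : Nat.Coprime ((q : ℕ) ^ k) (orderOf x) :=
      Nat.Coprime.pow_left _ ((Nat.Prime.coprime_iff_not_dvd hqprime).2 hqx)
    have h1 : orderOf s = 1 := Nat.eq_one_of_dvd_coprimes hcop hsq hsx
    have : s = 1 := orderOf_eq_one_iff.1 h1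
    rw [this, mul_one, one_mul]

/-- Splitting an element of a finite group into its `p`-part and its `p'`-part. -/
theorem bg83der_split {X : Type u} [Group X] [Finite X] (p : ℕ) (hp : p.Prime) (a : X) :
    ∃ a₁ a₂ : X, a = a₁ * a₂ ∧ a₁ * a₂ = a₂ * a₁ ∧ (∃ k : ℕ, a₁ ^ (p ^ k) = 1) ∧
      ¬ p ∣ orderOf a₂ := by
  have hn0 : orderOf a ≠ 0 := (orderOf_pos a).ne'
  obtain ⟨k, m, hm, hnm⟩ := Nat.exists_eq_pow_mul_and_not_dvd hn0 p hp.ne_one
  have hcop : Nat.Coprime m (p ^ k) :=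
    Nat.Coprime.pow_right _ ((Nat.Prime.coprime_iff_not_dvd hp).2 hm).symm
  have hbez : (1 : ℤ) = (m : ℤ) * Nat.gcdA m (p ^ k) + ((p ^ k : ℕ) : ℤ) * Nat.gcdB m (p ^ k) := by
    have := Nat.gcd_eq_gcd_ab m (p ^ k)
    rw [hcop] at this
    exact_mod_cast this
  refine ⟨(a ^ m) ^ (Nat.gcdA m (p ^ k)), (a ^ (p ^ k)) ^ (Nat.gcdB m (p ^ k)), ?_, ?_, ⟨k, ?_⟩, ?_⟩
  · rw [← zpow_natCast a m, ← zpow_natCast a (p ^ k), ← zpow_mul, ← zpow_mul, ← zpow_add, ← hbez,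
      zpow_one]
  · rw [← zpow_natCast a m, ← zpow_natCast a (p ^ k), ← zpow_mul, ← zpow_mul, ← zpow_add,
      ← zpow_add, add_comm]
  · rw [← zpow_natCast, ← zpow_mul, mul_comm, zpow_mul, zpow_natCast, ← pow_mul, mul_comm, ← hnm,
      pow_orderOf_eq_one, one_zpow]
  · intro hdvd
    have h1 : ((a ^ (p ^ k)) ^ (Nat.gcdB m (p ^ k))) ^ m = 1 := by
      rw [← zpow_natCast, ← zpow_mul, mul_comm, zpow_mul, zpow_natCast, ← pow_mul, ← hnm,
        pow_orderOf_eq_one, one_zpow]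
    exact hm (hdvd.trans (orderOf_dvd_of_pow_eq_one h1))

/-- DER (pure). -/
theorem bg83_derived_le {G : Type u} [Group G] [Finite G]
    (H P : Subgroup G) (hnil : Group.IsNilpotent ↥H) (p : ℕ)
    [Fact p.Prime] (hPH : P ≤ H) (hP : IsPGroup p P)
    (hmax : ∀ Q : Subgroup G, Q ≤ H → IsPGroup p Q → Q ≤ P)
    (hcyc : ∀ q : ℕ, q.Prime → q ≠ p → ∀ Q : Subgroup G, Q ≤ H → IsPGroup q Q → IsCyclic ↥Q) :
    ⁅H, H⁆ ≤ ⁅P, P⁆ := by
  have hp : p.Prime := Fact.out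
  -- Sylow q-subgroups of `H` are commutative for `q ≠ p`
  have hcomm : ∀ q : ℕ, q.Prime → q ≠ p → ∀ Q : Sylow q ↥H,
      ∀ s ∈ (Q : Subgroup ↥H), ∀ t ∈ (Q : Subgroup ↥H), s * t = t * s := by
    intro q hq hqp Q s hs t ht
    have hQ' : IsPGroup q ((Q : Subgroup ↥H).map H.subtype) := Q.isPGroup'.map _
    have hle : (Q : Subgroup ↥H).map H.subtype ≤ H := by
      rintro _ ⟨y, _, rfl⟩
      exact y.2
    have hc := hcyc q hq hqp _ hle hQ'
    obtain ⟨g, hg⟩ := IsCyclic.exists_generator (α := ↥((Q : Subgroup ↥H).map H.subtype))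
    have hs' : (s : G) ∈ (Q : Subgroup ↥H).map H.subtype := ⟨s, hs, rfl⟩
    have ht' : (t : G) ∈ (Q : Subgroup ↥H).map H.subtype := ⟨t, ht, rfl⟩
    obtain ⟨i, hi⟩ := Subgroup.mem_zpowers_iff.1 (hg ⟨(s : G), hs'⟩)
    obtain ⟨j, hj⟩ := Subgroup.mem_zpowers_iff.1 (hg ⟨(t : G), ht'⟩)
    have hcm : (⟨(s : G), hs'⟩ : ↥((Q : Subgroup ↥H).map H.subtype)) * ⟨(t : G), ht'⟩ =
        ⟨(t : G), ht'⟩ * ⟨(s : G), hs'⟩ := by
      rw [← hi, ← hj, ← zpow_add, ← zpow_add, add_comm]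
    have hcm' : (s : G) * (t : G) = (t : G) * (s : G) := congrArg Subtype.val hcm
    exact Subtype.ext hcm'
  -- `p`-elements of `H` lie in `P`
  have hpel : ∀ c : ↥H, (∃ k : ℕ, c ^ (p ^ k) = 1) → (c : G) ∈ P := by
    rintro c ⟨k, hk⟩
    have hkG : (c : G) ^ (p ^ k) = 1 := by
      have := congrArg Subtype.val hk
      simpa using this
    have hzp : IsPGroup p (zpowers (c : G)) := by
      rintro ⟨y, hy⟩
      obtain ⟨i, rfl⟩ := Subgroup.mem_zpowers_iff.1 hy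
      refine ⟨k, Subtype.ext ?_⟩
      show ((c : G) ^ i) ^ (p ^ k) = 1
      rw [← zpow_natCast, ← zpow_mul, mul_comm, zpow_mul, zpow_natCast, hkG, one_zpow]
    have hle : zpowers (c : G) ≤ H := by
      rw [Subgroup.zpowers_le]
      exact c.2
    exact hmax _ hle hzp (Subgroup.mem_zpowers _)
  rw [Subgroup.commutator_le]
  intro a ha b hb
  obtain ⟨a₁, a₂, haeq, ha12, ha₁, ha₂⟩ := bg83der_split p hp (⟨a, ha⟩ : ↥H)
  obtain ⟨b₁, b₂, hbeq, hb12, hb₁, hb₂⟩ := bg83der_split p hp (⟨b, hb⟩ : ↥H)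
  -- orders
  have ha₁o : ∀ q : ℕ, q.Prime → q ∣ orderOf a₁ → q = p := by
    intro q hq hqd
    obtain ⟨k, hk⟩ := ha₁
    have := hqd.trans (orderOf_dvd_of_pow_eq_one hk)
    exact (Nat.prime_dvd_prime_iff_eq hq hp).1 (hq.dvd_of_dvd_pow this)
  have hb₁o : ∀ q : ℕ, q.Prime → q ∣ orderOf b₁ → q = p := by
    intro q hq hqd
    obtain ⟨k, hk⟩ := hb₁
    have := hqd.trans (orderOf_dvd_of_pow_eq_one hk)
    exact (Nat.prime_dvd_prime_iff_eq hq hp).1 (hq.dvd_of_dvd_pow this)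
  have c1 : a₂ * b₁ = b₁ * a₂ := by
    apply bg83der_commute hnil
    intro q hq hqa hqb
    exact absurd ((hb₁o q hq hqb) ▸ hqa) ha₂
  have c2 : a₁ * b₂ = b₂ * a₁ := by
    apply bg83der_commute hnil
    intro q hq hqa hqb
    exact absurd ((ha₁o q hq hqa) ▸ hqb) hb₂
  have c3 : a₂ * b₂ = b₂ * a₂ := by
    apply bg83der_commute hnil
    intro q hq hqa hqb
    have hqp : q ≠ p := by
      rintro rfl
      exact ha₂ hqa
    exact hcomm q hq hqp
  -- the commutator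
  have hkey : (⟨a, ha⟩ : ↥H) * ⟨b, hb⟩ * (⟨a, ha⟩ : ↥H)⁻¹ * (⟨b, hb⟩ : ↥H)⁻¹ =
      a₁ * b₁ * a₁⁻¹ * b₁⁻¹ := by
    rw [haeq, hbeq]
    have e1 : a₁ * a₂ * (b₁ * b₂) = a₁ * b₁ * (a₂ * b₂) := by
      rw [mul_assoc, ← mul_assoc a₂, c1, mul_assoc, mul_assoc]
    have e2 : (a₁ * a₂)⁻¹ = a₁⁻¹ * a₂⁻¹ := by
      rw [ha12, mul_inv_rev]
    have e3 : (b₁ * b₂)⁻¹ = b₂⁻¹ * b₁⁻¹ := by
      rw [mul_inv_rev]
    have c2' : b₂ * a₁⁻¹ = a₁⁻¹ * b₂ := by
      rw [eq_inv_mul_iff_mul_eq, ← mul_assoc, c2, mul_assoc, mul_inv_cancel, mul_one]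
    rw [e1, e2, e3]
    calc a₁ * b₁ * (a₂ * b₂) * (a₁⁻¹ * a₂⁻¹) * (b₂⁻¹ * b₁⁻¹)
        = a₁ * b₁ * (b₂ * a₁⁻¹ * (a₂ * a₂⁻¹) * b₂⁻¹) * b₁⁻¹ := by
          rw [c3]
          have c4 : a₂ * a₁⁻¹ = a₁⁻¹ * a₂ := by
            rw [eq_inv_mul_iff_mul_eq, ← mul_assoc, ha12, mul_assoc, mul_inv_cancel, mul_one]
          simp only [mul_assoc]
          rw [← mul_assoc a₂ a₁⁻¹, c4]
          simp only [mul_assoc]
      _ = a₁ * b₁ * a₁⁻¹ * b₁⁻¹ := by
          rw [mul_inv_cancel, mul_one, c2', mul_assoc a₁⁻¹, mul_inv_cancel, mul_one]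
  have ha₁P : (a₁ : G) ∈ P := hpel a₁ ha₁
  have hb₁P : (b₁ : G) ∈ P := hpel b₁ hb₁
  have hmem := Subgroup.commutator_mem_commutator ha₁P hb₁P
  rw [commutatorElement_def] at hmem
  have hval : a * b * a⁻¹ * b⁻¹ = (a₁ : G) * (b₁ : G) * (a₁ : G)⁻¹ * (b₁ : G)⁻¹ := by
    have := congrArg Subtype.val hkey
    simpa using this
  rw [commutatorElement_def, hval]
  exact hmem

end Cfsg.Agent.Helper69
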