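import Cfsg.Statements.S1383
import Cfsg.Agent.Helper69.BG83DER

set_option autoImplicit false

namespace Cfsg.Agent.Helper69

open Cfsg Subgroup

universe u

/-- PCOMM (pure). -/
theorem bg83_P_comm {G : Type u} [Group G] [Finite G]
    (H P K : Subgroup G) (hnil : Group.IsNilpotent ↥H) (p : ℕ) [Fact p.Prime]
    (hPH : P ≤ H) (hP : IsPGroup p P)
    (hmax : ∀ Q : Subgroup G, Q ≤ H → IsPGroup p Q → Q ≤ P)
    (hK : K ≤ normalizer (H : Set G)) (hHK : ⁅H, K⁆ = H) : ⁅P, K⁆ = P := by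
  have hp : p.Prime := Fact.out
  -- conjugation by `K` preserves `H`
  have hKH : ∀ k ∈ K, ∀ h ∈ H, k * h * k⁻¹ ∈ H := fun k hk h hh =>
    (Subgroup.mem_normalizer_iff.1 (hK hk) h).1 hh
  -- `p`-elements of `H` lie in `P`
  have hpelG : ∀ c : G, c ∈ H → (∃ k : ℕ, c ^ (p ^ k) = 1) → c ∈ P := by
    rintro c hc ⟨k, hkG⟩
    have hzp : IsPGroup p (zpowers c) := by
      rintro ⟨y, hy⟩
      obtain ⟨i, rfl⟩ := Subgroup.mem_zpowers_iff.1 hy
      refine ⟨k, Subtype.ext ?_⟩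
      show (c ^ i) ^ (p ^ k) = 1
      rw [← zpow_natCast, ← zpow_mul, mul_comm, zpow_mul, zpow_natCast, hkG, one_zpow]
    have hle : zpowers c ≤ H := by
      rw [Subgroup.zpowers_le]
      exact hc
    exact hmax _ hle hzp (Subgroup.mem_zpowers _)
  -- `K` normalizes `P`
  have hKP : ∀ k ∈ K, ∀ s ∈ P, k * s * k⁻¹ ∈ P := by
    intro k hk s hs
    obtain ⟨j, hj⟩ := hP ⟨s, hs⟩
    have hj' : s ^ (p ^ j) = 1 := by
      have := congrArg Subtype.val hj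
      simpa using this
    refine hpelG _ (hKH k hk s (hPH hs)) ⟨j, ?_⟩
    rw [conj_pow, hj', mul_one, mul_inv_cancel]
  have hle1 : ⁅P, K⁆ ≤ P := by
    rw [Subgroup.commutator_le]
    intro s hs k hk
    rw [commutatorElement_def]
    have h1 : k * s⁻¹ * k⁻¹ ∈ P := hKP k hk _ (P.inv_mem hs)
    have h2 : s * k * s⁻¹ * k⁻¹ = s * (k * s⁻¹ * k⁻¹) := by group
    rw [h2]
    exact P.mul_mem hs h1
  refine le_antisymm hle1 ?_
  -- the coordinates in the Sylow decomposition of `H`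
  have htfae := Group.isNilpotent_of_finite_tfae (G := ↥H)
  obtain ⟨e⟩ := (htfae.out 0 4).1 hnil
  have hcoord : ∀ (x : ↥H) (q : (Nat.card ↥H).primeFactors) (Q : Sylow (q : ℕ) ↥H),
      orderOf ((e.symm x) q Q) ∣ orderOf x := by
    intro x q Q
    have h1 : orderOf (e.symm x) ∣ orderOf x := by
      rw [MulEquiv.orderOf_eq]
    have h2 : orderOf ((Pi.evalMonoidHom _ Q) ((Pi.evalMonoidHom _ q) (e.symm x))) ∣
        orderOf (e.symm x) :=
      (orderOf_map_dvd _ _).trans (orderOf_map_dvd _ _)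
    exact h2.trans h1
  have hcoordq : ∀ (x : ↥H) (q : (Nat.card ↥H).primeFactors) (Q : Sylow (q : ℕ) ↥H),
      ∃ l : ℕ, orderOf ((e.symm x) q Q) ∣ (q : ℕ) ^ l := by
    intro x q Q
    obtain ⟨l, hl⟩ := Q.isPGroup' ((e.symm x) q Q)
    exact ⟨l, orderOf_dvd_of_pow_eq_one hl⟩
  -- (a) `p'`-elements have trivial `p`-coordinates
  have hA : ∀ t : ↥H, ¬ p ∣ orderOf t → ∀ (q : (Nat.card ↥H).primeFactors)
      (Q : Sylow (q : ℕ) ↥H), (q : ℕ) = p → (e.symm t) q Q = 1 := by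
    intro t ht q Q hqp
    obtain ⟨l, hl⟩ := hcoordq t q Q
    have hl' : orderOf ((e.symm t) q Q) ∣ p ^ l := by
      rw [← hqp]
      exact hl
    have hcop : Nat.Coprime (p ^ l) (orderOf t) :=
      Nat.Coprime.pow_left _ ((Nat.Prime.coprime_iff_not_dvd hp).2 ht)
    exact orderOf_eq_one_iff.1 (Nat.eq_one_of_dvd_coprimes hcop hl' (hcoord t q Q))
  -- (b) a `p`-element with trivial `p`-coordinates is trivial
  have hB : ∀ x : ↥H, (∃ k : ℕ, x ^ (p ^ k) = 1) →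
      (∀ (q : (Nat.card ↥H).primeFactors) (Q : Sylow (q : ℕ) ↥H), (q : ℕ) = p →
        (e.symm x) q Q = 1) → x = 1 := by
    rintro x ⟨k, hk⟩ hx
    apply e.symm.injective
    rw [map_one]
    funext q
    funext Q
    show (e.symm x) q Q = 1
    by_cases hqp : (q : ℕ) = p
    · exact hx q Q hqp
    · obtain ⟨l, hl⟩ := hcoordq x q Q
      have hqprime : (q : ℕ).Prime := Nat.prime_of_mem_primeFactors q.2
      have hcop : Nat.Coprime ((q : ℕ) ^ l) (p ^ k) :=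
        Nat.Coprime.pow _ _ ((Nat.coprime_primes hqprime hp).2 hqp)
      have hxk : orderOf x ∣ p ^ k := orderOf_dvd_of_pow_eq_one hk
      exact orderOf_eq_one_iff.1
        (Nat.eq_one_of_dvd_coprimes hcop hl ((hcoord x q Q).trans hxk))
  -- the closure induction
  have hmain : ∀ x ∈ ⁅H, K⁆, ∃ n ∈ ⁅P, K⁆, ∃ (hx : x ∈ H) (hn : n ∈ H),
      ∀ (q : (Nat.card ↥H).primeFactors) (Q : Sylow (q : ℕ) ↥H), (q : ℕ) = p →
        (e.symm ⟨x, hx⟩) q Q = (e.symm ⟨n, hn⟩) q Q := by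
    intro x hx
    rw [Subgroup.commutator_def] at hx
    induction hx using Subgroup.closure_induction with
    | mem x hx =>
      obtain ⟨h, hh, k, hk, hxe⟩ := hx
      rw [commutatorElement_def] at hxe
      subst hxe
      obtain ⟨s, t, hst, _, hs, ht⟩ := bg83der_split p hp (⟨h, hh⟩ : ↥H)
      have hsP : (s : G) ∈ P := by
        obtain ⟨j, hj⟩ := hs
        refine hpelG _ s.2 ⟨j, ?_⟩
        have := congrArg Subtype.val hj
        simpa using this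
      have hhG : h = (s : G) * (t : G) := congrArg Subtype.val hst
      -- the conjugates
      have hT'mem : k * (t : G)⁻¹ * k⁻¹ ∈ H := hKH k hk _ (H.inv_mem t.2)
      have hS'mem : k * (s : G)⁻¹ * k⁻¹ ∈ H := hKH k hk _ (H.inv_mem s.2)
      have hT'ord : ¬ p ∣ orderOf (⟨k * (t : G)⁻¹ * k⁻¹, hT'mem⟩ : ↥H) := by
        have h1 : orderOf (⟨k * (t : G)⁻¹ * k⁻¹, hT'mem⟩ : ↥H) = orderOf t := by
          rw [← Subgroup.orderOf_coe, ← Subgroup.orderOf_coe t]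
          show orderOf (k * (t : G)⁻¹ * k⁻¹) = orderOf (t : G)
          have := MulEquiv.orderOf_eq (MulAut.conj k) ((t : G)⁻¹)
          rw [MulAut.conj_apply] at this
          rw [this, orderOf_inv]
        rw [h1]
        exact ht
      have hnmem : (s : G) * k * (s : G)⁻¹ * k⁻¹ ∈ ⁅P, K⁆ := by
        have := Subgroup.commutator_mem_commutator hsP hk
        rwa [commutatorElement_def] at this
      have hxH : h * k * h⁻¹ * k⁻¹ ∈ H := by
        have h2 : h * k * h⁻¹ * k⁻¹ = h * (k * h⁻¹ * k⁻¹) := by group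
        rw [h2]
        exact H.mul_mem hh (hKH k hk _ (H.inv_mem hh))
      have hnH : (s : G) * k * (s : G)⁻¹ * k⁻¹ ∈ H := hPH (hle1 hnmem)
      refine ⟨_, hnmem, hxH, hnH, ?_⟩
      intro q Q hqp
      have e1 : (⟨h * k * h⁻¹ * k⁻¹, hxH⟩ : ↥H) =
          s * t * ⟨k * (t : G)⁻¹ * k⁻¹, hT'mem⟩ * ⟨k * (s : G)⁻¹ * k⁻¹, hS'mem⟩ := by
        apply Subtype.ext
        show h * k * h⁻¹ * k⁻¹ =
          (s : G) * (t : G) * (k * (t : G)⁻¹ * k⁻¹) * (k * (s : G)⁻¹ * k⁻¹)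
        rw [hhG]
        group
      have e2 : (⟨(s : G) * k * (s : G)⁻¹ * k⁻¹, hnH⟩ : ↥H) =
          s * ⟨k * (s : G)⁻¹ * k⁻¹, hS'mem⟩ := by
        apply Subtype.ext
        show (s : G) * k * (s : G)⁻¹ * k⁻¹ = (s : G) * (k * (s : G)⁻¹ * k⁻¹)
        group
      rw [e1, e2]
      simp only [map_mul, Pi.mul_apply]
      rw [hA t ht q Q hqp, hA _ hT'ord q Q hqp, mul_one, mul_one]
    | one =>
      exact ⟨1, Subgroup.one_mem _, H.one_mem, H.one_mem, fun q Q _ => rfl⟩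
    | mul x y _ _ ihx ihy =>
      obtain ⟨n₁, hn₁, hx₁, hn₁H, h₁⟩ := ihx
      obtain ⟨n₂, hn₂, hx₂, hn₂H, h₂⟩ := ihy
      refine ⟨n₁ * n₂, Subgroup.mul_mem _ hn₁ hn₂, H.mul_mem hx₁ hx₂, H.mul_mem hn₁H hn₂H, ?_⟩
      intro q Q hqp
      have e1 : (⟨x * y, H.mul_mem hx₁ hx₂⟩ : ↥H) = ⟨x, hx₁⟩ * ⟨y, hx₂⟩ := rfl
      have e2 : (⟨n₁ * n₂, H.mul_mem hn₁H hn₂H⟩ : ↥H) = ⟨n₁, hn₁H⟩ * ⟨n₂, hn₂H⟩ := rfl
      rw [e1, e2]
      simp only [map_mul, Pi.mul_apply]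
      rw [h₁ q Q hqp, h₂ q Q hqp]
    | inv x _ ihx =>
      obtain ⟨n₁, hn₁, hx₁, hn₁H, h₁⟩ := ihx
      refine ⟨n₁⁻¹, Subgroup.inv_mem _ hn₁, H.inv_mem hx₁, H.inv_mem hn₁H, ?_⟩
      intro q Q hqp
      have e1 : (⟨x⁻¹, H.inv_mem hx₁⟩ : ↥H) = (⟨x, hx₁⟩ : ↥H)⁻¹ := rfl
      have e2 : (⟨n₁⁻¹, H.inv_mem hn₁H⟩ : ↥H) = (⟨n₁, hn₁H⟩ : ↥H)⁻¹ := rfl
      rw [e1, e2]
      simp only [map_inv, Pi.inv_apply]
      rw [h₁ q Q hqp]
  -- conclusion
  intro x hxP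
  have hxHK : x ∈ ⁅H, K⁆ := by
    rw [hHK]
    exact hPH hxP
  obtain ⟨n, hn, hxH, hnH, hcoordeq⟩ := hmain x hxHK
  have hnP : n ∈ P := hle1 hn
  -- `x * n⁻¹` is a `p`-element with trivial `p`-coordinates
  have hxn : (⟨x, hxH⟩ : ↥H) * (⟨n, hnH⟩ : ↥H)⁻¹ = 1 := by
    apply hB
    · obtain ⟨j, hj⟩ := hP ⟨x * n⁻¹, P.mul_mem hxP (P.inv_mem hnP)⟩
      refine ⟨j, Subtype.ext ?_⟩
      have := congrArg Subtype.val hj
      simpa using this
    · intro q Q hqp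
      simp only [map_mul, map_inv, Pi.mul_apply, Pi.inv_apply]
      rw [hcoordeq q Q hqp, mul_inv_cancel]
  have hxeq : x = n := by
    have h1 : (⟨x, hxH⟩ : ↥H) = ⟨n, hnH⟩ := mul_inv_eq_one.1 hxn
    exact congrArg Subtype.val h1
  rw [hxeq]
  exact hn

end Cfsg.Agent.Helper69
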