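import Mathlib

set_option autoImplicit false

/-!
# Complements: counting and semisimple invariant complements (helper69, for S5950)
-/

namespace Cfsg.Agent.Helper69

open Module Polynomial

/-- the complements of `U` are in bijection with the linear maps `W₀ → U`, `W₀` a complement -/
theorem bgl_card_compl {F : Type*} [Field F] [Fintype F] {V : Type*} [AddCommGroup V] [Module F V]
    [FiniteDimensional F V] (U : Submodule F V) :
    Nat.card {W : Submodule F V // IsCompl U W} =
      Fintype.card F ^ ((finrank F V - finrank F ↥U) * finrank F ↥U) := by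
  obtain ⟨W₀, hW₀⟩ := Submodule.exists_isCompl U
  have hdim : finrank F ↥W₀ = finrank F V - finrank F ↥U := by
    have := Submodule.finrank_add_eq_of_isCompl hW₀
    omega
  let e : {f : V →ₗ[F] ↥U // ∀ x : ↥U, f x = x} ≃ (↥W₀ →ₗ[F] ↥U) :=
    { toFun := fun f => f.1 ∘ₗ W₀.subtype
      invFun := fun ψ => ⟨LinearMap.ofIsCompl hW₀ LinearMap.id ψ, fun x => by simp⟩
      left_inv := fun f => by
        apply Subtype.ext
        apply LinearMap.ofIsCompl_eq
        · intro u
          exact (f.2 u).symm
        · intro u
          rfl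
      right_inv := fun ψ => by
        ext w
        simp }
  rw [Nat.card_congr (Submodule.isComplEquivProj U), Nat.card_congr e,
    Module.natCard_eq_pow_finrank (K := F), Module.finrank_linearMap, hdim,
    Nat.card_eq_fintype_card]

/-- the number of complementary pairs `(U, W)` with `dim U = m` -/
theorem bgl_card_compl_pairs {F : Type*} [Field F] [Fintype F] (n m : ℕ) :
    Nat.card {P : Submodule F (Fin n → F) × Submodule F (Fin n → F) //
        IsCompl P.1 P.2 ∧ Module.finrank F ↥P.1 = m} =
      Nat.card {W : Submodule F (Fin n → F) // Module.finrank F ↥W = m} *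
        Fintype.card F ^ ((n - m) * m) := by
  classical
  have : Fintype {W : Submodule F (Fin n → F) // Module.finrank F ↥W = m} := Fintype.ofFinite _
  let e : {P : Submodule F (Fin n → F) × Submodule F (Fin n → F) //
        IsCompl P.1 P.2 ∧ Module.finrank F ↥P.1 = m} ≃
      (Σ U : {W : Submodule F (Fin n → F) // Module.finrank F ↥W = m},
        {W : Submodule F (Fin n → F) // IsCompl U.1 W}) :=
    { toFun := fun P => ⟨⟨P.1.1, P.2.2⟩, ⟨P.1.2, P.2.1⟩⟩
      invFun := fun s => ⟨(s.1.1, s.2.1), ⟨s.2.2, s.1.2⟩⟩
      left_inv := fun P => rfl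
      right_inv := fun s => rfl }
  rw [Nat.card_congr e, Nat.card_sigma]
  have h : ∀ U : {W : Submodule F (Fin n → F) // Module.finrank F ↥W = m},
      Nat.card {W : Submodule F (Fin n → F) // IsCompl U.1 W} =
        Fintype.card F ^ ((n - m) * m) := by
    intro U
    rw [bgl_card_compl, Module.finrank_fin_fun, U.2]
  rw [Finset.sum_congr rfl (fun U _ => h U), Finset.sum_const, Finset.card_univ, smul_eq_mul,
    Nat.card_eq_fintype_card]

/-- an invariant subspace of `x` with `x ^ r = c • 1`, `c ≠ 0`, `r ≠ 0` in `F` has an invariant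
complement -/
theorem bgl_semisimple_compl {F : Type*} [Field F] (r : ℕ) (hr : (r : F) ≠ 0) {n : ℕ}
    (x : Matrix (Fin n) (Fin n) F) (c : F) (hc : c ≠ 0)
    (hx : x ^ r = c • (1 : Matrix (Fin n) (Fin n) F))
    (U : Submodule F (Fin n → F)) (hU : U.map (Matrix.toLin' x) ≤ U) :
    ∃ W : Submodule F (Fin n → F), IsCompl U W ∧ W.map (Matrix.toLin' x) ≤ W := by
  have hss : Module.End.IsSemisimple (Matrix.toLin' x) := by
    apply Module.End.isSemisimple_of_squarefree_aeval_eq_zero (p := X ^ r - C c)
    · exact (Polynomial.separable_X_pow_sub_C c hr hc).squarefree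
    · have h1 : (Matrix.toLin' x) ^ r = c • (1 : Module.End F (Fin n → F)) := by
        have h2 : Matrix.toLinAlgEquiv' (x ^ r) = (Matrix.toLinAlgEquiv' x) ^ r := map_pow _ _ _
        rw [hx, map_smul, map_one] at h2
        exact h2.symm
      simp [h1, Algebra.algebraMap_eq_smul_one]
  rw [Module.End.isSemisimple_iff] at hss
  obtain ⟨W, hW, hc'⟩ := hss U (by
    rw [Module.End.mem_invtSubmodule]
    exact Submodule.map_le_iff_le_comap.mp hU)
  refine ⟨W, hc', ?_⟩
  rw [Module.End.mem_invtSubmodule] at hW
  exact Submodule.map_le_iff_le_comap.mpr hW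

end Cfsg.Agent.Helper69
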