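import Mathlib
import Cfsg.Agent.Helper38.JordanNil

set_option autoImplicit false

/-!
# Unipotent part of S5950 (helper69)

Elements `x` with `x ^ p = c • 1` in characteristic `p` and invariant complementary pairs `(U, W)`
with `dim U = m`: these exist for all such `x` iff every partition of `n` with parts `≤ p` contains
a sub-multiset of sum `m`.
-/

namespace Cfsg.Agent.Helper69

open Module

/-- the kernel of an endomorphism splits along an invariant complementary pair -/
theorem bgl_ker_split {K V : Type*} [Field K] [AddCommGroup V] [Module K V] [FiniteDimensional K V]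
    (f : Module.End K V) (W W' : Submodule K V) (hc : IsCompl W W')
    (hW : ∀ w ∈ W, f w ∈ W) (hW' : ∀ w ∈ W', f w ∈ W') :
    finrank K ↥(LinearMap.ker f) =
      finrank K ↥(W ⊓ LinearMap.ker f) + finrank K ↥(W' ⊓ LinearMap.ker f) := by
  have hsup : (W ⊓ LinearMap.ker f) ⊔ (W' ⊓ LinearMap.ker f) = LinearMap.ker f := by
    apply le_antisymm
    · exact sup_le inf_le_right inf_le_right
    · intro v hv
      have hv0 : f v = 0 := LinearMap.mem_ker.mp hv
      have htop : v ∈ W ⊔ W' := by rw [hc.sup_eq_top]; exact Submodule.mem_top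
      obtain ⟨w, hw, w', hw', rfl⟩ := Submodule.mem_sup.mp htop
      have h1 : f w = - f w' := by
        rw [map_add] at hv0
        exact eq_neg_of_add_eq_zero_left hv0
      have h2 : f w ∈ W ⊓ W' := ⟨hW w hw, by rw [h1]; exact W'.neg_mem (hW' w' hw')⟩
      rw [hc.inf_eq_bot, Submodule.mem_bot] at h2
      have h3 : f w' = 0 := by rw [h2] at h1; exact neg_eq_zero.mp h1.symm
      exact Submodule.add_mem_sup ⟨hw, LinearMap.mem_ker.mpr h2⟩ ⟨hw', LinearMap.mem_ker.mpr h3⟩
  have hinf : (W ⊓ LinearMap.ker f) ⊓ (W' ⊓ LinearMap.ker f) = ⊥ := by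
    apply le_antisymm _ bot_le
    intro v hv
    have h1 : v ∈ W ⊓ W' := ⟨hv.1.1, hv.2.1⟩
    rw [hc.inf_eq_bot] at h1
    exact h1
  have h := Submodule.finrank_sup_add_finrank_inf_eq (W ⊓ LinearMap.ker f) (W' ⊓ LinearMap.ker f)
  rw [hsup, hinf, finrank_bot] at h
  omega

theorem bgl_pow_invariant {K V : Type*} [Field K] [AddCommGroup V] [Module K V]
    (f : Module.End K V) (W : Submodule K V) (hW : ∀ w ∈ W, f w ∈ W) (k : ℕ) :
    ∀ w ∈ W, (f ^ k) w ∈ W := by
  induction k with
  | zero => intro w hw; simpa using hw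
  | succ k ih =>
    intro w hw
    rw [pow_succ, Module.End.mul_apply]
    exact ih _ (hW w hw)

theorem bgl_prodMap_pow {K V V' : Type*} [Field K] [AddCommGroup V] [Module K V]
    [AddCommGroup V'] [Module K V'] (f : Module.End K V) (g : Module.End K V') (k : ℕ) :
    (LinearMap.prodMap f g) ^ k = LinearMap.prodMap (f ^ k) (g ^ k) := by
  induction k with
  | zero => rfl
  | succ k ih => rw [pow_succ, ih, pow_succ, pow_succ, LinearMap.prodMap_mul]

theorem bgl_finrank_ker_prodMap {K V V' : Type*} [Field K] [AddCommGroup V] [Module K V]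
    [AddCommGroup V'] [Module K V'] [FiniteDimensional K V] [FiniteDimensional K V']
    (f : Module.End K V) (g : Module.End K V') :
    finrank K ↥(LinearMap.ker (LinearMap.prodMap f g)) =
      finrank K ↥(LinearMap.ker f) + finrank K ↥(LinearMap.ker g) := by
  rw [← Module.finrank_prod]
  apply LinearEquiv.finrank_eq
  exact
    { toFun := fun x => (⟨x.1.1, by
          have h := x.2
          rw [LinearMap.mem_ker] at h ⊢
          exact congrArg Prod.fst h⟩, ⟨x.1.2, by
          have h := x.2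
          rw [LinearMap.mem_ker] at h ⊢
          exact congrArg Prod.snd h⟩)
      map_add' := fun x y => rfl
      map_smul' := fun c x => rfl
      invFun := fun y => ⟨(y.1.1, y.2.1), by
          rw [LinearMap.mem_ker]
          exact Prod.ext (LinearMap.mem_ker.mp y.1.2) (LinearMap.mem_ker.mp y.2.2)⟩
      left_inv := fun x => rfl
      right_inv := fun y => rfl }

/-- an invariant complementary pair gives a sub-multiset of the Jordan type -/
theorem bgl_submultiset_of_compl {F : Type*} [Field F] {n : ℕ} (N : Matrix (Fin n) (Fin n) F)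
    (hN : IsNilpotent N) (μ : Multiset ℕ) (hμ : ∀ b ∈ μ, 0 < b)
    (hk : ∀ k, Cfsg.Agent.Helper38.kdim N k = (μ.map (min k)).sum)
    (U W : Submodule F (Fin n → F)) (hc : IsCompl U W)
    (hU : ∀ v ∈ U, Matrix.toLin' N v ∈ U) (hW : ∀ v ∈ W, Matrix.toLin' N v ∈ W) :
    ∃ ν : Multiset ℕ, ν ≤ μ ∧ ν.sum = finrank F ↥U := by
  have hT : IsNilpotent (Matrix.toLin' N) := (Matrix.isNilpotent_toLin'_iff N).mpr hN
  obtain ⟨ν, hν, hνsum, hνk⟩ := Cfsg.Agent.Helper38.exists_multiset_ker_pow (finrank F ↥U) ↥U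
    ((Matrix.toLin' N).restrict hU) (Cfsg.Agent.Helper38.restrict_isNilpotent _ U hU hT) rfl
  obtain ⟨ν', hν', hν'sum, hν'k⟩ := Cfsg.Agent.Helper38.exists_multiset_ker_pow (finrank F ↥W) ↥W
    ((Matrix.toLin' N).restrict hW) (Cfsg.Agent.Helper38.restrict_isNilpotent _ W hW hT) rfl
  have hμeq : μ = ν + ν' := by
    apply Cfsg.Agent.Helper38.multiset_eq_of_minsum μ (ν + ν') hμ
    · intro b hb
      rcases Multiset.mem_add.mp hb with h | h
      · exact hν b h
      · exact hν' b h
    · intro k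
      rw [Multiset.map_add, Multiset.sum_add, ← hνk, ← hν'k,
        Cfsg.Agent.Helper38.finrank_ker_restrict_pow, Cfsg.Agent.Helper38.finrank_ker_restrict_pow,
        ← hk]
      exact bgl_ker_split ((Matrix.toLin' N) ^ k) U W hc (bgl_pow_invariant _ U hU k)
        (bgl_pow_invariant _ W hW k)
  exact ⟨ν, by rw [hμeq]; exact Multiset.le_add_right ν ν', hνsum⟩

/-- a sub-multiset of the Jordan type gives an invariant complementary pair -/
theorem bgl_nil_split {F : Type*} [Field F] {n : ℕ} (N : Matrix (Fin n) (Fin n) F)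
    (hN : IsNilpotent N) (μ ν : Multiset ℕ) (hνμ : ν ≤ μ)
    (hk : ∀ k, Cfsg.Agent.Helper38.kdim N k = (μ.map (min k)).sum) :
    ∃ U W : Submodule F (Fin n → F), IsCompl U W ∧ finrank F ↥U = ν.sum ∧
      (∀ v ∈ U, Matrix.toLin' N v ∈ U) ∧ (∀ v ∈ W, Matrix.toLin' N v ∈ W) := by
  obtain ⟨ν', hν'⟩ : ∃ ν', μ = ν + ν' := ⟨μ - ν, (add_tsub_cancel_of_le hνμ).symm⟩
  obtain ⟨N₁, hN₁, hk₁⟩ := Cfsg.Agent.Helper38.exists_nilpotent_of_multiset (F := F) ν.sum ν rfl
  obtain ⟨N₂, hN₂, hk₂⟩ := Cfsg.Agent.Helper38.exists_nilpotent_of_multiset (F := F) ν'.sum ν' rfl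
  have hT₁ : IsNilpotent (Matrix.toLin' N₁) := (Matrix.isNilpotent_toLin'_iff N₁).mpr hN₁
  have hT₂ : IsNilpotent (Matrix.toLin' N₂) := (Matrix.isNilpotent_toLin'_iff N₂).mpr hN₂
  have hT : IsNilpotent (Matrix.toLin' N) := (Matrix.isNilpotent_toLin'_iff N).mpr hN
  let T' : Module.End F ((Fin ν.sum → F) × (Fin ν'.sum → F)) :=
    LinearMap.prodMap (Matrix.toLin' N₁) (Matrix.toLin' N₂)
  have hT' : IsNilpotent T' := by
    obtain ⟨a, ha⟩ := hT₁
    obtain ⟨b, hb⟩ := hT₂
    refine ⟨a + b, ?_⟩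
    show (LinearMap.prodMap (Matrix.toLin' N₁) (Matrix.toLin' N₂)) ^ (a + b) = 0
    rw [bgl_prodMap_pow, pow_add, ha, zero_mul, pow_add, hb, mul_zero, LinearMap.prodMap_zero]
  have hdim : finrank F (Fin n → F) = n := Module.finrank_fin_fun F
  have hkk : ∀ k, finrank F (LinearMap.ker ((Matrix.toLin' N) ^ k)) =
      finrank F (LinearMap.ker (T' ^ k)) := by
    intro k
    show _ = finrank F
      (LinearMap.ker ((LinearMap.prodMap (Matrix.toLin' N₁) (Matrix.toLin' N₂)) ^ k))
    rw [bgl_prodMap_pow, bgl_finrank_ker_prodMap]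
    have h1 := hk k
    have h2 := hk₁ k
    have h3 := hk₂ k
    unfold Cfsg.Agent.Helper38.kdim at h1 h2 h3
    rw [h1, h2, h3, hν', Multiset.map_add, Multiset.sum_add]
  obtain ⟨e, he⟩ := Cfsg.Agent.Helper38.exists_equiv_of_ker_pow n (Fin n → F)
    ((Fin ν.sum → F) × (Fin ν'.sum → F)) (Matrix.toLin' N) T' hT hT' hdim hkk
  refine ⟨(LinearMap.range (LinearMap.inl F (Fin ν.sum → F) (Fin ν'.sum → F))).map
      e.symm.toLinearMap,
    (LinearMap.range (LinearMap.inr F (Fin ν.sum → F) (Fin ν'.sum → F))).map e.symm.toLinearMap,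
    ?_, ?_, ?_, ?_⟩
  · exact (Submodule.orderIsoMapComap e.symm).isCompl LinearMap.isCompl_range_inl_inr
  · rw [LinearEquiv.finrank_map_eq, LinearMap.finrank_range_of_inj LinearMap.inl_injective,
      Module.finrank_fin_fun]
  · rintro _ ⟨_, ⟨a, rfl⟩, rfl⟩
    refine ⟨(Matrix.toLin' N₁ a, 0), ⟨Matrix.toLin' N₁ a, rfl⟩, ?_⟩
    apply e.injective
    rw [he]
    simp [T']
  · rintro _ ⟨_, ⟨a, rfl⟩, rfl⟩
    refine ⟨(0, Matrix.toLin' N₂ a), ⟨Matrix.toLin' N₂ a, rfl⟩, ?_⟩
    apply e.injective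
    rw [he]
    simp [T']

/-- necessity: if every nonscalar `x ∈ SL_n` with `x ^ p` scalar fixes a complementary pair with
`dim U = m`, then every partition of `n` with parts `≤ p` has a sub-multiset of sum `m`. -/
theorem bgl_unip_nec {F : Type*} [Field F] (p : ℕ) [Fact p.Prime] [CharP F p] (n m : ℕ)
    (hmn : m ≤ n)
    (h : ∀ x : Matrix.SpecialLinearGroup (Fin n) F,
      (∃ c : F, ((x ^ p : Matrix.SpecialLinearGroup (Fin n) F) : Matrix (Fin n) (Fin n) F) = c • (1 : Matrix (Fin n) (Fin n) F)) →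
      (∀ c : F, (x : Matrix (Fin n) (Fin n) F) ≠ c • (1 : Matrix (Fin n) (Fin n) F)) →
      ∃ U W : Submodule F (Fin n → F), IsCompl U W ∧ Module.finrank F ↥U = m ∧
        U.map (Matrix.toLin' (x : Matrix (Fin n) (Fin n) F)) ≤ U ∧ W.map (Matrix.toLin' (x : Matrix (Fin n) (Fin n) F)) ≤ W)
    (μ : Multiset ℕ) (hμ : ∀ a ∈ μ, 0 < a ∧ a ≤ p) (hsum : μ.sum = n) :
    ∃ ν : Multiset ℕ, ν ≤ μ ∧ ν.sum = m := by
  classical
  have hp := (Fact.out : p.Prime)
  obtain ⟨N, hN, hk⟩ := Cfsg.Agent.Helper38.exists_nilpotent_of_multiset (F := F) n μ hsum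
  have hNp : N ^ p = 0 := by
    rw [Cfsg.Agent.Helper38.pow_eq_zero_iff_kdim, hk,
      (Cfsg.Agent.Helper38.minsum_eq_sum_iff μ p).mpr (fun b hb => (hμ b hb).2), hsum]
  by_cases hN0 : N = 0
  · -- all parts are 1
    have h1 : ∀ b ∈ μ, b ≤ 1 := by
      apply (Cfsg.Agent.Helper38.minsum_eq_sum_iff μ 1).mp
      rw [← hk, hsum, ← Cfsg.Agent.Helper38.pow_eq_zero_iff_kdim, hN0, pow_one]
    have h2 : μ = Multiset.replicate (Multiset.card μ) 1 := by
      rw [Multiset.eq_replicate_card]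
      intro b hb
      have := h1 b hb
      have := (hμ b hb).1
      omega
    have h3 : Multiset.card μ = n := by
      rw [h2, Multiset.sum_replicate, smul_eq_mul, mul_one] at hsum
      exact hsum
    refine ⟨Multiset.replicate m 1, ?_, ?_⟩
    · rw [h2, h3]
      exact (Multiset.replicate_le_replicate 1).mpr hmn
    · rw [Multiset.sum_replicate, smul_eq_mul, mul_one]
  · have hnpos : 0 < n := by
      rcases Nat.eq_zero_or_pos n with h0 | h0
      · subst h0
        exact absurd (Subsingleton.elim N 0) hN0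
      · exact h0
    have hne : Nonempty (Fin n) := ⟨⟨0, hnpos⟩⟩
    have hxp : (1 + N) ^ p = 1 := by
      rw [add_pow_char_of_commute (p := p) (Commute.one_left N), one_pow, hNp, add_zero]
    have hdet : (1 + N).det = 1 := by
      apply frobenius_inj F p
      rw [frobenius_def, frobenius_def, ← Matrix.det_pow, hxp, Matrix.det_one, one_pow]
    let x : Matrix.SpecialLinearGroup (Fin n) F := ⟨1 + N, hdet⟩
    have hx1 : ∃ c : F, ((x ^ p : Matrix.SpecialLinearGroup (Fin n) F) : Matrix (Fin n) (Fin n) F)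
        = c • (1 : Matrix (Fin n) (Fin n) F) := by
      refine ⟨1, ?_⟩
      rw [Matrix.SpecialLinearGroup.coe_pow, one_smul]
      exact hxp
    have hx2 : ∀ c : F, (x : Matrix (Fin n) (Fin n) F) ≠ c • (1 : Matrix (Fin n) (Fin n) F) := by
      intro c hc
      have hc' : 1 + N = c • (1 : Matrix (Fin n) (Fin n) F) := hc
      have hN' : N = (c - 1) • (1 : Matrix (Fin n) (Fin n) F) := by
        rw [sub_smul, ← hc', one_smul, add_sub_cancel_left]
      have h1 : (c - 1) ^ p = 0 := by
        have h2 := hNp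
        rw [hN', smul_pow, one_pow] at h2
        have h3 := congrFun (congrFun h2 ⟨0, hnpos⟩) ⟨0, hnpos⟩
        simpa using h3
      have h4 : c - 1 = 0 := pow_eq_zero_iff hp.ne_zero |>.mp h1
      apply hN0
      rw [hN', h4, zero_smul]
    obtain ⟨U, W, hc, hUm, hUx, hWx⟩ := h x hx1 hx2
    have hxN : ∀ v, Matrix.toLin' N v = Matrix.toLin' (1 + N) v - v := by
      intro v
      rw [map_add, LinearMap.add_apply, Matrix.toLin'_one]
      simp
    have hU : ∀ v ∈ U, Matrix.toLin' N v ∈ U := by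
      intro v hv
      rw [hxN]
      exact U.sub_mem (hUx ⟨v, hv, rfl⟩) hv
    have hW : ∀ v ∈ W, Matrix.toLin' N v ∈ W := by
      intro v hv
      rw [hxN]
      exact W.sub_mem (hWx ⟨v, hv, rfl⟩) hv
    obtain ⟨ν, hν, hνsum⟩ := bgl_submultiset_of_compl N hN μ (fun b hb => (hμ b hb).1) hk U W hc
      hU hW
    exact ⟨ν, hν, by rw [hνsum, hUm]⟩

/-- sufficiency: if every partition of `n` with parts `≤ p` has a sub-multiset of sum `m`, then
every `x` with `x ^ p` scalar fixes a complementary pair with `dim U = m`. -/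
theorem bgl_unip_fix {F : Type*} [Field F] [Finite F] (p : ℕ) [Fact p.Prime] [CharP F p] (n m : ℕ)
    (hcond : ∀ μ : Multiset ℕ, (∀ a ∈ μ, 0 < a ∧ a ≤ p) → μ.sum = n →
      ∃ ν : Multiset ℕ, ν ≤ μ ∧ ν.sum = m)
    (x : Matrix (Fin n) (Fin n) F) (c : F) (hx : x ^ p = c • (1 : Matrix (Fin n) (Fin n) F)) :
    ∃ U W : Submodule F (Fin n → F), IsCompl U W ∧ Module.finrank F ↥U = m ∧
        U.map (Matrix.toLin' x) ≤ U ∧ W.map (Matrix.toLin' x) ≤ W := by
  classical
  obtain ⟨l, hl⟩ := surjective_frobenius F p c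
  rw [frobenius_def] at hl
  have hNp : (x - l • (1 : Matrix (Fin n) (Fin n) F)) ^ p = 0 := by
    rcases Nat.eq_zero_or_pos n with h0 | h0
    · subst h0
      exact Subsingleton.elim _ _
    · have hne : Nonempty (Fin n) := ⟨⟨0, h0⟩⟩
      rw [sub_pow_char_of_commute (p := p) (Commute.smul_right (Commute.one_right x) l), hx,
        smul_pow, one_pow, hl, sub_self]
  have hN : IsNilpotent (x - l • (1 : Matrix (Fin n) (Fin n) F)) := ⟨p, hNp⟩
  obtain ⟨μ, hμpos, hμsum, hμk⟩ := Cfsg.Agent.Helper38.exists_multiset_kdim _ hN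
  have hle : ∀ b ∈ μ, b ≤ p := by
    apply (Cfsg.Agent.Helper38.minsum_eq_sum_iff μ p).mp
    rw [← hμk, (Cfsg.Agent.Helper38.pow_eq_zero_iff_kdim _ p).mp hNp, hμsum]
  obtain ⟨ν, hνμ, hνsum⟩ := hcond μ (fun a ha => ⟨hμpos a ha, hle a ha⟩) hμsum
  obtain ⟨U, W, hc, hUdim, hU, hW⟩ := bgl_nil_split _ hN μ ν hνμ hμk
  have hxN : ∀ v, Matrix.toLin' x v =
      Matrix.toLin' (x - l • (1 : Matrix (Fin n) (Fin n) F)) v + l • v := by
    intro v
    rw [map_sub, LinearMap.sub_apply, map_smul, LinearMap.smul_apply, Matrix.toLin'_one]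
    simp
  refine ⟨U, W, hc, by rw [hUdim, hνsum], ?_, ?_⟩
  · rintro _ ⟨v, hv, rfl⟩
    rw [hxN]
    exact U.add_mem (hU v hv) (U.smul_mem l hv)
  · rintro _ ⟨v, hv, rfl⟩
    rw [hxN]
    exact W.add_mem (hW v hv) (W.smul_mem l hv)

/-- the partition condition for `p = 2` -/
theorem bgl_two_cond (n m : ℕ) (hmn : m ≤ n) :
    (∀ μ : Multiset ℕ, (∀ a ∈ μ, 0 < a ∧ a ≤ 2) → μ.sum = n →
      ∃ ν : Multiset ℕ, ν ≤ μ ∧ ν.sum = m) ↔ (Odd n ∨ Even m) := by
  constructor
  · intro h
    rcases Nat.even_or_odd n with hn | hn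
    · right
      obtain ⟨k, hk⟩ := hn
      obtain ⟨ν, hν, hνsum⟩ := h (Multiset.replicate k 2)
        (fun a ha => by rw [Multiset.eq_of_mem_replicate ha]; omega)
        (by rw [Multiset.sum_replicate, smul_eq_mul]; omega)
      obtain ⟨j, -, rfl⟩ := Multiset.le_replicate_iff.mp hν
      rw [Multiset.sum_replicate, smul_eq_mul] at hνsum
      exact ⟨j, by omega⟩
    · exact Or.inl hn
  · intro h μ hμ hsum
    have hμeq : μ = Multiset.replicate (μ.count 2) 2 + Multiset.replicate (μ.count 1) 1 := by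
      ext a
      rw [Multiset.count_add, Multiset.count_replicate, Multiset.count_replicate]
      by_cases h2 : a = 2
      · subst h2
        simp
      · by_cases h1 : a = 1
        · subst h1
          simp
        · rw [if_neg (Ne.symm h2), if_neg (Ne.symm h1), add_zero, Multiset.count_eq_zero]
          intro ha
          have := hμ a ha
          omega
    have hsum' : 2 * μ.count 2 + μ.count 1 = n := by
      rw [hμeq] at hsum
      simp only [Multiset.sum_add, Multiset.sum_replicate, smul_eq_mul, mul_one] at hsum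
      omega
    obtain ⟨k, hk⟩ : ∃ k, k = μ.count 2 := ⟨_, rfl⟩
    obtain ⟨l, hl⟩ : ∃ l, l = μ.count 1 := ⟨_, rfl⟩
    rw [← hk, ← hl] at hsum' hμeq
    refine ⟨Multiset.replicate (min k (m / 2)) 2 + Multiset.replicate (m - 2 * min k (m / 2)) 1,
      ?_, ?_⟩
    · rw [hμeq]
      apply add_le_add
      · exact (Multiset.replicate_le_replicate 2).mpr (min_le_left _ _)
      · apply (Multiset.replicate_le_replicate 1).mpr
        rcases le_total k (m / 2) with hkm | hkm
        · rw [min_eq_left hkm]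
          omega
        · rw [min_eq_right hkm]
          rcases h with hodd | heven
          · obtain ⟨t, ht⟩ := hodd
            omega
          · obtain ⟨t, ht⟩ := heven
            omega
    · simp only [Multiset.sum_add, Multiset.sum_replicate, smul_eq_mul, mul_one]
      have : 2 * min k (m / 2) ≤ m := by
        have := min_le_right k (m / 2)
        omega
      omega

end Cfsg.Agent.Helper69
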