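import Mathlib
import Cfsg.Agent.Helper69.BGLUnip
import Cfsg.Agent.Helper69.BGLCompl

set_option autoImplicit false

/-!
# Core of S5950 (helper69)

S5950 (complementary pairs `(U, W)`, `dim U = m`) from the corresponding statement for `m`-spaces
(S5949) in the semisimple case `r ≠ p`, and the Jordan-type analysis in the case `r = p`.
-/

namespace Cfsg.Agent.Helper69

theorem bgl_s5950_core {F : Type*} [Field F] [Fintype F] {p : ℕ} [Fact p.Prime] [CharP F p]
    (n m : ℕ) (hn : 3 ≤ n) (hmn : 2 * m < n)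
    (r : ℕ) [Fact r.Prime]
    (hrΩ : r ∣ Nat.card {P : Submodule F (Fin n → F) × Submodule F (Fin n → F) // IsCompl P.1 P.2 ∧ Module.finrank F ↥P.1 = m})
    (C : Prop)
    (h5949 : r ∣ Nat.card {W : Submodule F (Fin n → F) // Module.finrank F ↥W = m} →
      ((∀ x : Matrix.SpecialLinearGroup (Fin n) F,
      (∃ c : F, ((x ^ r : Matrix.SpecialLinearGroup (Fin n) F) : Matrix (Fin n) (Fin n) F) = c • (1 : Matrix (Fin n) (Fin n) F)) →
      (∀ c : F, (x : Matrix (Fin n) (Fin n) F) ≠ c • (1 : Matrix (Fin n) (Fin n) F)) →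
      ∃ W : Submodule F (Fin n → F), Module.finrank F ↥W = m ∧ W.map (Matrix.toLin' (x : Matrix (Fin n) (Fin n) F)) ≤ W) ↔
    (r ≠ p ∧ C))) :
    (∀ x : Matrix.SpecialLinearGroup (Fin n) F,
      (∃ c : F, ((x ^ r : Matrix.SpecialLinearGroup (Fin n) F) : Matrix (Fin n) (Fin n) F) = c • (1 : Matrix (Fin n) (Fin n) F)) →
      (∀ c : F, (x : Matrix (Fin n) (Fin n) F) ≠ c • (1 : Matrix (Fin n) (Fin n) F)) →
      ∃ U W : Submodule F (Fin n → F), IsCompl U W ∧ Module.finrank F ↥U = m ∧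
        U.map (Matrix.toLin' (x : Matrix (Fin n) (Fin n) F)) ≤ U ∧ W.map (Matrix.toLin' (x : Matrix (Fin n) (Fin n) F)) ≤ W) ↔
    ((r = p ∧ 2 < p ∧ (∀ μ : Multiset ℕ, (∀ a ∈ μ, 0 < a ∧ a ≤ p) → μ.sum = n → ∃ ν : Multiset ℕ, ν ≤ μ ∧ ν.sum = m)) ∨
     (r = p ∧ p = 2 ∧ (Odd n ∨ Even m)) ∨
     (r ≠ p ∧ C)) := by
  classical
  have hpP := (Fact.out : p.Prime)
  have hrP := (Fact.out : r.Prime)
  by_cases hrp : r = p
  · subst hrp
    constructor
    · intro h
      have hcond : ∀ μ : Multiset ℕ, (∀ a ∈ μ, 0 < a ∧ a ≤ r) → μ.sum = n →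
          ∃ ν : Multiset ℕ, ν ≤ μ ∧ ν.sum = m :=
        fun μ hμ hsum => bgl_unip_nec r n m (by omega) h μ hμ hsum
      rcases Nat.lt_or_ge 2 r with h2 | h2
      · exact Or.inl ⟨rfl, h2, hcond⟩
      · have hr2 : r = 2 := le_antisymm h2 hrP.two_le
        refine Or.inr (Or.inl ⟨rfl, hr2, (bgl_two_cond n m (by omega)).mp ?_⟩)
        rw [hr2] at hcond
        exact hcond
    · intro h
      have hcond : ∀ μ : Multiset ℕ, (∀ a ∈ μ, 0 < a ∧ a ≤ r) → μ.sum = n →
          ∃ ν : Multiset ℕ, ν ≤ μ ∧ ν.sum = m := by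
        rcases h with ⟨-, -, h⟩ | ⟨-, h2, h⟩ | ⟨hne, -⟩
        · exact h
        · rw [h2]
          exact (bgl_two_cond n m (by omega)).mpr h
        · exact absurd rfl hne
      rintro x ⟨c, hc⟩ -
      rw [Matrix.SpecialLinearGroup.coe_pow] at hc
      exact bgl_unip_fix r n m hcond _ c hc
  · have hrF : (r : F) ≠ 0 := by
      intro h0
      rw [CharP.cast_eq_zero_iff F p] at h0
      exact hrp ((Nat.prime_dvd_prime_iff_eq hpP hrP).mp h0).symm
    have hdvd : r ∣ Nat.card {W : Submodule F (Fin n → F) // Module.finrank F ↥W = m} := by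
      rw [bgl_card_compl_pairs] at hrΩ
      rcases (Nat.Prime.dvd_mul hrP).mp hrΩ with h | h
      · exact h
      · exfalso
        have h1 := hrP.dvd_of_dvd_pow h
        obtain ⟨f, -, hf⟩ := FiniteField.card F p
        rw [hf] at h1
        have h2 := hrP.dvd_of_dvd_pow h1
        exact hrp ((Nat.prime_dvd_prime_iff_eq hrP hpP).mp h2)
    have h := h5949 hdvd
    constructor
    · intro hx
      refine Or.inr (Or.inr (h.mp ?_))
      intro x hx1 hx2
      obtain ⟨U, W, -, hU, hUx, -⟩ := hx x hx1 hx2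
      exact ⟨U, hU, hUx⟩
    · intro hR
      have hR' : r ≠ p ∧ C := by
        rcases hR with ⟨h1, -⟩ | ⟨h1, -⟩ | h3
        · exact absurd h1 hrp
        · exact absurd h1 hrp
        · exact h3
      intro x hx1 hx2
      obtain ⟨U, hU, hUx⟩ := h.mpr hR' x hx1 hx2
      obtain ⟨c, hc⟩ := hx1
      rw [Matrix.SpecialLinearGroup.coe_pow] at hc
      have hne : Nonempty (Fin n) := ⟨⟨0, by omega⟩⟩
      have hc0 : c ≠ 0 := by
        rintro rfl
        have h1 := congrArg Matrix.det hc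
        rw [Matrix.det_pow, Matrix.SpecialLinearGroup.det_coe, one_pow, zero_smul,
          Matrix.det_zero] at h1
        exact one_ne_zero h1
      obtain ⟨W, hW, hWx⟩ := bgl_semisimple_compl r hrF _ c hc0 hc U hUx
      exact ⟨U, W, hW, hU, hUx, hWx⟩

end Cfsg.Agent.Helper69
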