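import Mathlib

/-!
# CALL BGP, piece AR (helper69): the count of B&G 14.7 for two subgroups "of type P1".
-/

set_option autoImplicit false

namespace Cfsg.Agent.Helper69

/-- AR (pure arithmetic). The count of B&G 14.7 for two subgroups "of type P1". -/
theorem bgp_count_arith {g k ks m ms i₁ i₂ nT nM nMs : ℕ} (hk : 2 ≤ k) (hks : 2 ≤ ks)
    (hg1 : g = k * m * i₁) (hg2 : g = ks * ms * i₂)
    (hT : k * ks * nT = (k * ks - k - ks + 1) * g)
    (hM : nM = (m - 1) * i₁) (hMs : nMs = (ms - 1) * i₂)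
    (hm : 2 * ks ≤ m) (hms : 2 * k ≤ ms)
    (hsum : nT + nM + nMs + 1 ≤ g) : False := by
  obtain ⟨a, rfl⟩ := Nat.exists_eq_add_of_le hk
  obtain ⟨b, rfl⟩ := Nat.exists_eq_add_of_le hks
  obtain ⟨c, rfl⟩ := Nat.exists_eq_add_of_le hm
  obtain ⟨d, rfl⟩ := Nat.exists_eq_add_of_le hms
  -- the truncated subtractions
  have e0 : (2 + a) * (2 + b) - (2 + a) - (2 + b) + 1 = (a + 1) * (b + 1) := by
    have e : (2 + a) * (2 + b) = (a * b + a + b) + (2 + b) + (2 + a) := by ring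
    rw [e, Nat.add_sub_cancel, Nat.add_sub_cancel]
    ring
  have e1 : 2 * (2 + b) + c - 1 = 2 * b + 3 + c := by omega
  have e2 : 2 * (2 + a) + d - 1 = 2 * a + 3 + d := by omega
  rw [e0] at hT
  rw [e1] at hM
  rw [e2] at hMs
  subst hM hMs
  -- F1: P*nT + k*g + ks*g = (P+1)*g
  have F1 : (2 + a) * (2 + b) * nT + (2 + a) * g + (2 + b) * g
      = (2 + a) * (2 + b) * g + g := by
    rw [hT]; ring
  -- F2: P*nM + P*i₁ = ks*g
  have F2 : (2 + a) * (2 + b) * ((2 * b + 3 + c) * i₁) + (2 + a) * (2 + b) * i₁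
      = (2 + b) * g := by
    rw [hg1]; ring
  -- F3: P*nMs + P*i₂ = k*g
  have F3 : (2 + a) * (2 + b) * ((2 * a + 3 + d) * i₂) + (2 + a) * (2 + b) * i₂
      = (2 + a) * g := by
    rw [hg2]; ring
  -- F4, F5
  have F4 : 2 * ((2 + a) * (2 + b) * i₁) ≤ g := by
    rw [hg1]
    have : (2 + a) * (2 * (2 + b) + c) * i₁
        = 2 * ((2 + a) * (2 + b) * i₁) + (2 + a) * c * i₁ := by ring
    rw [this]
    exact Nat.le_add_right _ _
  have F5 : 2 * ((2 + a) * (2 + b) * i₂) ≤ g := by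
    rw [hg2]
    have : (2 + b) * (2 * (2 + a) + d) * i₂
        = 2 * ((2 + a) * (2 + b) * i₂) + (2 + b) * d * i₂ := by ring
    rw [this]
    exact Nat.le_add_right _ _
  have F6 : (2 + a) * (2 + b) * (nT + (2 * b + 3 + c) * i₁ + (2 * a + 3 + d) * i₂ + 1)
      ≤ (2 + a) * (2 + b) * g := Nat.mul_le_mul_left _ hsum
  have F7 : (2 + a) * (2 + b) * (nT + (2 * b + 3 + c) * i₁ + (2 * a + 3 + d) * i₂ + 1)
      = (2 + a) * (2 + b) * nT + (2 + a) * (2 + b) * ((2 * b + 3 + c) * i₁)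
        + (2 + a) * (2 + b) * ((2 * a + 3 + d) * i₂) + (2 + a) * (2 + b) := by ring
  rw [F7] at F6
  have F8 : 4 ≤ (2 + a) * (2 + b) := by nlinarith
  generalize (2 + a) * (2 + b) * nT = X1 at *
  generalize (2 + a) * (2 + b) * ((2 * b + 3 + c) * i₁) = X2 at *
  generalize (2 + a) * (2 + b) * ((2 * a + 3 + d) * i₂) = X3 at *
  generalize (2 + a) * (2 + b) * i₁ = Y1 at *
  generalize (2 + a) * (2 + b) * i₂ = Y2 at *
  generalize (2 + a) * g = KG at *
  generalize (2 + b) * g = SG at *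
  generalize (2 + a) * (2 + b) * g = PG at *
  generalize (2 + a) * (2 + b) = P at *
  omega

end Cfsg.Agent.Helper69
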