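import Mathlib

/-!
# CALL BGP, piece CS (helper69): two commuting cyclic subgroups of coprime orders generate a
cyclic subgroup.
-/

set_option autoImplicit false

namespace Cfsg.Agent.Helper69

open Subgroup

universe u

variable {G : Type u} [Group G] [Finite G]

omit [Finite G] in
theorem bgp_mem_zpowers_mul (a b : G) (hab : Commute a b)
    (hcop : (orderOf a).Coprime (orderOf b)) : a ∈ zpowers (a * b) := by
  have h1 := Nat.gcd_eq_gcd_ab (orderOf a) (orderOf b)
  rw [hcop] at h1
  have h2 : a = ((a * b) ^ (orderOf b)) ^ (Nat.gcdB (orderOf a) (orderOf b)) := by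
    rw [hab.mul_pow, pow_orderOf_eq_one, mul_one]
    have h3 : a = a ^ ((1 : ℕ) : ℤ) := by simp
    conv_lhs => rw [h3, h1]
    rw [zpow_add, zpow_mul, zpow_natCast, pow_orderOf_eq_one, one_zpow, one_mul, zpow_mul,
      zpow_natCast]
  have h4 : ((a * b) ^ (orderOf b)) ^ (Nat.gcdB (orderOf a) (orderOf b)) ∈ zpowers (a * b) :=
    (zpowers (a * b)).zpow_mem ((zpowers (a * b)).pow_mem (mem_zpowers (a * b)) _) _
  rwa [← h2] at h4

/-- CS (pure). Two commuting cyclic subgroups of coprime orders generate a cyclic subgroup. -/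
theorem bgp_cyclic_sup (K Ks : Subgroup G) (hK : IsCyclic K) (hKs : IsCyclic Ks)
    (hc : Ks ≤ centralizer (K : Set G)) (hcop : (Nat.card K).Coprime (Nat.card Ks)) :
    IsCyclic ↥(K ⊔ Ks) := by
  obtain ⟨k, hk⟩ := IsCyclic.exists_generator (α := K)
  obtain ⟨y, hy⟩ := IsCyclic.exists_generator (α := Ks)
  have hcomm : Commute (k : G) (y : G) := by
    have := (Subgroup.mem_centralizer_iff.mp (hc y.2)) k k.2
    exact this
  have ho1 : orderOf (k : G) = Nat.card K := by
    rw [Subgroup.orderOf_coe]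
    exact orderOf_eq_card_of_forall_mem_zpowers hk
  have ho2 : orderOf (y : G) = Nat.card Ks := by
    rw [Subgroup.orderOf_coe]
    exact orderOf_eq_card_of_forall_mem_zpowers hy
  have hcop' : (orderOf (k : G)).Coprime (orderOf (y : G)) := by rw [ho1, ho2]; exact hcop
  have hk1 : (k : G) ∈ zpowers ((k : G) * (y : G)) := bgp_mem_zpowers_mul _ _ hcomm hcop'
  have hy1 : (y : G) ∈ zpowers ((k : G) * (y : G)) := by
    rw [hcomm.eq]
    exact bgp_mem_zpowers_mul _ _ hcomm.symm hcop'.symm
  have hKle : K ≤ zpowers ((k : G) * (y : G)) := by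
    intro x hx
    obtain ⟨j, hj⟩ := Subgroup.mem_zpowers_iff.mp (hk ⟨x, hx⟩)
    have hj' : (k : G) ^ j = x := by
      have := congrArg Subtype.val hj
      simpa using this
    rw [← hj']
    exact zpow_mem hk1 j
  have hKsle : Ks ≤ zpowers ((k : G) * (y : G)) := by
    intro x hx
    obtain ⟨j, hj⟩ := Subgroup.mem_zpowers_iff.mp (hy ⟨x, hx⟩)
    have hj' : (y : G) ^ j = x := by
      have := congrArg Subtype.val hj
      simpa using this
    rw [← hj']
    exact zpow_mem hy1 j
  have heq : K ⊔ Ks = zpowers ((k : G) * (y : G)) := by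
    apply le_antisymm (sup_le hKle hKsle)
    rw [Subgroup.zpowers_le]
    exact Subgroup.mul_mem _ (Subgroup.mem_sup_left k.2) (Subgroup.mem_sup_right y.2)
  rw [heq]
  infer_instance

end Cfsg.Agent.Helper69
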