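import Mathlib

/-!
# CALL BGP, piece ZH (helper69, double): the size of `Zhat` and of `K ⊔ Ks`.
-/

set_option autoImplicit false

namespace Cfsg.Agent.Helper69

open Subgroup

universe u

variable {G : Type u} [Group G] [Finite G]

/-- ZH (pure). The size of `Zhat` and of `K ⊔ Ks`. -/
theorem bgp_zhat_card (K Ks : Subgroup G) (hc : Ks ≤ centralizer (K : Set G))
    (hcop : (Nat.card K).Coprime (Nat.card Ks)) :
    Set.ncard ((↑(K ⊔ Ks) : Set G) \ ((K : Set G) ∪ ↑Ks)) + Nat.card K + Nat.card Ks =
        Nat.card K * Nat.card Ks + 1 ∧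
      Nat.card ↥(K ⊔ Ks) = Nat.card K * Nat.card Ks := by
  classical
  have hinf : K ⊓ Ks = ⊥ := (Subgroup.disjoint_of_coprime_natCard hcop).eq_bot
  have hcomm : ∀ (m : K) (n : Ks), Commute (K.subtype m) (Ks.subtype n) := by
    intro m n
    exact (Subgroup.mem_centralizer_iff.mp (hc n.2)) m m.2
  set f : K × Ks →* G := MonoidHom.noncommCoprod K.subtype Ks.subtype hcomm with hf
  have hrange : f.range = K ⊔ Ks := by
    rw [hf, MonoidHom.noncommCoprod_range, Subgroup.range_subtype, Subgroup.range_subtype]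
  have hinj : Function.Injective f := by
    rw [injective_iff_map_eq_one]
    rintro ⟨a, b⟩ hab
    have h1 : (a : G) * (b : G) = 1 := by
      have := hab
      rw [hf, MonoidHom.noncommCoprod_apply] at this
      exact this
    have h2 : (a : G) = (b : G)⁻¹ := eq_inv_of_mul_eq_one_left h1
    have h3 : (a : G) ∈ K ⊓ Ks := ⟨a.2, by rw [h2]; exact Ks.inv_mem b.2⟩
    rw [hinf, Subgroup.mem_bot] at h3
    have h4 : (b : G) = 1 := by rw [h3, one_mul] at h1; exact h1
    ext
    · exact h3
    · exact h4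
  have hcard : Nat.card ↥(K ⊔ Ks) = Nat.card K * Nat.card Ks := by
    rw [← hrange, ← Nat.card_prod]
    exact (Nat.card_congr (Equiv.ofInjective f hinj)).symm
  refine ⟨?_, hcard⟩
  have hsub : ((K : Set G) ∪ ↑Ks) ⊆ (↑(K ⊔ Ks) : Set G) := by
    intro x hx
    rcases hx with hx | hx
    · exact Subgroup.mem_sup_left hx
    · exact Subgroup.mem_sup_right hx
  have h1 := Set.ncard_sdiff_add_ncard_of_subset hsub (Set.toFinite _)
  have h2 := Set.ncard_union_add_ncard_inter (K : Set G) (Ks : Set G) (Set.toFinite _)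
    (Set.toFinite _)
  have h3 : ((K : Set G) ∩ (Ks : Set G)).ncard = 1 := by
    have : ((K : Set G) ∩ (Ks : Set G)) = {1} := by
      ext x
      constructor
      · intro hx
        have : x ∈ K ⊓ Ks := hx
        rw [hinf, Subgroup.mem_bot] at this
        exact this
      · rintro rfl
        exact ⟨K.one_mem, Ks.one_mem⟩
    rw [this, Set.ncard_singleton]
  have h4 : (↑(K ⊔ Ks) : Set G).ncard = Nat.card ↥(K ⊔ Ks) := (Nat.card_coe_set_eq _).symm
  have h5 : (K : Set G).ncard = Nat.card K := (Nat.card_coe_set_eq _).symm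
  have h6 : (Ks : Set G).ncard = Nat.card Ks := (Nat.card_coe_set_eq _).symm
  rw [h3, h5, h6] at h2
  rw [h4, hcard] at h1
  omega

end Cfsg.Agent.Helper69
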