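/-
helper69: CALL C3O piece NFRAME (helper43).
-/
import Mathlib
import Cfsg.Agent.Helper43.C3ODefs
import Cfsg.Agent.Helper45.Spinor

set_option autoImplicit false

namespace Cfsg.Agent.Helper69

open Matrix Module Polynomial
open Cfsg.Agent.Helper43.C3O

universe u

variable {F : Type u} [Field F] [Fintype F] {ι : Type} [Fintype ι] [DecidableEq ι]

/-- PIECE NFRAME -/
theorem c3o_nframe (h2 : (2 : F) ≠ 0) (Q : QuadraticForm F (ι → F))
    (hQ : (QuadraticMap.polarBilin Q).Nondegenerate) (d : ℕ) (hcard : Fintype.card ι = 2 * d)
    (g : ↥(Cfsg.isometryGroup F ⇑Q)) (hg : gm g * gm g = -1) :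
    ∃ u : Fin d → ι → F, (∀ j, Q (u j) ≠ 0) ∧
      ∀ i j, i ≠ j → QuadraticMap.polar ⇑Q (u i) (u j) = 0 ∧
        QuadraticMap.polar ⇑Q (u i) ((gm g).mulVec (u j)) = 0 := by
  classical
  have hXQ : ∀ v, Q ((gm g).mulVec v) = Q v := fun v => Cfsg.Agent.Helper45.mv_quad ⇑Q g v
  have hXB : ∀ u v, QuadraticMap.polar ⇑Q ((gm g).mulVec u) ((gm g).mulVec v)
      = QuadraticMap.polar ⇑Q u v := fun u v => Cfsg.Agent.Helper45.mv_polar Q g u v
  have hXX : ∀ v, (gm g).mulVec ((gm g).mulVec v) = -v := by
    intro v
    rw [Matrix.mulVec_mulVec, hg, Matrix.neg_mulVec, Matrix.one_mulVec]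
  have hsymm : ∀ u v, QuadraticMap.polar ⇑Q u v = QuadraticMap.polar ⇑Q v u :=
    fun u v => QuadraticMap.polar_comm ⇑Q u v
  have hd0 : ∀ u, QuadraticMap.polar ⇑Q u ((gm g).mulVec u) = 0 := by
    intro u
    have h : QuadraticMap.polar ⇑Q u ((gm g).mulVec u)
        = - QuadraticMap.polar ⇑Q u ((gm g).mulVec u) := by
      calc QuadraticMap.polar ⇑Q u ((gm g).mulVec u)
          = QuadraticMap.polar ⇑Q ((gm g).mulVec u) ((gm g).mulVec ((gm g).mulVec u)) :=
            (hXB u _).symm
        _ = QuadraticMap.polar ⇑Q ((gm g).mulVec u) (-u) := by rw [hXX]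
        _ = - QuadraticMap.polar ⇑Q ((gm g).mulVec u) u := by rw [QuadraticMap.polar_neg_right]
        _ = - QuadraticMap.polar ⇑Q u ((gm g).mulVec u) := by rw [hsymm]
    have h' : (2 : F) * QuadraticMap.polar ⇑Q u ((gm g).mulVec u) = 0 := by linear_combination h
    exact (mul_eq_zero.1 h').resolve_left h2
  have key : ∀ m : ℕ, m ≤ d → ∃ u : Fin m → ι → F, (∀ j, Q (u j) ≠ 0) ∧
      ∀ i j, i ≠ j → QuadraticMap.polar ⇑Q (u i) (u j) = 0 ∧
        QuadraticMap.polar ⇑Q (u i) ((gm g).mulVec (u j)) = 0 := by
    intro m
    induction m with
    | zero => intro _; exact ⟨Fin.elim0, fun j => j.elim0, fun i => i.elim0⟩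
    | succ m ih =>
      intro hm
      obtain ⟨u, hu1, hu2⟩ := ih (by omega)
      obtain ⟨v, hv, hvu, hvx⟩ : ∃ v : ι → F, Q v ≠ 0 ∧
          (∀ j, QuadraticMap.polar ⇑Q v (u j) = 0) ∧
          (∀ j, QuadraticMap.polar ⇑Q v ((gm g).mulVec (u j)) = 0) := by
        let B := QuadraticMap.polarBilin Q
        have hBdef : ∀ a b, B a b = QuadraticMap.polar ⇑Q a b := fun a b => rfl
        let w : Fin m ⊕ Fin m → (ι → F) := Sum.elim u (fun j => (gm g).mulVec (u j))
        have hw0 : ∀ a, B (w a) (w a) ≠ 0 := by
          intro a
          have hqa : Q (w a) ≠ 0 := by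
            rcases a with j | j
            · exact hu1 j
            · show Q ((gm g).mulVec (u j)) ≠ 0
              rw [hXQ]; exact hu1 j
          rw [hBdef, QuadraticMap.polar_self]
          intro h
          apply hqa
          have : (2 : F) * Q (w a) = 0 := by rw [← h]; simp [two_smul, two_mul]
          exact (mul_eq_zero.1 this).resolve_left h2
        have hworth : ∀ a b, a ≠ b → B (w a) (w b) = 0 := by
          rintro (i | i) (j | j) hab
          · exact (hu2 i j (fun h => hab (by rw [h]))).1
          · show QuadraticMap.polar ⇑Q (u i) ((gm g).mulVec (u j)) = 0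
            by_cases hij : i = j
            · subst hij; exact hd0 _
            · exact (hu2 i j hij).2
          · show QuadraticMap.polar ⇑Q ((gm g).mulVec (u i)) (u j) = 0
            rw [hsymm]
            by_cases hij : j = i
            · subst hij; exact hd0 _
            · exact (hu2 j i hij).2
          · show QuadraticMap.polar ⇑Q ((gm g).mulVec (u i)) ((gm g).mulVec (u j)) = 0
            rw [hXB]
            exact (hu2 i j (fun h => hab (by rw [h]))).1
        let P : (ι → F) → (ι → F) := fun v => v - ∑ a, (B v (w a) / B (w a) (w a)) • w a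
        have hP : ∀ v b, B (P v) (w b) = 0 := by
          intro v b
          show B (v - ∑ a, (B v (w a) / B (w a) (w a)) • w a) (w b) = 0
          rw [map_sub, LinearMap.sub_apply, map_sum, LinearMap.sum_apply,
            Finset.sum_eq_single b]
          · rw [map_smul, LinearMap.smul_apply, smul_eq_mul, div_mul_cancel₀ _ (hw0 b), sub_self]
          · intro a _ hab
            rw [map_smul, LinearMap.smul_apply, hworth a b hab, smul_zero]
          · intro hb; exact absurd (Finset.mem_univ b) hb
        have hex : ∃ v, Q (P v) ≠ 0 := by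
          by_contra hcon
          push Not at hcon
          have hPadd : ∀ v v', P (v + v') = P v + P v' := by
            intro v v'
            show (v + v') - ∑ a, (B (v + v') (w a) / B (w a) (w a)) • w a
              = (v - ∑ a, (B v (w a) / B (w a) (w a)) • w a)
                + (v' - ∑ a, (B v' (w a) / B (w a) (w a)) • w a)
            have : ∀ a, (B (v + v') (w a) / B (w a) (w a)) • w a
                = (B v (w a) / B (w a) (w a)) • w a + (B v' (w a) / B (w a) (w a)) • w a := by
              intro a
              rw [map_add, LinearMap.add_apply, add_div, add_smul]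
            simp only [this, Finset.sum_add_distrib]
            abel
          have hBP : ∀ v v', B (P v) (P v') = 0 := by
            intro v v'
            have h3 := hcon (v + v')
            rw [hPadd] at h3
            rw [hBdef]
            unfold QuadraticMap.polar
            rw [h3, hcon v, hcon v']; ring
          have hP0 : ∀ v, P v = 0 := by
            intro v
            apply hQ.1 (P v)
            intro z
            have hz : z = P z + ∑ a, (B z (w a) / B (w a) (w a)) • w a := by
              show z = (z - ∑ a, (B z (w a) / B (w a) (w a)) • w a)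
                + ∑ a, (B z (w a) / B (w a) (w a)) • w a
              abel
            rw [hz, map_add, hBP, map_sum, zero_add]
            apply Finset.sum_eq_zero
            intro a _
            rw [map_smul, hP, smul_zero]
          have hspan : ∀ v, v ∈ Submodule.span F (Set.range w) := by
            intro v
            have h4 : v = ∑ a, (B v (w a) / B (w a) (w a)) • w a := by
              have := hP0 v
              exact sub_eq_zero.1 this
            rw [h4]
            exact Submodule.sum_mem _ (fun a _ => Submodule.smul_mem _ _
              (Submodule.subset_span ⟨a, rfl⟩))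
          have htop : Submodule.span F (Set.range w) = ⊤ := eq_top_iff.2 (fun v _ => hspan v)
          have hle : Module.finrank F (ι → F) ≤ Fintype.card (Fin m ⊕ Fin m) := by
            rw [← finrank_top F (ι → F), ← htop]
            exact finrank_range_le_card w
          rw [Module.finrank_fintype_fun_eq_card, hcard] at hle
          simp at hle
          omega
        obtain ⟨v, hv⟩ := hex
        refine ⟨P v, hv, fun j => ?_, fun j => ?_⟩
        · exact hP v (Sum.inl j)
        · exact hP v (Sum.inr j)
      refine ⟨Fin.cons v u, ?_, ?_⟩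
      · intro j
        refine Fin.cases ?_ (fun j' => ?_) j
        · simpa using hv
        · simpa using hu1 j'
      · intro i j
        refine Fin.cases ?_ (fun i' => ?_) i <;> refine Fin.cases ?_ (fun j' => ?_) j
        · intro h; exact absurd rfl h
        · intro _
          simp only [Fin.cons_zero, Fin.cons_succ]
          exact ⟨hvu j', hvx j'⟩
        · intro _
          simp only [Fin.cons_zero, Fin.cons_succ]
          refine ⟨by rw [hsymm]; exact hvu i', ?_⟩
          calc QuadraticMap.polar ⇑Q (u i') ((gm g).mulVec v)
              = QuadraticMap.polar ⇑Q ((gm g).mulVec (u i')) ((gm g).mulVec ((gm g).mulVec v)) :=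
                (hXB _ _).symm
            _ = QuadraticMap.polar ⇑Q ((gm g).mulVec (u i')) (-v) := by rw [hXX]
            _ = - QuadraticMap.polar ⇑Q ((gm g).mulVec (u i')) v := by
                rw [QuadraticMap.polar_neg_right]
            _ = - QuadraticMap.polar ⇑Q v ((gm g).mulVec (u i')) := by rw [hsymm]
            _ = 0 := by rw [hvx i', neg_zero]
        · intro hij
          simp only [Fin.cons_succ]
          exact hu2 i' j' (fun h => hij (by rw [h]))
  exact key d le_rfl

end Cfsg.Agent.Helper69
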