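import Mathlib
import Cfsg.Agent.Helper59.Deg11Def
import Cfsg.Agent.S0713

/-!
# Piece J of CALL S0679: Jordan data for a 2-transitive group of degree 11

From cycle types of elements of prime order and Jordan's theorem on prime cycles.
-/

set_option autoImplicit false

namespace Cfsg.Agent.Helper69

/-- Cycle-type data of an element of prime order in a primitive group of degree 11 not
containing the alternating group. -/
theorem d11_key {α : Type*} [Fintype α] [DecidableEq α] (hα : Fintype.card α = 11)
    (G : Subgroup (Equiv.Perm α)) (hprim : MulAction.IsPreprimitive G α)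
    (hA : ¬ alternatingGroup α ≤ G) (g : G) {q : ℕ} (hq : q.Prime) (hg : orderOf g = q) :
    ∃ n : ℕ, (n + 1) * q ≤ 11 ∧ Cfsg.Agent.Helper59.fx α g = 11 - (n + 1) * q ∧
      (n = 0 → 8 < q) := by
  have hσ : orderOf (g : Equiv.Perm α) = q := by rw [Subgroup.orderOf_coe]; exact hg
  obtain ⟨n, hn⟩ := Equiv.Perm.cycleType_prime_order (σ := (g : Equiv.Perm α)) (by rw [hσ]; exact hq)
  rw [hσ] at hn
  have hsupp : (g : Equiv.Perm α).support.card = (n + 1) * q := by
    rw [← Equiv.Perm.sum_cycleType, hn, Multiset.sum_replicate, smul_eq_mul]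
  have hle : (n + 1) * q ≤ 11 := by
    rw [← hsupp, ← hα]; exact Finset.card_le_univ _
  have hfx : Cfsg.Agent.Helper59.fx α g = 11 - (n + 1) * q := by
    unfold Cfsg.Agent.Helper59.fx Cfsg.Agent.Helper59.fxs
    have : (Finset.univ.filter (fun a : α => g • a = a)) = ((g : Equiv.Perm α).support)ᶜ := by
      ext a
      simp only [Finset.mem_filter, Finset.mem_univ, true_and, Finset.mem_compl,
        Equiv.Perm.mem_support, not_not]
      rfl
    rw [this, Finset.card_compl, hsupp, hα]
  refine ⟨n, hle, hfx, ?_⟩
  intro hn0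
  by_contra hq8
  rw [not_lt] at hq8
  apply hA
  have hcyc : (g : Equiv.Perm α).IsCycle := by
    rw [← Equiv.Perm.card_cycleType_eq_one, hn, hn0]
    simp
  have hsc : (g : Equiv.Perm α).support.card = q := by rw [hsupp, hn0]; simp
  exact Cfsg.Agent.S0713.result G hprim hq (by omega) (by omega) hcyc hsc g.2

/-- PIECE J of CALL S0679. -/
theorem d11_of_perm {α : Type*} [Fintype α] [DecidableEq α] (hα : Fintype.card α = 11)
    (G : Subgroup (Equiv.Perm α)) (h2 : MulAction.IsMultiplyPretransitive G α 2)
    (hA : ¬ alternatingGroup α ≤ G) : Cfsg.Agent.Helper59.D11 G α := by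
  have hprim : MulAction.IsPreprimitive G α :=
    MulAction.isPreprimitive_of_is_two_pretransitive h2
  have key := fun (g : G) {q : ℕ} (hq : q.Prime) (hg : orderOf g = q) =>
    d11_key hα G hprim hA g hq hg
  refine
    { card := hα
      faith := ?_
      two := ?_
      o2 := ?_
      o3 := ?_
      o5 := ?_
      o7 := ?_
      o11 := ?_
      prime := ?_
      cardG := ?_ }
  · intro g hgfix
    apply Subtype.ext
    apply Equiv.ext
    intro a
    exact hgfix a
  · intro a b a' b' hab hab'
    exact (MulAction.is_two_pretransitive_iff (G := G) (α := α)).mp h2 hab hab'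
  · intro g hg
    obtain ⟨n, hle, hfx, hn0⟩ := key g Nat.prime_two hg
    have : n ≠ 0 := fun h => by have := hn0 h; omega
    rw [hfx]; omega
  · intro g hg
    obtain ⟨n, hle, hfx, hn0⟩ := key g Nat.prime_three hg
    have : n ≠ 0 := fun h => by have := hn0 h; omega
    rw [hfx]; omega
  · intro g hg
    obtain ⟨n, hle, hfx, hn0⟩ := key g (by norm_num : Nat.Prime 5) hg
    have : n ≠ 0 := fun h => by have := hn0 h; omega
    rw [hfx]; omega
  · intro g hg
    obtain ⟨n, hle, hfx, hn0⟩ := key g (by norm_num : Nat.Prime 7) hg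
    have : n ≠ 0 := fun h => by have := hn0 h; omega
    omega
  · intro g hg
    obtain ⟨n, hle, hfx, hn0⟩ := key g (by norm_num : Nat.Prime 11) hg
    rw [hfx]; omega
  · intro g hg
    obtain ⟨n, hle, hfx, hn0⟩ := key g hg rfl
    nlinarith
  · have h1 : Nat.card G ∣ Nat.card (Equiv.Perm α) := Subgroup.card_subgroup_dvd_card G
    have h3 : Nat.card (Equiv.Perm α) = 39916800 := by
      rw [Nat.card_eq_fintype_card, Fintype.card_perm, hα]; rfl
    rw [h3] at h1
    exact h1

end Cfsg.Agent.Helper69
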