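import Mathlib
import Cfsg.Prelude.Def_GeometricClasses
import Cfsg.Agent.Helper69.E3Def
import Cfsg.Agent.Helper97.Basic
import Cfsg.Agent.Helper84.E3BASE
import Cfsg.Agent.Helper84.E3CARD81
import Cfsg.Agent.Helper84.E3CUBE
import Cfsg.Agent.Helper91.E3NF
import Cfsg.Agent.Helper66.E3INV
import Cfsg.Agent.Helper29.E3F1a

set_option autoImplicit false

/-!
# Core of S5998 (helper69): elements of prime order of `PSL_3(p)` and the normalizer of `3^{1+2}`.
-/

namespace Cfsg.Agent.Helper69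

open Cfsg.Geo

/-- scalar matrices are stable under conjugation -/
theorem e3_conj_scalar {F : Type*} [Field F] (P y : GL (Fin 3) F) (c : F)
    (h : (y : Matrix (Fin 3) (Fin 3) F) = c • (1 : Matrix (Fin 3) (Fin 3) F)) :
    ((P⁻¹ * y * P : GL (Fin 3) F) : Matrix (Fin 3) (Fin 3) F) = c • (1 : Matrix (Fin 3) (Fin 3) F) := by
  rw [Units.val_mul, Units.val_mul, h, Matrix.mul_smul, Matrix.smul_mul, Matrix.mul_one,
    ← Units.val_mul, inv_mul_cancel, Units.val_one]

theorem e3_conj_pow {G : Type*} [Group G] (A B : G) (n : ℕ) :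
    (A⁻¹ * B * A) ^ n = A⁻¹ * B ^ n * A := by
  induction n with
  | zero => simp
  | succ n ih => rw [pow_succ, ih, pow_succ]; group

/-- the normalizer of a conjugate -/
theorem e3_mem_normalizer_conj {F : Type*} [Field F] (E : Subgroup (GL (Fin 3) F))
    (P y : GL (Fin 3) F) :
    y ∈ subgroupNormalizer (E.map (MulAut.conj P).toMonoidHom) ↔
      P⁻¹ * y * P ∈ subgroupNormalizer E := by
  unfold subgroupNormalizer
  rw [← Subgroup.map_equiv_normalizer_eq, Subgroup.mem_map]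
  constructor
  · rintro ⟨k, hk, rfl⟩
    have : P⁻¹ * (MulAut.conj P).toMonoidHom k * P = k := by
      show P⁻¹ * (P * k * P⁻¹) * P = k
      group
    rw [this]
    exact hk
  · intro h
    refine ⟨P⁻¹ * y * P, h, ?_⟩
    show P * (P⁻¹ * y * P) * P⁻¹ = y
    group

theorem e3_specialLinear_conj {F : Type*} [Field F] (P y : GL (Fin 3) F)
    (hy : y ∈ specialLinear (Fin 3) F) : P⁻¹ * y * P ∈ specialLinear (Fin 3) F := by
  unfold specialLinear at hy ⊢
  rw [MonoidHom.mem_ker] at hy ⊢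
  rw [map_mul, map_mul, hy, mul_one, map_inv, inv_mul_cancel]

/-- every cube root of unity is a cube when `9 ∣ q - 1` -/
theorem e3_exists_cube_root {F : Type*} [Field F] [Fintype F] (h9 : 9 ∣ Fintype.card F - 1)
    (z : F) (hz : z ^ 3 = 1) : ∃ ε : F, ε ^ 3 = z := by
  classical
  have hz0 : z ≠ 0 := by
    rintro rfl
    norm_num at hz
  obtain ⟨γ, hγ⟩ := IsCyclic.exists_generator (α := Fˣ)
  have hord : orderOf γ = Fintype.card F - 1 := by
    rw [orderOf_eq_card_of_forall_mem_zpowers hγ, Nat.card_eq_fintype_card, Fintype.card_units]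
  obtain ⟨m, hm⟩ := h9
  have hq1 : 1 ≤ Fintype.card F := Fintype.card_pos
  have hmpos : 0 < m := by
    rcases Nat.eq_zero_or_pos m with h0 | h0
    · subst h0
      have h2 : 2 ≤ Fintype.card F := Fintype.one_lt_card
      omega
    · exact h0
  obtain ⟨k, hk⟩ : ∃ k : ℕ, γ ^ k = Units.mk0 z hz0 := by
    have h1 := hγ (Units.mk0 z hz0)
    rw [Subgroup.mem_zpowers_iff] at h1
    obtain ⟨j, hj⟩ := h1
    refine ⟨(j % (orderOf γ : ℤ)).toNat, ?_⟩
    have hpos : (0 : ℤ) < orderOf γ := by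
      rw [hord, hm]
      positivity
    rw [← zpow_natCast, Int.toNat_of_nonneg (Int.emod_nonneg _ hpos.ne'), zpow_mod_orderOf]
    exact hj
  have h3k : γ ^ (3 * k) = 1 := by
    rw [mul_comm, pow_mul, hk]
    apply Units.ext
    rw [Units.val_pow_eq_pow_val, Units.val_mk0, hz, Units.val_one]
  have hdvd : 9 * m ∣ 3 * k := by
    rw [← hm, ← hord]
    exact orderOf_dvd_of_pow_eq_one h3k
  obtain ⟨j, hj⟩ : 3 * m ∣ k := by
    obtain ⟨t, ht⟩ := hdvd
    refine ⟨t, ?_⟩
    have h3 : 3 * k = 3 * (3 * m * t) := by rw [ht]; ring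
    exact Nat.eq_of_mul_eq_mul_left (by norm_num) h3
  refine ⟨((γ ^ (m * j) : Fˣ) : F), ?_⟩
  rw [← Units.val_pow_eq_pow_val, ← pow_mul]
  have : m * j * 3 = k := by rw [hj]; ring
  rw [this, hk, Units.val_mk0]

theorem e3_main {F : Type*} [Field F] [Fintype F] {p : ℕ} [Fact p.Prime] [CharP F p]
    (hF : Fintype.card F = p) (hp3 : p % 3 = 1)
    (R : Subgroup (GL (Fin 3) F)) (hR : Nat.card R = 27) (hRe : Monoid.exponent R = 3)
    (hRna : ¬ IsMulCommutative R)
    (r : ℕ) [Fact r.Prime]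
    (hΩ : r ∣ (Cfsg.Geo.subgroupNormalizer R).relIndex (Cfsg.Geo.specialLinear (Fin 3) F)) :
    (∀ x ∈ Cfsg.Geo.specialLinear (Fin 3) F, (∃ z : F, ((x ^ r : GL (Fin 3) F) : Matrix (Fin 3) (Fin 3) F) = z • (1 : Matrix (Fin 3) (Fin 3) F)) →
      (∀ z : F, (x : Matrix (Fin 3) (Fin 3) F) ≠ z • (1 : Matrix (Fin 3) (Fin 3) F)) →
      ∃ g ∈ Cfsg.Geo.specialLinear (Fin 3) F, g⁻¹ * x * g ∈ Cfsg.Geo.subgroupNormalizer R) ↔ (r = 2 ∨ (r = 3 ∧ p % 9 = 1)) := by
  classical
  have hpP := (Fact.out : p.Prime)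
  have hrP := (Fact.out : r.Prime)
  have hp2 : p ≠ 2 := by omega
  have hp3' : p ≠ 3 := by omega
  have h3F : (3 : F) ≠ 0 := by
    intro h0
    have h1 : ((3 : ℕ) : F) = 0 := by exact_mod_cast h0
    rw [CharP.cast_eq_zero_iff F p] at h1
    exact hp3' ((Nat.prime_dvd_prime_iff_eq hpP Nat.prime_three).mp h1)
  have hp1 : 1 ≤ p := hpP.one_le
  -- a primitive cube root of unity
  obtain ⟨w, hw1, hw3⟩ : ∃ w : F, w ≠ 1 ∧ w ^ 3 = 1 := by
    obtain ⟨u, hu⟩ := exists_prime_orderOf_dvd_card' (G := Fˣ) 3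
      (by rw [Nat.card_eq_fintype_card, Fintype.card_units, hF]; omega)
    refine ⟨(u : F), ?_, ?_⟩
    · intro h1
      have h2 : u = 1 := Units.ext h1
      rw [h2, orderOf_one] at hu
      omega
    · rw [← Units.val_pow_eq_pow_val, ← hu, pow_orderOf_eq_one, Units.val_one]
  obtain ⟨ω, P, hω1, hω3, hRP⟩ := Cfsg.Agent.Helper91.e3_normal_form h3F w hw1 hw3 R hR hRe hRna
  have hN : ∀ y : GL (Fin 3) F, y ∈ subgroupNormalizer R ↔
      P⁻¹ * y * P ∈ subgroupNormalizer (E3 ω) := by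
    intro y
    rw [hRP]
    exact e3_mem_normalizer_conj (E3 ω) P y
  -- the common step for r = 2, 3: from an intertwiner to the statement
  have hstep : ∀ x ∈ specialLinear (Fin 3) F,
      (∃ (Q : Matrix (Fin 3) (Fin 3) F) (t : GL (Fin 3) F), Q.det = 1 ∧
        t ∈ subgroupNormalizer (E3 ω) ∧
        Q * ((P⁻¹ * x * P : GL (Fin 3) F) : Matrix (Fin 3) (Fin 3) F) =
          (t : Matrix (Fin 3) (Fin 3) F) * Q) →
      ∃ g ∈ specialLinear (Fin 3) F, g⁻¹ * x * g ∈ subgroupNormalizer R := by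
    rintro x hx ⟨Q, t, hQ, ht, hQt⟩
    have hQg : Cfsg.Agent.Helper97.glOfDetOne Q hQ * (P⁻¹ * x * P) =
        t * Cfsg.Agent.Helper97.glOfDetOne Q hQ := by
      apply Units.ext
      rw [Units.val_mul, Units.val_mul, Cfsg.Agent.Helper97.glOfDetOne_val]
      exact hQt
    have hQmem := Cfsg.Agent.Helper97.glOfDetOne_mem Q hQ
    refine ⟨P * (Cfsg.Agent.Helper97.glOfDetOne Q hQ)⁻¹ * P⁻¹, ?_, ?_⟩
    · have h1 := e3_specialLinear_conj P⁻¹ _ ((specialLinear (Fin 3) F).inv_mem hQmem)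
      rw [inv_inv] at h1
      exact h1
    · rw [hN]
      have h2 : P⁻¹ * ((P * (Cfsg.Agent.Helper97.glOfDetOne Q hQ)⁻¹ * P⁻¹)⁻¹ * x *
          (P * (Cfsg.Agent.Helper97.glOfDetOne Q hQ)⁻¹ * P⁻¹)) * P =
          Cfsg.Agent.Helper97.glOfDetOne Q hQ * (P⁻¹ * x * P) *
            (Cfsg.Agent.Helper97.glOfDetOne Q hQ)⁻¹ := by group
      rw [h2, hQg, mul_inv_cancel_right]
      exact ht
  -- facts about x' = P⁻¹ x P
  have hx' : ∀ x ∈ specialLinear (Fin 3) F, ∀ z : F,
      ((x ^ r : GL (Fin 3) F) : Matrix (Fin 3) (Fin 3) F) = z • (1 : Matrix (Fin 3) (Fin 3) F) →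
      ((P⁻¹ * x * P : GL (Fin 3) F) : Matrix (Fin 3) (Fin 3) F).det = 1 ∧
      ((P⁻¹ * x * P : GL (Fin 3) F) : Matrix (Fin 3) (Fin 3) F) ^ r =
        z • (1 : Matrix (Fin 3) (Fin 3) F) := by
    intro x hx z hz
    refine ⟨(Cfsg.Agent.Helper97.mem_specialLinear_iff _).mp (e3_specialLinear_conj P x hx), ?_⟩
    rw [← Units.val_pow_eq_pow_val]
    rw [e3_conj_pow]
    exact e3_conj_scalar P _ z hz
  have hns' : ∀ x : GL (Fin 3) F,
      (∀ z : F, (x : Matrix (Fin 3) (Fin 3) F) ≠ z • (1 : Matrix (Fin 3) (Fin 3) F)) →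
      ∀ c : F, ((P⁻¹ * x * P : GL (Fin 3) F) : Matrix (Fin 3) (Fin 3) F) ≠
        c • (1 : Matrix (Fin 3) (Fin 3) F) := by
    intro x hns c hc
    apply hns c
    have h1 := e3_conj_scalar P⁻¹ (P⁻¹ * x * P) c hc
    have h2 : P⁻¹⁻¹ * (P⁻¹ * x * P) * P⁻¹ = x := by group
    rw [h2] at h1
    exact h1
  by_cases hr2 : r = 2
  · -- involutions
    refine iff_of_true ?_ (Or.inl hr2)
    intro x hx ⟨z, hz⟩ hns
    obtain ⟨hdet, hpow⟩ := hx' x hx z hz
    rw [hr2] at hpow
    exact hstep x hx (Cfsg.Agent.Helper66.e3_involution p hp2 ω hω1 hω3 _ hdet z hpow (hns' x hns))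
  by_cases hr3 : r = 3
  · by_cases hp9 : p % 9 = 1
    · refine iff_of_true ?_ (Or.inr ⟨hr3, hp9⟩)
      intro x hx ⟨z, hz⟩ hns
      obtain ⟨hdet, hpow⟩ := hx' x hx z hz
      rw [hr3] at hpow
      have hz3 : z ^ 3 = 1 := by
        have h1 := congrArg Matrix.det hpow
        rw [Matrix.det_pow, hdet, one_pow, Matrix.det_smul, Matrix.det_one, mul_one,
          Fintype.card_fin] at h1
        exact h1.symm
      obtain ⟨ε, hε⟩ := e3_exists_cube_root (F := F) (by rw [hF]; omega) z hz3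
      rw [← hε] at hpow
      exact hstep x hx (Cfsg.Agent.Helper84.e3_cube h3F ω hω1 hω3 _ hdet ε hpow)
    · -- contradiction with hΩ
      exfalso
      have h47 : Fintype.card F % 9 = 4 ∨ Fintype.card F % 9 = 7 := by rw [hF]; omega
      apply Cfsg.Agent.Helper84.e3_card_SL3 (F := F) h47
      have hRle : R ≤ specialLinear (Fin 3) F := by
        rw [hRP]
        rintro _ ⟨k, hk, rfl⟩
        have h1 := e3_specialLinear_conj P⁻¹ k (Cfsg.Agent.Helper84.e3_le_specialLinear ω hω3 hk)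
        rw [inv_inv] at h1
        exact h1
      have hRN : R ≤ subgroupNormalizer R := Subgroup.le_normalizer
      have h1 : 3 ∣ R.relIndex (specialLinear (Fin 3) F) := by
        rw [hr3] at hΩ
        exact hΩ.trans (Subgroup.relIndex_dvd_of_le_left _ hRN)
      have h2 : Nat.card (R.subgroupOf (specialLinear (Fin 3) F)) = 27 := by
        rw [Nat.card_congr (Subgroup.subgroupOfEquivOfLe hRle).toEquiv, hR]
      have h3 := Subgroup.card_mul_index (R.subgroupOf (specialLinear (Fin 3) F))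
      rw [h2] at h3
      have h4 : Nat.card (Matrix.SpecialLinearGroup (Fin 3) F) =
          Nat.card ↥(specialLinear (Fin 3) F) := by
        apply Nat.card_congr
        refine Equiv.ofBijective (fun x => ⟨Matrix.SpecialLinearGroup.toGL x, ?_⟩) ⟨?_, ?_⟩
        · rw [Cfsg.Agent.Helper97.mem_specialLinear_iff]
          exact x.2
        · intro a b hab
          exact Matrix.SpecialLinearGroup.toGL_injective (congrArg Subtype.val hab)
        · rintro ⟨y, hy⟩
          rw [Cfsg.Agent.Helper97.mem_specialLinear_iff] at hy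
          exact ⟨⟨(y : Matrix (Fin 3) (Fin 3) F), hy⟩, Subtype.ext (Units.ext rfl)⟩
      rw [h4, ← h3]
      obtain ⟨t, ht⟩ := h1
      have : (R.subgroupOf (specialLinear (Fin 3) F)).index = 3 * t := ht
      rw [this]
      exact ⟨t, by ring⟩
  · -- r ≥ 5: both sides are false
    have hr5 : 5 ≤ r := by
      have h2 := hrP.two_le
      rcases Nat.lt_or_ge r 5 with h | h
      · have h4 : r = 4 := by omega
        rw [h4] at hrP
        exact absurd hrP (by decide)
      · exact h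
    have hRHS : ¬ (r = 2 ∨ (r = 3 ∧ p % 9 = 1)) := by
      rintro (h | ⟨h, -⟩)
      · exact hr2 h
      · exact hr3 h
    refine iff_of_false ?_ hRHS
    intro h
    have hcard : r ∣ Nat.card ↥(specialLinear (Fin 3) F) :=
      hΩ.trans (Subgroup.relIndex_dvd_card _ _)
    obtain ⟨x, hx⟩ := exists_prime_orderOf_dvd_card' (G := ↥(specialLinear (Fin 3) F)) r hcard
    have hxr : (x : GL (Fin 3) F) ^ r = 1 := by
      have h1 : x ^ r = 1 := by rw [← hx]; exact pow_orderOf_eq_one x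
      have h2 := congrArg Subtype.val h1
      exact h2
    have hxdet : ((x : GL (Fin 3) F) : Matrix (Fin 3) (Fin 3) F).det = 1 :=
      (Cfsg.Agent.Helper97.mem_specialLinear_iff _).mp x.2
    have hxns : ∀ z : F, ((x : GL (Fin 3) F) : Matrix (Fin 3) (Fin 3) F) ≠
        z • (1 : Matrix (Fin 3) (Fin 3) F) := by
      intro z hz
      have hz3 : z ^ 3 = 1 := by
        have h1 := hxdet
        rw [hz, Matrix.det_smul, Matrix.det_one, mul_one, Fintype.card_fin] at h1
        exact h1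
      have hzr : z ^ r = 1 := by
        have h1 := congrArg (fun g : GL (Fin 3) F => (g : Matrix (Fin 3) (Fin 3) F)) hxr
        simp only [Units.val_pow_eq_pow_val, Units.val_one] at h1
        rw [hz, smul_pow, one_pow] at h1
        have h2 := congrFun (congrFun h1 0) 0
        simpa using h2
      have hcop : Nat.Coprime 3 r := by
        rw [Nat.coprime_primes Nat.prime_three hrP]
        exact Ne.symm hr3
      have hz1 : z = 1 := (pow_eq_one_iff_of_coprime hcop).mp ⟨hz3, hzr⟩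
      have hx1 : (x : GL (Fin 3) F) = 1 := by
        apply Units.ext
        rw [hz, hz1, one_smul, Units.val_one]
      have hx1' : x = 1 := Subtype.ext hx1
      rw [hx1', orderOf_one] at hx
      exact hrP.one_lt.ne hx
    obtain ⟨g, hg, hgN⟩ := h x x.2 ⟨1, by rw [hxr, Units.val_one, one_smul]⟩ hxns
    rw [hN] at hgN
    have hpow : ((P⁻¹ * (g⁻¹ * x * g) * P) ^ r : GL (Fin 3) F) = 1 := by
      have h1 : P⁻¹ * (g⁻¹ * (x : GL (Fin 3) F) * g) * P = (g * P)⁻¹ * x * (g * P) := by group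
      rw [h1, e3_conj_pow, hxr]
      group
    obtain ⟨c, hc⟩ := Cfsg.Agent.Helper29.e3_normalizer_scalar_aux ω hω1 hω3
      (Cfsg.Agent.Helper84.e3_card ω hω1 hω3) _ hgN r hrP hr5 1
      (by rw [hpow, Units.val_one, one_smul])
    apply hxns c
    have h1 := e3_conj_scalar (g * P)⁻¹ (P⁻¹ * (g⁻¹ * (x : GL (Fin 3) F) * g) * P) c hc
    have h2 : (g * P)⁻¹⁻¹ * (P⁻¹ * (g⁻¹ * (x : GL (Fin 3) F) * g) * P) * (g * P)⁻¹ = x := by group
    rw [h2] at h1
    exact h1

end Cfsg.Agent.Helper69
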