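import Mathlib
import Cfsg.Prelude.Def_GeometricClasses
import Cfsg.Prelude.Def_LieClassical
import Cfsg.Agent.Helper69.E3Def
import Cfsg.Agent.Helper69.E3Core
import Cfsg.Agent.Helper97.Basic
import Cfsg.Agent.Helper5.UnitSU
import Cfsg.Agent.Helper84.E3BASE
import Cfsg.Agent.Helper29.E3F1a
import Cfsg.Agent.Helper28.E3UCARDU
import Cfsg.Agent.Helper42.E3UNFU
import Cfsg.Agent.Helper66.E3UTINV
import Cfsg.Agent.Helper83.E3UDIAG2
import Cfsg.Agent.Helper84.E3UDIAG3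
import Cfsg.Agent.Helper84.E3UDN
import Cfsg.Agent.Helper78.E3UUR

set_option autoImplicit false

/-!
# Core of S5999 (helper69): elements of prime order of `PSU_3(p)` and the normalizer of `3^{1+2}`.
-/

namespace Cfsg.Agent.Helper69

open Cfsg.Geo

/-- a scalar matrix as a unit -/
noncomputable def e3uScalar {F : Type*} [Field F] (ε : F) (hε : ε ≠ 0) : GL (Fin 3) F :=
  Matrix.GeneralLinearGroup.mkOfDetNeZero (ε • (1 : Matrix (Fin 3) (Fin 3) F)) (by
    rw [Matrix.det_smul, Matrix.det_one, mul_one]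
    exact pow_ne_zero _ hε)

theorem e3uScalar_val {F : Type*} [Field F] (ε : F) (hε : ε ≠ 0) :
    ((e3uScalar ε hε : GL (Fin 3) F) : Matrix (Fin 3) (Fin 3) F) =
      ε • (1 : Matrix (Fin 3) (Fin 3) F) := rfl

/-- scalar units commute with everything -/
theorem e3u_scalar_comm {F : Type*} [Field F] (s : GL (Fin 3) F) (c : F)
    (hs : (s : Matrix (Fin 3) (Fin 3) F) = c • (1 : Matrix (Fin 3) (Fin 3) F))
    (h : GL (Fin 3) F) : s * h = h * s := by
  apply Units.ext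
  rw [Units.val_mul, Units.val_mul, hs, Matrix.smul_mul, Matrix.mul_smul, Matrix.one_mul,
    Matrix.mul_one]

/-- scalar units normalise every subgroup -/
theorem e3u_scalar_mem_normalizer {F : Type*} [Field F] (E : Subgroup (GL (Fin 3) F))
    (s : GL (Fin 3) F) (c : F)
    (hs : (s : Matrix (Fin 3) (Fin 3) F) = c • (1 : Matrix (Fin 3) (Fin 3) F)) :
    s ∈ subgroupNormalizer E := by
  unfold subgroupNormalizer
  rw [Subgroup.mem_normalizer_iff]
  intro h
  have h1 : s * h * s⁻¹ = h := by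
    rw [e3u_scalar_comm s c hs h, mul_inv_cancel_right]
  rw [h1]

/-- a scalar unit with norm one is unitary -/
theorem e3u_scalar_mem_GU {F : Type*} [Field F] [Fintype F] {p : ℕ}
    (s : GL (Fin 3) F) (c : F) (hc : c ^ (p + 1) = 1)
    (hs : (s : Matrix (Fin 3) (Fin 3) F) = c • (1 : Matrix (Fin 3) (Fin 3) F)) :
    s ∈ Cfsg.GU 3 F p := by
  apply Cfsg.Agent.Helper5.diagonal_mem_GU (fun _ => c) (fun _ => hc) s
  rw [hs]
  ext i j
  by_cases hij : i = j
  · subst hij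
    simp
  · simp [hij]

/-- the determinant fix: two unitary diagonalisations of `y` and `t` to the same diagonal matrix
give a conjugating element of `SU_3` -/
theorem e3u_su_fix {F : Type*} [Field F] [Fintype F] {p : ℕ} (hF : Fintype.card F = p ^ 2)
    (y t U₁ U₂ : GL (Fin 3) F) (hU₁ : U₁ ∈ Cfsg.GU 3 F p) (hU₂ : U₂ ∈ Cfsg.GU 3 F p)
    (a b c : F)
    (h1 : (y : Matrix (Fin 3) (Fin 3) F) * (U₁ : Matrix (Fin 3) (Fin 3) F) =
      (U₁ : Matrix (Fin 3) (Fin 3) F) * Matrix.diagonal ![a, b, c])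
    (h2 : (t : Matrix (Fin 3) (Fin 3) F) * (U₂ : Matrix (Fin 3) (Fin 3) F) =
      (U₂ : Matrix (Fin 3) (Fin 3) F) * Matrix.diagonal ![a, b, c]) :
    ∃ g ∈ Cfsg.GU 3 F p ⊓ specialLinear (Fin 3) F, g⁻¹ * y * g = t := by
  classical
  -- the common diagonal form as a unit
  have hD1' : ((U₁⁻¹ * y * U₁ : GL (Fin 3) F) : Matrix (Fin 3) (Fin 3) F) =
      Matrix.diagonal ![a, b, c] := by
    rw [Units.val_mul, Units.val_mul, mul_assoc, h1, ← mul_assoc, ← Units.val_mul, inv_mul_cancel,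
      Units.val_one, Matrix.one_mul]
  have hD2' : ((U₂⁻¹ * t * U₂ : GL (Fin 3) F) : Matrix (Fin 3) (Fin 3) F) =
      Matrix.diagonal ![a, b, c] := by
    rw [Units.val_mul, Units.val_mul, mul_assoc, h2, ← mul_assoc, ← Units.val_mul, inv_mul_cancel,
      Units.val_one, Matrix.one_mul]
  obtain ⟨D, hDdef⟩ : ∃ D : GL (Fin 3) F, D = U₁⁻¹ * y * U₁ := ⟨_, rfl⟩
  have hD1 : (D : Matrix (Fin 3) (Fin 3) F) = Matrix.diagonal ![a, b, c] := by
    rw [hDdef]; exact hD1'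
  have hD12 : D = U₂⁻¹ * t * U₂ := Units.ext (hD1.trans hD2'.symm)
  -- determinants
  have hd1 := Cfsg.Agent.Helper5.det_pow_of_mem_GU hF U₁ hU₁
  have hd2 := Cfsg.Agent.Helper5.det_pow_of_mem_GU hF U₂ hU₂
  set d1 := (U₁ : Matrix (Fin 3) (Fin 3) F).det with hd1def
  set d2 := (U₂ : Matrix (Fin 3) (Fin 3) F).det with hd2def
  have hd10 : d1 ≠ 0 := by
    intro h0
    rw [h0, zero_pow (Nat.succ_ne_zero p)] at hd1
    exact zero_ne_one hd1
  have hd20 : d2 ≠ 0 := by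
    intro h0
    rw [h0, zero_pow (Nat.succ_ne_zero p)] at hd2
    exact zero_ne_one hd2
  set δ : F := d1⁻¹ * d2 with hδ
  have hδ0 : δ ≠ 0 := mul_ne_zero (inv_ne_zero hd10) hd20
  have hδn : δ ^ (p + 1) = 1 := by
    rw [hδ, mul_pow, inv_pow, hd1, hd2, inv_one, one_mul]
  have hVdet : (Matrix.diagonal ![δ, 1, 1] : Matrix (Fin 3) (Fin 3) F).det = δ := by
    rw [Matrix.det_diagonal, Fin.prod_univ_three]
    simp
  obtain ⟨V, hVval⟩ : ∃ V : GL (Fin 3) F,
      (V : Matrix (Fin 3) (Fin 3) F) = Matrix.diagonal ![δ, 1, 1] :=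
    ⟨Matrix.GeneralLinearGroup.mkOfDetNeZero (Matrix.diagonal ![δ, 1, 1])
      (by rw [hVdet]; exact hδ0), rfl⟩
  have hVU : V ∈ Cfsg.GU 3 F p := by
    apply Cfsg.Agent.Helper5.diagonal_mem_GU ![δ, 1, 1] _ V hVval
    intro i
    fin_cases i
    · exact hδn
    · simp
    · simp
  -- V commutes with the diagonal form
  have hVD : V * D = D * V := by
    apply Units.ext
    rw [Units.val_mul, Units.val_mul, hD1, hVval, Matrix.diagonal_mul_diagonal,
      Matrix.diagonal_mul_diagonal]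
    congr 1
    funext i
    exact mul_comm _ _
  have hyD : y = U₁ * D * U₁⁻¹ := by rw [hDdef]; group
  have htD : t = U₂ * D * U₂⁻¹ := by rw [hD12]; group
  refine ⟨U₁ * V * U₂⁻¹, Subgroup.mem_inf.mpr ⟨?_, ?_⟩, ?_⟩
  · exact (Cfsg.GU 3 F p).mul_mem ((Cfsg.GU 3 F p).mul_mem hU₁ hVU) ((Cfsg.GU 3 F p).inv_mem hU₂)
  · rw [Cfsg.Agent.Helper97.mem_specialLinear_iff, Units.val_mul, Units.val_mul, Matrix.det_mul,
      Matrix.det_mul, hVval, hVdet, Matrix.coe_units_inv, Matrix.det_nonsing_inv,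
      Ring.inverse_eq_inv', ← hd1def, ← hd2def, hδ]
    field_simp
  · have e1 : (U₁ * V * U₂⁻¹)⁻¹ * (U₁ * D * U₁⁻¹) * (U₁ * V * U₂⁻¹) =
        U₂ * (V⁻¹ * D * V) * U₂⁻¹ := by group
    have e2 : V⁻¹ * D * V = D := by
      rw [mul_assoc, ← hVD, inv_mul_cancel_left]
    rw [hyD, e1, e2, htD]

/-- from two unitary diagonalisations to a conjugate in the normaliser -/
theorem e3u_conj_of_diag {F : Type*} [Field F] [Fintype F] {p : ℕ} (hF : Fintype.card F = p ^ 2)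
    (ω : F) (s y t U₁ U₂ : GL (Fin 3) F) (ε : F)
    (hs : (s : Matrix (Fin 3) (Fin 3) F) = ε • (1 : Matrix (Fin 3) (Fin 3) F))
    (hU₁ : U₁ ∈ Cfsg.GU 3 F p) (hU₂ : U₂ ∈ Cfsg.GU 3 F p)
    (a b c : F)
    (h1 : (y : Matrix (Fin 3) (Fin 3) F) * (U₁ : Matrix (Fin 3) (Fin 3) F) =
      (U₁ : Matrix (Fin 3) (Fin 3) F) * Matrix.diagonal ![a, b, c])
    (h2 : (t : Matrix (Fin 3) (Fin 3) F) * (U₂ : Matrix (Fin 3) (Fin 3) F) =
      (U₂ : Matrix (Fin 3) (Fin 3) F) * Matrix.diagonal ![a, b, c])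
    (ht : t ∈ subgroupNormalizer (E3 ω)) :
    ∃ g ∈ Cfsg.GU 3 F p ⊓ specialLinear (Fin 3) F,
      g⁻¹ * (s * y) * g ∈ subgroupNormalizer (E3 ω) := by
  obtain ⟨g, hg, hgt⟩ := e3u_su_fix hF y t U₁ U₂ hU₁ hU₂ a b c h1 h2
  refine ⟨g, hg, ?_⟩
  have e1 : g⁻¹ * (s * y) * g = s * (g⁻¹ * y * g) := by
    rw [← mul_assoc g⁻¹ s y, ← e3u_scalar_comm s ε hs g⁻¹]
    group
  rw [e1, hgt]
  exact (subgroupNormalizer (E3 ω)).mul_mem (e3u_scalar_mem_normalizer (E3 ω) s ε hs) ht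

theorem e3u_main {F : Type*} [Field F] [Fintype F] {p : ℕ} [Fact p.Prime] [CharP F p] (hF : Fintype.card F = p ^ 2) (hp : 5 ≤ p) (hp3 : p % 3 = 2)
    (R : Subgroup (GL (Fin 3) F)) (hRU : R ≤ Cfsg.GU 3 F p) (hR : Nat.card R = 27) (hRe : Monoid.exponent R = 3) (hRna : ¬ IsMulCommutative R)
    (r : ℕ) [Fact r.Prime]
    (hΩ : r ∣ (Cfsg.Geo.subgroupNormalizer R).relIndex (Cfsg.GU 3 F p ⊓ Cfsg.Geo.specialLinear (Fin 3) F)) :
    (∀ x ∈ Cfsg.GU 3 F p ⊓ Cfsg.Geo.specialLinear (Fin 3) F, (∃ z : F, ((x ^ r : GL (Fin 3) F) : Matrix (Fin 3) (Fin 3) F) = z • (1 : Matrix (Fin 3) (Fin 3) F)) →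
      (∀ z : F, (x : Matrix (Fin 3) (Fin 3) F) ≠ z • (1 : Matrix (Fin 3) (Fin 3) F)) →
      ∃ g ∈ Cfsg.GU 3 F p ⊓ Cfsg.Geo.specialLinear (Fin 3) F, g⁻¹ * x * g ∈ Cfsg.Geo.subgroupNormalizer R) ↔ (r = 2 ∨ (r = 3 ∧ p % 9 = 8)) := by
  classical
  have hpP := (Fact.out : p.Prime)
  have hrP := (Fact.out : r.Prime)
  have hp2 : p ≠ 2 := by omega
  have hp3' : p ≠ 3 := by omega
  have h3F : (3 : F) ≠ 0 := by
    intro h0
    have h1 : ((3 : ℕ) : F) = 0 := by exact_mod_cast h0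
    rw [CharP.cast_eq_zero_iff F p] at h1
    exact hp3' ((Nat.prime_dvd_prime_iff_eq hpP Nat.prime_three).mp h1)
  have h2F : (2 : F) ≠ 0 := by
    intro h0
    have h1 : ((2 : ℕ) : F) = 0 := by exact_mod_cast h0
    rw [CharP.cast_eq_zero_iff F p] at h1
    exact hp2 ((Nat.prime_dvd_prime_iff_eq hpP Nat.prime_two).mp h1)
  have hpodd : Odd p := hpP.odd_of_ne_two hp2
  have h3dvd : 3 ∣ p + 1 := by omega
  -- cube roots of unity have norm one
  have hnorm3 : ∀ a : F, a ^ 3 = 1 → a ^ (p + 1) = 1 := by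
    intro a ha
    obtain ⟨k, hk⟩ := h3dvd
    rw [hk, pow_mul, ha, one_pow]
  have hneg1 : (-1 : F) ^ (p + 1) = 1 := by
    have : Even (p + 1) := hpodd.add_one
    exact this.neg_one_pow
  obtain ⟨ω, P, hω1, hω3, hPU, hRP⟩ :=
    Cfsg.Agent.Helper42.e3u_normal_form hF hp3 R hRU hR hRe hRna
  have hN : ∀ y : GL (Fin 3) F, y ∈ subgroupNormalizer R ↔
      P⁻¹ * y * P ∈ subgroupNormalizer (E3 ω) := by
    intro y
    rw [hRP]
    exact e3_mem_normalizer_conj (E3 ω) P y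
  -- conjugation by unitary elements preserves SU
  have hconjS : ∀ A ∈ Cfsg.GU 3 F p, ∀ y ∈ Cfsg.GU 3 F p ⊓ specialLinear (Fin 3) F,
      A⁻¹ * y * A ∈ Cfsg.GU 3 F p ⊓ specialLinear (Fin 3) F := by
    intro A hA y hy
    exact ⟨(Cfsg.GU 3 F p).mul_mem ((Cfsg.GU 3 F p).mul_mem ((Cfsg.GU 3 F p).inv_mem hA) hy.1) hA,
      e3_specialLinear_conj A y hy.2⟩
  -- transport back to R
  have hstep : ∀ x : GL (Fin 3) F,
      (∃ g ∈ Cfsg.GU 3 F p ⊓ specialLinear (Fin 3) F,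
        g⁻¹ * (P⁻¹ * x * P) * g ∈ subgroupNormalizer (E3 ω)) →
      ∃ g ∈ Cfsg.GU 3 F p ⊓ specialLinear (Fin 3) F, g⁻¹ * x * g ∈ subgroupNormalizer R := by
    rintro x ⟨g, hg, hgN⟩
    refine ⟨P * g * P⁻¹, ?_, ?_⟩
    · have h1 := hconjS P⁻¹ ((Cfsg.GU 3 F p).inv_mem hPU) g hg
      rw [inv_inv] at h1
      exact h1
    · rw [hN]
      have h2 : P⁻¹ * ((P * g * P⁻¹)⁻¹ * x * (P * g * P⁻¹)) * P = g⁻¹ * (P⁻¹ * x * P) * g := by
        group
      rw [h2]
      exact hgN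
  -- facts about x' = P⁻¹ x P
  have hx' : ∀ x ∈ Cfsg.GU 3 F p ⊓ specialLinear (Fin 3) F, ∀ z : F,
      ((x ^ r : GL (Fin 3) F) : Matrix (Fin 3) (Fin 3) F) = z • (1 : Matrix (Fin 3) (Fin 3) F) →
      ((P⁻¹ * x * P : GL (Fin 3) F) : Matrix (Fin 3) (Fin 3) F).det = 1 ∧
      ((P⁻¹ * x * P : GL (Fin 3) F) : Matrix (Fin 3) (Fin 3) F) ^ r =
        z • (1 : Matrix (Fin 3) (Fin 3) F) := by
    intro x hx z hz
    refine ⟨(Cfsg.Agent.Helper97.mem_specialLinear_iff _).mp (hconjS P hPU x hx).2, ?_⟩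
    rw [← Units.val_pow_eq_pow_val]
    rw [e3_conj_pow]
    exact e3_conj_scalar P _ z hz
  have hns' : ∀ x : GL (Fin 3) F,
      (∀ z : F, (x : Matrix (Fin 3) (Fin 3) F) ≠ z • (1 : Matrix (Fin 3) (Fin 3) F)) →
      ∀ c : F, ((P⁻¹ * x * P : GL (Fin 3) F) : Matrix (Fin 3) (Fin 3) F) ≠
        c • (1 : Matrix (Fin 3) (Fin 3) F) := by
    intro x hns c hc
    apply hns c
    have h1 := e3_conj_scalar P⁻¹ (P⁻¹ * x * P) c hc
    have h2 : P⁻¹⁻¹ * (P⁻¹ * x * P) * P⁻¹ = x := by group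
    rw [h2] at h1
    exact h1
  -- the scaled element y = s⁻¹ x'
  have hscale : ∀ (x' : GL (Fin 3) F) (ε : F) (hε : ε ≠ 0),
      x' = e3uScalar ε hε * ((e3uScalar ε hε)⁻¹ * x') ∧
      (((e3uScalar ε hε)⁻¹ * x' : GL (Fin 3) F) : Matrix (Fin 3) (Fin 3) F) =
        ε⁻¹ • (x' : Matrix (Fin 3) (Fin 3) F) := by
    intro x' ε hε
    refine ⟨by group, ?_⟩
    have h1 : ((e3uScalar ε hε)⁻¹ : GL (Fin 3) F) = e3uScalar ε⁻¹ (inv_ne_zero hε) := by
      rw [inv_eq_iff_mul_eq_one]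
      apply Units.ext
      rw [Units.val_mul, e3uScalar_val, e3uScalar_val, Matrix.smul_mul, Matrix.mul_smul,
        Matrix.one_mul, smul_smul, mul_inv_cancel₀ hε, one_smul, Units.val_one]
    rw [h1, Units.val_mul, e3uScalar_val, Matrix.smul_mul, Matrix.one_mul]
  by_cases hr2 : r = 2
  · -- involutions
    refine iff_of_true ?_ (Or.inl hr2)
    intro x hx ⟨z, hz⟩ hns
    obtain ⟨hdet, hpow⟩ := hx' x hx z hz
    rw [hr2] at hpow
    apply hstep x
    set x' : GL (Fin 3) F := P⁻¹ * x * P with hx'def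
    have hx'S := hconjS P hPU x hx
    have hx'ns := hns' x hns
    have hz3 : z ^ 3 = 1 := by
      have h1 := congrArg Matrix.det hpow
      rw [Matrix.det_pow, hdet, one_pow, Matrix.det_smul, Matrix.det_one, mul_one,
        Fintype.card_fin] at h1
      exact h1.symm
    have hz0 : z ≠ 0 := by
      rintro rfl
      norm_num at hz3
    have hζ0 : z ^ 2 ≠ 0 := pow_ne_zero _ hz0
    have hζ3 : (z ^ 2) ^ 3 = 1 := by rw [← pow_mul, mul_comm, pow_mul, hz3, one_pow]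
    obtain ⟨hsplit, hyval⟩ := hscale x' (z ^ 2) hζ0
    set s : GL (Fin 3) F := e3uScalar (z ^ 2) hζ0 with hsdef
    set y : GL (Fin 3) F := s⁻¹ * x' with hydef
    have hsU : s ∈ Cfsg.GU 3 F p :=
      e3u_scalar_mem_GU s (z ^ 2) (hnorm3 _ hζ3) (e3uScalar_val _ _)
    have hyU : y ∈ Cfsg.GU 3 F p :=
      (Cfsg.GU 3 F p).mul_mem ((Cfsg.GU 3 F p).inv_mem hsU) hx'S.1
    have hzinv : (z ^ 2)⁻¹ = z := by
      apply inv_eq_of_mul_eq_one_right
      rw [← pow_succ, hz3]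
    have hy2 : (y : Matrix (Fin 3) (Fin 3) F) ^ 2 = 1 := by
      rw [hyval, smul_pow, hpow, smul_smul, hzinv, ← pow_succ, hz3, one_smul]
    have hydet : (y : Matrix (Fin 3) (Fin 3) F).det = 1 := by
      rw [hyval, Matrix.det_smul, hdet, mul_one, Fintype.card_fin, hzinv, hz3]
    have hyns : ∀ c : F, (y : Matrix (Fin 3) (Fin 3) F) ≠ c • (1 : Matrix (Fin 3) (Fin 3) F) := by
      intro c hc
      apply hx'ns (z ^ 2 * c)
      have h1 : (x' : Matrix (Fin 3) (Fin 3) F) = z ^ 2 • (y : Matrix (Fin 3) (Fin 3) F) := by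
        rw [hyval, smul_smul, mul_inv_cancel₀ hζ0, one_smul]
      rw [h1, hc, smul_smul]
    obtain ⟨Q₁, hQ₁, hyQ₁⟩ := Cfsg.Agent.Helper83.e3u_diag2 h2F _ hy2 hydet hyns
    have h1ne : (1 : F) ≠ -1 := by
      intro h
      apply h2F
      have : (2 : F) = 1 + 1 := by norm_num
      rw [this]
      nth_rewrite 2 [h]
      ring
    obtain ⟨U₁, hU₁, hyU₁⟩ := Cfsg.Agent.Helper78.e3u_refine_double hF y hyU Q₁ hQ₁ 1 (-1)
      (one_pow _) hneg1 h1ne hyQ₁
    obtain ⟨t, htN, htU, htdet, ht2, htns⟩ := Cfsg.Agent.Helper66.e3u_swap (p := p) hF h2F ω hω1 hω3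
    obtain ⟨Q₂, hQ₂, htQ₂⟩ := Cfsg.Agent.Helper83.e3u_diag2 h2F _ ht2 htdet htns
    obtain ⟨U₂, hU₂, htU₂⟩ := Cfsg.Agent.Helper78.e3u_refine_double hF t htU Q₂ hQ₂ 1 (-1)
      (one_pow _) hneg1 h1ne htQ₂
    have hfin := e3u_conj_of_diag hF ω s y t U₁ U₂ (z ^ 2) (e3uScalar_val _ _) hU₁ hU₂ 1 (-1) (-1)
      hyU₁ htU₂ htN
    rw [← hsplit] at hfin
    exact hfin
  by_cases hr3 : r = 3
  · by_cases hp9 : p % 9 = 8
    · refine iff_of_true ?_ (Or.inr ⟨hr3, hp9⟩)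
      intro x hx ⟨z, hz⟩ hns
      obtain ⟨hdet, hpow⟩ := hx' x hx z hz
      rw [hr3] at hpow
      apply hstep x
      set x' : GL (Fin 3) F := P⁻¹ * x * P with hx'def
      have hx'S := hconjS P hPU x hx
      have hx'ns := hns' x hns
      have hz3 : z ^ 3 = 1 := by
        have h1 := congrArg Matrix.det hpow
        rw [Matrix.det_pow, hdet, one_pow, Matrix.det_smul, Matrix.det_one, mul_one,
          Fintype.card_fin] at h1
        exact h1.symm
      have h9card : 9 ∣ Fintype.card F - 1 := by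
        rw [hF]
        have h1 : p ^ 2 % 9 = 1 := by
          rw [Nat.pow_mod, hp9]
        have h2 : 1 ≤ p ^ 2 := Nat.one_le_pow _ _ hpP.pos
        omega
      obtain ⟨ε, hε⟩ := e3_exists_cube_root (F := F) h9card z hz3
      have hε0 : ε ≠ 0 := by
        rintro rfl
        rw [zero_pow (by norm_num)] at hε
        rw [← hε] at hz3
        norm_num at hz3
      have hε9 : ε ^ (p + 1) = 1 := by
        obtain ⟨k, hk⟩ : 9 ∣ p + 1 := by omega
        have h9 : ε ^ 9 = 1 := by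
          have : ε ^ 9 = (ε ^ 3) ^ 3 := by rw [← pow_mul]
          rw [this, hε, hz3]
        rw [hk, pow_mul, h9, one_pow]
      obtain ⟨hsplit, hyval⟩ := hscale x' ε hε0
      set s : GL (Fin 3) F := e3uScalar ε hε0 with hsdef
      set y : GL (Fin 3) F := s⁻¹ * x' with hydef
      have hsU : s ∈ Cfsg.GU 3 F p := e3u_scalar_mem_GU s ε hε9 (e3uScalar_val _ _)
      have hyU : y ∈ Cfsg.GU 3 F p :=
        (Cfsg.GU 3 F p).mul_mem ((Cfsg.GU 3 F p).inv_mem hsU) hx'S.1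
      have hy3 : (y : Matrix (Fin 3) (Fin 3) F) ^ 3 = 1 := by
        rw [hyval, smul_pow, hpow, smul_smul, inv_pow, hε, inv_mul_cancel₀, one_smul]
        rw [← hε]
        exact pow_ne_zero _ hε0
      have hyns : ∀ c : F, (y : Matrix (Fin 3) (Fin 3) F) ≠ c • (1 : Matrix (Fin 3) (Fin 3) F) := by
        intro c hc
        apply hx'ns (ε * c)
        have h1 : (x' : Matrix (Fin 3) (Fin 3) F) = ε • (y : Matrix (Fin 3) (Fin 3) F) := by
          rw [hyval, smul_smul, mul_inv_cancel₀ hε0, one_smul]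
        rw [h1, hc, smul_smul]
      obtain ⟨Q, a, b, c, hQ, ha, hb, hc, hpat, hyQ⟩ :=
        Cfsg.Agent.Helper84.e3u_diag3 h3F ω hω1 hω3 _ hy3
      -- the unitary refinement
      obtain ⟨U₁, hU₁, hyU₁⟩ : ∃ U : GL (Fin 3) F, U ∈ Cfsg.GU 3 F p ∧
          (y : Matrix (Fin 3) (Fin 3) F) * (U : Matrix (Fin 3) (Fin 3) F) =
            (U : Matrix (Fin 3) (Fin 3) F) * Matrix.diagonal ![a, b, c] := by
        rcases hpat with ⟨hab, hac, hbc⟩ | hbc
        · exact Cfsg.Agent.Helper78.e3u_refine_distinct hF y hyU Q hQ a b c (hnorm3 a ha)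
            (hnorm3 b hb) (hnorm3 c hc) hab hac hbc hyQ
        · subst hbc
          by_cases hab : a = b
          · exfalso
            subst hab
            apply hyns a
            have h1 : (Matrix.diagonal ![a, a, a] : Matrix (Fin 3) (Fin 3) F) =
                a • (1 : Matrix (Fin 3) (Fin 3) F) := by
              ext i j
              fin_cases i <;> fin_cases j <;> simp
            rw [h1, Matrix.mul_smul, Matrix.mul_one] at hyQ
            have hQu : IsUnit Q.det := isUnit_iff_ne_zero.mpr hQ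
            have h2 : (y : Matrix (Fin 3) (Fin 3) F) * Q * Q⁻¹ = (a • Q) * Q⁻¹ := by rw [hyQ]
            rw [Matrix.mul_assoc, Matrix.mul_nonsing_inv _ hQu, Matrix.mul_one, Matrix.smul_mul,
              Matrix.mul_nonsing_inv _ hQu] at h2
            exact h2
          · exact Cfsg.Agent.Helper78.e3u_refine_double hF y hyU Q hQ a b (hnorm3 a ha)
              (hnorm3 b hb) hab hyQ
      have hD1 : ((U₁⁻¹ * y * U₁ : GL (Fin 3) F) : Matrix (Fin 3) (Fin 3) F) =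
          Matrix.diagonal ![a, b, c] := by
        rw [Units.val_mul, Units.val_mul, mul_assoc, hyU₁, ← mul_assoc, ← Units.val_mul,
          inv_mul_cancel, Units.val_one, Matrix.one_mul]
      have htN : U₁⁻¹ * y * U₁ ∈ subgroupNormalizer (E3 ω) :=
        Cfsg.Agent.Helper84.e3u_diag_mem_normalizer ω hω1 hω3 a b c ha hb hc _ hD1
      have hfin := e3u_conj_of_diag hF ω s y (U₁⁻¹ * y * U₁) U₁ 1 ε (e3uScalar_val _ _) hU₁
        (Cfsg.GU 3 F p).one_mem a b c hyU₁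
        (by rw [Units.val_one, Matrix.mul_one, Matrix.one_mul, hD1]) htN
      rw [← hsplit] at hfin
      exact hfin
    · -- contradiction with hΩ
      exfalso
      have h25 : p % 9 = 2 ∨ p % 9 = 5 := by omega
      apply Cfsg.Agent.Helper28.e3u_card_SU3 (F := F) hF h25
      have hRle : R ≤ Cfsg.GU 3 F p ⊓ specialLinear (Fin 3) F := by
        refine le_inf hRU ?_
        rw [hRP]
        rintro _ ⟨k, hk, rfl⟩
        have h1 := e3_specialLinear_conj P⁻¹ k (Cfsg.Agent.Helper84.e3_le_specialLinear ω hω3 hk)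
        rw [inv_inv] at h1
        exact h1
      have hRN : R ≤ subgroupNormalizer R := Subgroup.le_normalizer
      have h1 : 3 ∣ R.relIndex (Cfsg.GU 3 F p ⊓ specialLinear (Fin 3) F) := by
        rw [hr3] at hΩ
        exact hΩ.trans (Subgroup.relIndex_dvd_of_le_left _ hRN)
      have h2 : Nat.card (R.subgroupOf (Cfsg.GU 3 F p ⊓ specialLinear (Fin 3) F)) = 27 := by
        rw [Nat.card_congr (Subgroup.subgroupOfEquivOfLe hRle).toEquiv, hR]
      have h3 := Subgroup.card_mul_index (R.subgroupOf (Cfsg.GU 3 F p ⊓ specialLinear (Fin 3) F))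
      rw [h2] at h3
      rw [← h3]
      obtain ⟨t, ht⟩ := h1
      have : (R.subgroupOf (Cfsg.GU 3 F p ⊓ specialLinear (Fin 3) F)).index = 3 * t := ht
      rw [this]
      exact ⟨t, by ring⟩
  · -- r ≥ 5: both sides are false
    have hr5 : 5 ≤ r := by
      have h2 := hrP.two_le
      rcases Nat.lt_or_ge r 5 with h | h
      · have h4 : r = 4 := by omega
        rw [h4] at hrP
        exact absurd hrP (by decide)
      · exact h
    have hRHS : ¬ (r = 2 ∨ (r = 3 ∧ p % 9 = 8)) := by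
      rintro (h | ⟨h, -⟩)
      · exact hr2 h
      · exact hr3 h
    refine iff_of_false ?_ hRHS
    intro h
    have hcard : r ∣ Nat.card ↥(Cfsg.GU 3 F p ⊓ specialLinear (Fin 3) F) :=
      hΩ.trans (Subgroup.relIndex_dvd_card _ _)
    obtain ⟨x, hx⟩ := exists_prime_orderOf_dvd_card'
      (G := ↥(Cfsg.GU 3 F p ⊓ specialLinear (Fin 3) F)) r hcard
    have hxr : (x : GL (Fin 3) F) ^ r = 1 := by
      have h1 : x ^ r = 1 := by rw [← hx]; exact pow_orderOf_eq_one x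
      have h2 := congrArg Subtype.val h1
      exact h2
    have hxdet : ((x : GL (Fin 3) F) : Matrix (Fin 3) (Fin 3) F).det = 1 :=
      (Cfsg.Agent.Helper97.mem_specialLinear_iff _).mp x.2.2
    have hxns : ∀ z : F, ((x : GL (Fin 3) F) : Matrix (Fin 3) (Fin 3) F) ≠
        z • (1 : Matrix (Fin 3) (Fin 3) F) := by
      intro z hz
      have hz3 : z ^ 3 = 1 := by
        have h1 := hxdet
        rw [hz, Matrix.det_smul, Matrix.det_one, mul_one, Fintype.card_fin] at h1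
        exact h1
      have hzr : z ^ r = 1 := by
        have h1 := congrArg (fun g : GL (Fin 3) F => (g : Matrix (Fin 3) (Fin 3) F)) hxr
        simp only [Units.val_pow_eq_pow_val, Units.val_one] at h1
        rw [hz, smul_pow, one_pow] at h1
        have h2 := congrFun (congrFun h1 0) 0
        simpa using h2
      have hcop : Nat.Coprime 3 r := by
        rw [Nat.coprime_primes Nat.prime_three hrP]
        exact Ne.symm hr3
      have hz1 : z = 1 := (pow_eq_one_iff_of_coprime hcop).mp ⟨hz3, hzr⟩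
      have hx1 : (x : GL (Fin 3) F) = 1 := by
        apply Units.ext
        rw [hz, hz1, one_smul, Units.val_one]
      have hx1' : x = 1 := Subtype.ext hx1
      rw [hx1', orderOf_one] at hx
      exact hrP.one_lt.ne hx
    obtain ⟨g, hg, hgN⟩ := h x x.2 ⟨1, by rw [hxr, Units.val_one, one_smul]⟩ hxns
    rw [hN] at hgN
    have hpow : ((P⁻¹ * (g⁻¹ * x * g) * P) ^ r : GL (Fin 3) F) = 1 := by
      have h1 : P⁻¹ * (g⁻¹ * (x : GL (Fin 3) F) * g) * P = (g * P)⁻¹ * x * (g * P) := by group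
      rw [h1, e3_conj_pow, hxr]
      group
    obtain ⟨c, hc⟩ := Cfsg.Agent.Helper29.e3_normalizer_scalar_aux ω hω1 hω3
      (Cfsg.Agent.Helper84.e3_card ω hω1 hω3) _ hgN r hrP hr5 1
      (by rw [hpow, Units.val_one, one_smul])
    apply hxns c
    have h1 := e3_conj_scalar (g * P)⁻¹ (P⁻¹ * (g⁻¹ * (x : GL (Fin 3) F) * g) * P) c hc
    have h2 : (g * P)⁻¹⁻¹ * (P⁻¹ * (g⁻¹ * (x : GL (Fin 3) F) * g) * P) * (g * P)⁻¹ = x := by group
    rw [h2] at h1
    exact h1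

end Cfsg.Agent.Helper69
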