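import Mathlib
import Cfsg.Prelude.Def_GeometricClasses
import Cfsg.Agent.Helper69.E4Def
import Cfsg.Agent.Helper40.SemisimpleMat
import Cfsg.Agent.Helper73.E4NORMPOW

set_option autoImplicit false

/-!
# Piece CUBE of S6000 (helper69): over `F_p` with `p ≡ 2 (mod 3)` an element of order 3 of
`GL_4` is `SL`-conjugate to `e4T1` or `e4T2`.
-/

namespace Cfsg.Agent.Helper69

open Polynomial

/-- the characteristic polynomial of a matrix with `x ^ m = 1` divides `(X ^ m - 1) ^ n` -/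
theorem e4c_charpoly_dvd {F : Type*} [Field F] {n : ℕ} (x : Matrix (Fin n) (Fin n) F) (m : ℕ)
    (hx : x ^ m = 1) : x.charpoly ∣ (X ^ m - 1 : F[X]) ^ n := by
  have hcomm : Commute (Matrix.scalar (Fin n) (X : F[X])) ((C : F →+* F[X]).mapMatrix x) :=
    Matrix.scalar_commute _ (fun r => Commute.all _ _) _
  have h1 := hcomm.mul_geom_sum₂ m
  have h2 : Matrix.scalar (Fin n) (X : F[X]) ^ m - ((C : F →+* F[X]).mapMatrix x) ^ m =
      Matrix.scalar (Fin n) (X ^ m - 1 : F[X]) := by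
    rw [← map_pow, ← map_pow, hx, map_one, map_sub, map_one]
  rw [h2] at h1
  have h3 := congrArg Matrix.det h1
  have h4 : (Matrix.scalar (Fin n) (X ^ m - 1 : F[X])).det = (X ^ m - 1 : F[X]) ^ n := by
    rw [Matrix.scalar_apply, Matrix.det_diagonal, Finset.prod_const, Finset.card_univ,
      Fintype.card_fin]
  rw [Matrix.det_mul, h4] at h3
  exact Dvd.intro _ h3

theorem e4c_three_ne_zero {F : Type*} [Field F] {p : ℕ} [Fact p.Prime] [CharP F p]
    (hp3 : p % 3 = 2) : (3 : F) ≠ 0 := by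
  intro h
  have h1 : ((3 : ℕ) : F) = 0 := by exact_mod_cast h
  rw [CharP.cast_eq_zero_iff F p] at h1
  have h2 := Nat.le_of_dvd (by norm_num) h1
  have hp : p.Prime := Fact.out
  have h3 := hp.two_le
  interval_cases p <;> omega

/-- no primitive cube roots of unity in `F_p`, `p ≡ 2 (mod 3)` -/
theorem e4c_no_root {F : Type*} [Field F] [Fintype F] {p : ℕ} [Fact p.Prime] [CharP F p]
    (hF : Fintype.card F = p) (hp3 : p % 3 = 2) (c : F) : c ^ 2 + c + 1 ≠ 0 := by
  intro h
  have h3 : (3 : F) ≠ 0 := e4c_three_ne_zero hp3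
  have hc3 : c ^ 3 = 1 := by linear_combination (c - 1) * h
  have hc1 : c ≠ 1 := by
    rintro rfl
    apply h3
    linear_combination h
  have hc0 : c ≠ 0 := by
    rintro rfl
    norm_num at hc3
  have hord : orderOf c = 3 := orderOf_eq_prime hc3 hc1
  have hpow : c ^ (p - 1) = 1 := by
    rw [← hF]
    exact FiniteField.pow_card_sub_one_eq_one c hc0
  have hdvd : 3 ∣ p - 1 := by
    rw [← hord]
    exact orderOf_dvd_of_pow_eq_one hpow
  have hp : p.Prime := Fact.out
  have := hp.two_le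
  omega

/-- classification of the characteristic polynomial of an element of order 3 -/
theorem e4c_charpoly {F : Type*} [Field F] [Fintype F] {p : ℕ} [Fact p.Prime] [CharP F p]
    (hF : Fintype.card F = p) (hp3 : p % 3 = 2)
    (x : Matrix (Fin 4) (Fin 4) F) (hx : x ^ 3 = 1) (hx1 : x ≠ 1) :
    x.charpoly = (X - 1) ^ 2 * (X ^ 2 + X + 1) ∨ x.charpoly = (X ^ 2 + X + 1 : F[X]) ^ 2 := by
  classical
  have h3 : (3 : F) ≠ 0 := e4c_three_ne_zero hp3
  have hq_deg : (X ^ 2 + X + 1 : F[X]).natDegree = 2 := by compute_degree!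
  have hq_monic : (X ^ 2 + X + 1 : F[X]).Monic := by monicity!
  have hq_irr : Irreducible (X ^ 2 + X + 1 : F[X]) := by
    apply Polynomial.irreducible_of_degree_le_three_of_not_isRoot
    · rw [hq_deg]; decide
    · intro c hc
      apply e4c_no_root hF hp3 c
      simpa [Polynomial.IsRoot] using hc
  have hl_irr : Irreducible (X - 1 : F[X]) := by
    have := Polynomial.irreducible_X_sub_C (1 : F)
    simpa using this
  have hl_monic : (X - 1 : F[X]).Monic := by
    have := Polynomial.monic_X_sub_C (1 : F)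
    simpa using this
  have hl_deg : (X - 1 : F[X]).natDegree = 1 := by
    have := Polynomial.natDegree_X_sub_C (1 : F)
    simpa using this
  have hdvd : x.charpoly ∣ (X - 1 : F[X]) ^ 4 * (X ^ 2 + X + 1) ^ 4 := by
    have h1 := e4c_charpoly_dvd x 3 hx
    have h2 : (X ^ 3 - 1 : F[X]) ^ 4 = (X - 1 : F[X]) ^ 4 * (X ^ 2 + X + 1) ^ 4 := by ring
    rw [h2] at h1
    exact h1
  obtain ⟨a1, a2, ha1, ha2, hprod⟩ := exists_dvd_and_dvd_of_dvd_mul hdvd
  obtain ⟨i, -, hi⟩ := (dvd_prime_pow hl_irr.prime 4).mp ha1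
  obtain ⟨j, -, hj⟩ := (dvd_prime_pow hq_irr.prime 4).mp ha2
  have heq : x.charpoly = (X - 1 : F[X]) ^ i * (X ^ 2 + X + 1) ^ j := by
    apply Polynomial.eq_of_monic_of_associated (Matrix.charpoly_monic x)
      ((hl_monic.pow i).mul (hq_monic.pow j))
    rw [hprod]
    exact hi.mul_mul hj
  have hdeg : x.charpoly.natDegree = 4 := by
    rw [Matrix.charpoly_natDegree_eq_dim, Fintype.card_fin]
  rw [heq, ((hl_monic.pow i).natDegree_mul (hq_monic.pow j)), hl_monic.natDegree_pow,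
    hq_monic.natDegree_pow, hl_deg, hq_deg] at hdeg
  have hj3 : j < 3 := by omega
  interval_cases j
  · -- charpoly = (X - 1)^4: impossible
    exfalso
    have hi4 : i = 4 := by omega
    subst hi4
    apply hx1
    have hCH := Matrix.aeval_self_charpoly x
    rw [heq] at hCH
    have hbez : (6 * X + 3) * ((X - 1 : F[X]) ^ 4 * (X ^ 2 + X + 1) ^ 0) +
        (-6 * X ^ 2 + 21 * X - 24) * (X ^ 3 - 1) = -27 * (X - 1 : F[X]) := by ring
    have h5 := congrArg (Polynomial.aeval x) hbez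
    rw [map_add, map_mul, map_mul _ _ (X ^ 3 - 1 : F[X]), hCH, mul_zero, zero_add] at h5
    have h6 : Polynomial.aeval x (X ^ 3 - 1 : F[X]) = 0 := by
      rw [map_sub, map_pow, Polynomial.aeval_X, map_one, hx, sub_self]
    rw [h6, mul_zero] at h5
    have h7 : Polynomial.aeval x (-27 * (X - 1 : F[X])) = (-27 : F) • (x - 1) := by
      have h8 : (-27 * (X - 1) : F[X]) = C (-27 : F) * (X - 1) := by
        rw [map_neg]; congr 2
      rw [h8, map_mul, Polynomial.aeval_C, map_sub, Polynomial.aeval_X, map_one,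
        Algebra.algebraMap_eq_smul_one, smul_mul_assoc, one_mul]
    rw [h7] at h5
    have h27 : (-27 : F) ≠ 0 := by
      have h9 : (-27 : F) = -(3 ^ 3) := by norm_num
      rw [h9]
      exact neg_ne_zero.mpr (pow_ne_zero 3 h3)
    have h10 := (smul_eq_zero.mp h5.symm).resolve_left h27
    exact sub_eq_zero.mp h10
  · left
    have hi2 : i = 2 := by omega
    rw [heq, hi2, pow_one]
  · right
    have hi0 : i = 0 := by omega
    rw [heq, hi0, pow_zero, one_mul]

theorem e4c_trace_A {F : Type*} [Field F] (x : Matrix (Fin 4) (Fin 4) F)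
    (h : x.charpoly = (X - 1) ^ 2 * (X ^ 2 + X + 1)) : x.trace = 1 := by
  rw [Matrix.trace_eq_neg_charpoly_coeff, h, Fintype.card_fin]
  have h1 : ((X - 1) ^ 2 * (X ^ 2 + X + 1) : F[X]) = X ^ 4 - X ^ 3 - X + 1 := by ring
  rw [h1]
  simp [Polynomial.coeff_X_pow, Polynomial.coeff_X, Polynomial.coeff_one]

theorem e4c_trace_B {F : Type*} [Field F] (x : Matrix (Fin 4) (Fin 4) F)
    (h : x.charpoly = (X ^ 2 + X + 1 : F[X]) ^ 2) : x.trace = -2 := by
  rw [Matrix.trace_eq_neg_charpoly_coeff, h, Fintype.card_fin]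
  have h1 : ((X ^ 2 + X + 1) ^ 2 : F[X]) = X ^ 4 + C 2 * X ^ 3 + C 3 * X ^ 2 + C 2 * X + 1 := by
    simp only [map_ofNat]
    ring
  rw [h1]
  simp [Polynomial.coeff_X_pow, Polynomial.coeff_one]

theorem e4_cube {F : Type*} [Field F] [Fintype F] {p : ℕ} [Fact p.Prime] [CharP F p]
    (hF : Fintype.card F = p) (hp3 : p % 3 = 2) (h2 : (2 : F) ≠ 0) (ι : F) (hι : ι ^ 2 = -1)
    (x : Matrix (Fin 4) (Fin 4) F) (hx : x ^ 3 = 1) (hx1 : x ≠ 1) :
    ∃ Q : Matrix (Fin 4) (Fin 4) F, Q.det = 1 ∧ (Q * x = e4T1 ι * Q ∨ Q * x = e4T2 ι * Q) := by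
  classical
  have h3 : (3 : F) ≠ 0 := e4c_three_ne_zero hp3
  have hp : p.Prime := Fact.out
  have hcop : Nat.Coprime 3 p := by
    rw [Nat.coprime_primes Nat.prime_three hp]
    intro h
    rw [← h] at hp3
    norm_num at hp3
  have hT1 := Cfsg.Agent.Helper73.e4_T1_pow h2 ι hι
  have hT2 := Cfsg.Agent.Helper73.e4_T2_pow h2 ι hι
  have hT1tr := Cfsg.Agent.Helper73.e4_T1_trace h2 ι
  have hT2tr := Cfsg.Agent.Helper73.e4_T2_trace h2 ι
  have htr1 : (1 : Matrix (Fin 4) (Fin 4) F).trace = 4 := by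
    rw [Matrix.trace_one, Fintype.card_fin]; norm_num
  have hT1ne : e4T1 ι ≠ 1 := by
    intro h
    rw [h, htr1] at hT1tr
    apply h3
    have h6 : (2 : F) * 3 = 0 := by linear_combination hT1tr
    exact (mul_eq_zero.mp h6).resolve_left h2
  have hT2ne : e4T2 ι ≠ 1 := by
    intro h
    rw [h, htr1] at hT2tr
    apply h3
    linear_combination hT2tr
  have hT1cp : (e4T1 ι).charpoly = (X ^ 2 + X + 1 : F[X]) ^ 2 := by
    rcases e4c_charpoly hF hp3 _ hT1 hT1ne with h | h
    · exfalso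
      have h5 := e4c_trace_A _ h
      rw [hT1tr] at h5
      apply h3
      linear_combination -h5
    · exact h
  have hT2cp : (e4T2 ι).charpoly = (X - 1) ^ 2 * (X ^ 2 + X + 1) := by
    rcases e4c_charpoly hF hp3 _ hT2 hT2ne with h | h
    · exact h
    · exfalso
      have h5 := e4c_trace_B _ h
      rw [hT2tr] at h5
      apply h3
      linear_combination h5
  rcases e4c_charpoly hF hp3 x hx hx1 with h | h
  · obtain ⟨Q, hQ, hQx⟩ := Cfsg.Agent.Helper40.exists_conj_matrix p hcop hcop x (e4T2 ι) hx hT2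
      (h.trans hT2cp.symm)
    exact ⟨Q, hQ, Or.inr hQx⟩
  · obtain ⟨Q, hQ, hQx⟩ := Cfsg.Agent.Helper40.exists_conj_matrix p hcop hcop x (e4T1 ι) hx hT1
      (h.trans hT1cp.symm)
    exact ⟨Q, hQ, Or.inl hQx⟩

end Cfsg.Agent.Helper69
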