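import Mathlib

set_option autoImplicit false

/-!
# Piece NONSQ of S6000 (helper69): a 4 × 4 matrix whose square is a nonsquare scalar `z` has
determinant `z ^ 2`.
-/

namespace Cfsg.Agent.Helper69

open Polynomial in
theorem e4_det_of_sq_nonsquare {F : Type*} [Field F] (x : Matrix (Fin 4) (Fin 4) F) (z : F)
    (hx : x ^ 2 = z • (1 : Matrix (Fin 4) (Fin 4) F)) (hz : ∀ c : F, c ^ 2 ≠ z) :
    x.det = z ^ 2 := by
  classical
  have hq_deg : (X ^ 2 - C z : F[X]).natDegree = 2 := Polynomial.natDegree_X_pow_sub_C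
  have hq_irr : Irreducible (X ^ 2 - C z : F[X]) := by
    apply Polynomial.irreducible_of_degree_le_three_of_not_isRoot
    · rw [hq_deg]; decide
    · intro c hc
      apply hz c
      have : c ^ 2 - z = 0 := by simpa [Polynomial.IsRoot] using hc
      exact sub_eq_zero.mp this
  have hq_monic : (X ^ 2 - C z : F[X]).Monic := Polynomial.monic_X_pow_sub_C z (by norm_num)
  have hcomm : Matrix.scalar (Fin 4) (X : F[X]) * (C : F →+* F[X]).mapMatrix x =
      (C : F →+* F[X]).mapMatrix x * Matrix.scalar (Fin 4) (X : F[X]) := by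
    exact (Matrix.scalar_commute (X : F[X]) (fun r => Commute.all _ _) _).eq
  have h2 : (C : F →+* F[X]).mapMatrix x * (C : F →+* F[X]).mapMatrix x =
      Matrix.scalar (Fin 4) (C z : F[X]) := by
    rw [← map_mul, ← pow_two, hx]
    ext i j
    by_cases hij : i = j
    · subst hij; simp [Matrix.scalar_apply]
    · simp [Matrix.scalar_apply, hij]
  have hprod : Matrix.charmatrix x * Matrix.charmatrix (-x) =
      Matrix.scalar (Fin 4) (X ^ 2 - C z : F[X]) := by
    unfold Matrix.charmatrix
    rw [map_neg, sub_neg_eq_add]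
    have e1 : (Matrix.scalar (Fin 4) (X : F[X]) - (C : F →+* F[X]).mapMatrix x) *
        (Matrix.scalar (Fin 4) (X : F[X]) + (C : F →+* F[X]).mapMatrix x) =
        Matrix.scalar (Fin 4) (X : F[X]) * Matrix.scalar (Fin 4) (X : F[X]) +
          (Matrix.scalar (Fin 4) (X : F[X]) * (C : F →+* F[X]).mapMatrix x -
            (C : F →+* F[X]).mapMatrix x * Matrix.scalar (Fin 4) (X : F[X])) -
          (C : F →+* F[X]).mapMatrix x * (C : F →+* F[X]).mapMatrix x := by
      noncomm_ring
    rw [e1, hcomm, sub_self, add_zero, h2, ← map_mul, ← map_sub, ← pow_two]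
  have hdet : x.charpoly * (-x).charpoly = (X ^ 2 - C z : F[X]) ^ 4 := by
    rw [Matrix.charpoly, Matrix.charpoly, ← Matrix.det_mul, hprod, Matrix.scalar_apply,
      Matrix.det_diagonal, Finset.prod_const, Finset.card_univ, Fintype.card_fin]
  have hdvd : x.charpoly ∣ (X ^ 2 - C z : F[X]) ^ 4 := Dvd.intro _ hdet
  obtain ⟨i, -, hi⟩ := (dvd_prime_pow hq_irr.prime 4).mp hdvd
  have heq : x.charpoly = (X ^ 2 - C z : F[X]) ^ i :=
    Polynomial.eq_of_monic_of_associated (Matrix.charpoly_monic x) (hq_monic.pow i) hi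
  have hdeg : x.charpoly.natDegree = 4 := by
    rw [Matrix.charpoly_natDegree_eq_dim, Fintype.card_fin]
  have hi2 : i = 2 := by
    rw [heq, hq_monic.natDegree_pow, hq_deg] at hdeg
    omega
  rw [Matrix.det_eq_sign_charpoly_coeff, heq, hi2, Fintype.card_fin,
    Polynomial.coeff_zero_eq_eval_zero]
  simp
  ring

end Cfsg.Agent.Helper69
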