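import Mathlib
import Cfsg.Agent.Helper69.E4NONSQ
import Cfsg.Agent.Helper69.E4DIAGINV

set_option autoImplicit false

/-!
# Piece INV of S6000 (helper69): a determinant-one 4 × 4 matrix with scalar square over a field
containing a square root of `-1` is `SL`-conjugate to a scalar multiple of a `± 1` diagonal matrix.
-/

namespace Cfsg.Agent.Helper69

open scoped Matrix

theorem e4_involution {F : Type*} [Field F] (h2 : (2 : F) ≠ 0) (ι : F) (hι : ι ^ 2 = -1)
    (x : Matrix (Fin 4) (Fin 4) F) (hdet : x.det = 1) (z : F)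
    (hx : x ^ 2 = z • (1 : Matrix (Fin 4) (Fin 4) F)) :
    ∃ (Q : Matrix (Fin 4) (Fin 4) F) (c : F) (d : Fin 4 → F), Q.det = 1 ∧ (∀ i, d i ^ 2 = 1) ∧
      Q * x = (c • Matrix.diagonal d) * Q := by
  classical
  -- z is a square
  have hsq : ∃ c : F, c ^ 2 = z := by
    by_contra hns
    push Not at hns
    have h1 := e4_det_of_sq_nonsquare x z hx hns
    rw [hdet] at h1
    have h3 : (z - 1) * (z + 1) = 0 := by linear_combination -h1
    rcases mul_eq_zero.mp h3 with h4 | h4
    · apply hns 1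
      rw [one_pow]
      exact (sub_eq_zero.mp h4).symm
    · apply hns ι
      rw [hι]
      linear_combination -h4
  obtain ⟨c, hc⟩ := hsq
  have hz4 : z ^ 4 = 1 := by
    have h1 := congrArg Matrix.det hx
    rw [Matrix.det_pow, hdet, one_pow, Matrix.det_smul, Matrix.det_one, mul_one,
      Fintype.card_fin] at h1
    exact h1.symm
  have hz0 : z ≠ 0 := by
    rintro rfl
    norm_num at hz4
  have hc0 : c ≠ 0 := by
    rintro rfl
    apply hz0
    rw [← hc]
    norm_num
  have hy : (c⁻¹ • x) ^ 2 = 1 := by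
    rw [smul_pow, hx, smul_smul, ← hc, inv_pow, inv_mul_cancel₀ (pow_ne_zero 2 hc0), one_smul]
  obtain ⟨Q', d, hQ', hd, hQy⟩ := e4_diag_involution h2 (c⁻¹ • x) hy
  have hQx : Q' * x = (c • Matrix.diagonal d) * Q' := by
    rw [Matrix.smul_mul, ← hQy, Matrix.mul_smul, smul_smul, mul_inv_cancel₀ hc0, one_smul]
  set e : Fin 4 → F := ![(Q'.det)⁻¹, 1, 1, 1] with he
  refine ⟨Matrix.diagonal e * Q', c, d, ?_, hd, ?_⟩
  · rw [Matrix.det_mul, Matrix.det_diagonal, Fin.prod_univ_four]
    simp [he, inv_mul_cancel₀ hQ']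
  · have hcomm : Matrix.diagonal e * (c • Matrix.diagonal d) =
        (c • Matrix.diagonal d) * Matrix.diagonal e := by
      rw [Matrix.mul_smul, Matrix.smul_mul, Matrix.diagonal_mul_diagonal,
        Matrix.diagonal_mul_diagonal]
      congr 2
      funext i
      exact mul_comm _ _
    rw [Matrix.mul_assoc, hQx, ← Matrix.mul_assoc, hcomm, Matrix.mul_assoc]

end Cfsg.Agent.Helper69
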