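import Mathlib
import Cfsg.Prelude.Def_GeometricClasses
import Cfsg.Agent.Helper69.E4Def
import Cfsg.Agent.Helper97.Basic
import Cfsg.Agent.Helper69.E4NF4
import Cfsg.Agent.Helper69.E4INV
import Cfsg.Agent.Helper69.E4CUBE
import Cfsg.Agent.Helper66.E4DIAGN
import Cfsg.Agent.Helper66.E4MULT3
import Cfsg.Agent.Helper73.E4BADX
import Cfsg.Agent.Helper73.E4BAD5
import Cfsg.Agent.Helper73.E4ORD5
import Cfsg.Agent.Helper76.E4GOLD
import Cfsg.Agent.Helper76.E4NORM
import Cfsg.Agent.Helper80.E4F7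
import Cfsg.Agent.Helper81.E4TRACE5
import Cfsg.Agent.Helper84.E4FIFTH

set_option autoImplicit false

/-!
# S6000 (helper69): assembly. `PSL_4(p)`, `p ≡ 1 (mod 4)`, and the normaliser of `4 ∘ 2^{1+4}`.
Pieces by helper66, helper70, helper73, helper76, helper80, helper81, helper84 and helper69.
-/

/-!
# Core of S6000 (helper69): elements of prime order of `PSL_4(p)` and the normalizer of
`4 ∘ 2^{1+4}`.
-/

namespace Cfsg.Agent.Helper69

open Cfsg.Geo
open scoped Matrix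

/-- scalar matrices are stable under conjugation -/
theorem e4_conj_scalar {F : Type*} [Field F] (P y : GL (Fin 4) F) (c : F)
    (h : (y : Matrix (Fin 4) (Fin 4) F) = c • (1 : Matrix (Fin 4) (Fin 4) F)) :
    ((P⁻¹ * y * P : GL (Fin 4) F) : Matrix (Fin 4) (Fin 4) F) = c • (1 : Matrix (Fin 4) (Fin 4) F) := by
  rw [Units.val_mul, Units.val_mul, h, Matrix.mul_smul, Matrix.smul_mul, Matrix.mul_one,
    ← Units.val_mul, inv_mul_cancel, Units.val_one]

theorem e4_conj_pow {G : Type*} [Group G] (A B : G) (n : ℕ) :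
    (A⁻¹ * B * A) ^ n = A⁻¹ * B ^ n * A := by
  induction n with
  | zero => simp
  | succ n ih => rw [pow_succ, ih, pow_succ]; group

/-- the normalizer of a conjugate -/
theorem e4_mem_normalizer_conj {F : Type*} [Field F] (E : Subgroup (GL (Fin 4) F))
    (P y : GL (Fin 4) F) :
    y ∈ subgroupNormalizer (E.map (MulAut.conj P).toMonoidHom) ↔
      P⁻¹ * y * P ∈ subgroupNormalizer E := by
  unfold subgroupNormalizer
  rw [← Subgroup.map_equiv_normalizer_eq, Subgroup.mem_map]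
  constructor
  · rintro ⟨k, hk, rfl⟩
    have : P⁻¹ * (MulAut.conj P).toMonoidHom k * P = k := by
      show P⁻¹ * (P * k * P⁻¹) * P = k
      group
    rw [this]
    exact hk
  · intro h
    refine ⟨P⁻¹ * y * P, h, ?_⟩
    show P * (P⁻¹ * y * P) * P⁻¹ = y
    group

theorem e4_specialLinear_conj {F : Type*} [Field F] (P y : GL (Fin 4) F)
    (hy : y ∈ specialLinear (Fin 4) F) : P⁻¹ * y * P ∈ specialLinear (Fin 4) F := by
  unfold specialLinear at hy ⊢
  rw [MonoidHom.mem_ker] at hy ⊢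
  rw [map_mul, map_mul, hy, mul_one, map_inv, inv_mul_cancel]

/-- the matrix of a conjugate by a matrix of determinant one -/
theorem e4_conj_val {F : Type*} [Field F] (Q : Matrix (Fin 4) (Fin 4) F) (hQ : Q.det = 1)
    (x' : GL (Fin 4) F) (M : Matrix (Fin 4) (Fin 4) F)
    (h : Q * (x' : Matrix (Fin 4) (Fin 4) F) = M * Q) :
    ((Cfsg.Agent.Helper97.glOfDetOne Q hQ * x' * (Cfsg.Agent.Helper97.glOfDetOne Q hQ)⁻¹ :
      GL (Fin 4) F) : Matrix (Fin 4) (Fin 4) F) = M := by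
  rw [Units.val_mul, Units.val_mul, Cfsg.Agent.Helper97.glOfDetOne_val, h, mul_assoc]
  have h1 : Q * (((Cfsg.Agent.Helper97.glOfDetOne Q hQ)⁻¹ : GL (Fin 4) F) :
      Matrix (Fin 4) (Fin 4) F) = 1 := by
    have h2 := Units.mul_inv (Cfsg.Agent.Helper97.glOfDetOne Q hQ)
    rw [Cfsg.Agent.Helper97.glOfDetOne_val] at h2
    exact h2
  rw [h1, mul_one]

/-- the trace of a conjugate -/
theorem e4_conj_trace {F : Type*} [Field F] (A X : GL (Fin 4) F) :
    ((A⁻¹ * X * A : GL (Fin 4) F) : Matrix (Fin 4) (Fin 4) F).trace =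
      (X : Matrix (Fin 4) (Fin 4) F).trace := by
  rw [Units.val_mul, Units.val_mul, Matrix.trace_mul_comm, ← mul_assoc, ← Units.val_mul,
    mul_inv_cancel, Units.val_one, one_mul]

/-- a conjugate of an element with a hyperplane of eigenvectors does not normalise `E4` -/
theorem e4_bad_of_hyperplane {F : Type*} [Field F] (h2 : (2 : F) ≠ 0) (h3 : (3 : F) ≠ 0) (ι : F)
    (hι : ι ^ 2 = -1) (x : Matrix (Fin 4) (Fin 4) F) (hdet : x.det = 1) (r : ℕ) (hr : Odd r)
    (hxr : x ^ r = 1) (hns : ∀ c : F, x ≠ c • (1 : Matrix (Fin 4) (Fin 4) F))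
    (a : Fin 4 → F) (ha : a ≠ 0) (μ : F) (hμ : ∀ v : Fin 4 → F, a ⬝ᵥ v = 0 → x *ᵥ v = μ • v)
    (A : GL (Fin 4) F)
    (hA : A⁻¹ * Cfsg.Agent.Helper97.glOfDetOne x hdet * A ∈ subgroupNormalizer (E4 ι)) : False := by
  set X : GL (Fin 4) F := Cfsg.Agent.Helper97.glOfDetOne x hdet with hX
  have hXval : (X : Matrix (Fin 4) (Fin 4) F) = x := Cfsg.Agent.Helper97.glOfDetOne_val x hdet
  have hXr : X ^ r = 1 := by
    apply Units.ext
    rw [Units.val_pow_eq_pow_val, hXval, hxr, Units.val_one]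
  have hyr : ((A⁻¹ * X * A : GL (Fin 4) F) : Matrix (Fin 4) (Fin 4) F) ^ r =
      (1 : F) • (1 : Matrix (Fin 4) (Fin 4) F) := by
    rw [← Units.val_pow_eq_pow_val, e4_conj_pow, hXr, one_smul]
    simp
  have hAinv : ((A⁻¹ : GL (Fin 4) F) : Matrix (Fin 4) (Fin 4) F) *
      (A : Matrix (Fin 4) (Fin 4) F) = 1 := by
    rw [← Units.val_mul, inv_mul_cancel, Units.val_one]
  have hAinv' : (A : Matrix (Fin 4) (Fin 4) F) *
      ((A⁻¹ : GL (Fin 4) F) : Matrix (Fin 4) (Fin 4) F) = 1 := by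
    rw [← Units.val_mul, mul_inv_cancel, Units.val_one]
  have ha' : a ᵥ* (A : Matrix (Fin 4) (Fin 4) F) ≠ 0 := by
    intro h0
    apply ha
    have h1 : (a ᵥ* (A : Matrix (Fin 4) (Fin 4) F)) ᵥ*
        ((A⁻¹ : GL (Fin 4) F) : Matrix (Fin 4) (Fin 4) F) = a := by
      rw [Matrix.vecMul_vecMul, hAinv', Matrix.vecMul_one]
    rw [← h1, h0, Matrix.zero_vecMul]
  have hμ' : ∀ v : Fin 4 → F, (a ᵥ* (A : Matrix (Fin 4) (Fin 4) F)) ⬝ᵥ v = 0 →
      ((A⁻¹ * X * A : GL (Fin 4) F) : Matrix (Fin 4) (Fin 4) F) *ᵥ v = μ • v := by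
    intro v hv
    rw [← Matrix.dotProduct_mulVec] at hv
    have h1 := hμ _ hv
    rw [Units.val_mul, Units.val_mul, hXval, ← Matrix.mulVec_mulVec, ← Matrix.mulVec_mulVec, h1,
      Matrix.mulVec_smul, Matrix.mulVec_mulVec, hAinv, Matrix.one_mulVec]
  obtain ⟨c, hc⟩ := Cfsg.Agent.Helper66.e4_mult3 h2 h3 ι hι (A⁻¹ * X * A) hA r hr 1 hyr
    (a ᵥ* (A : Matrix (Fin 4) (Fin 4) F)) ha' μ hμ'
  apply hns c
  have h1 := e4_conj_scalar A⁻¹ (A⁻¹ * X * A) c hc
  have h2' : A⁻¹⁻¹ * (A⁻¹ * X * A) * A⁻¹ = X := by group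
  rw [h2', hXval] at h1
  exact h1

theorem e4_main {F : Type*} [Field F] [Fintype F] {p : ℕ} [Fact p.Prime] [CharP F p] (hF : Fintype.card F = p) (hp4 : p % 4 = 1)
    (R : Subgroup (GL (Fin 4) F)) (hR : Cfsg.Geo.IsLinearSymplecticTypeData 2 R) (hR6 : Nat.card R = 2 ^ 6)
    (r : ℕ) [Fact r.Prime]
    (hΩ : r ∣ (Cfsg.Geo.subgroupNormalizer R).relIndex (Cfsg.Geo.specialLinear (Fin 4) F)) :
    (∀ x ∈ Cfsg.Geo.specialLinear (Fin 4) F, (∃ z : F, ((x ^ r : GL (Fin 4) F) : Matrix (Fin 4) (Fin 4) F) = z • (1 : Matrix (Fin 4) (Fin 4) F)) →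
      (∀ z : F, (x : Matrix (Fin 4) (Fin 4) F) ≠ z • (1 : Matrix (Fin 4) (Fin 4) F)) →
      ∃ g ∈ Cfsg.Geo.specialLinear (Fin 4) F, g⁻¹ * x * g ∈ Cfsg.Geo.subgroupNormalizer R) ↔ (r = 2 ∨ (r = 3 ∧ p % 3 = 2) ∨ (r = 5 ∧ orderOf (p : ZMod 5) = 4)) := by
  classical
  have hpP := (Fact.out : p.Prime)
  have hrP := (Fact.out : r.Prime)
  have hp5 : 5 ≤ p := by
    have h2 := hpP.two_le
    by_contra hlt
    have : p = 1 := by omega
    omega
  have hnat : ∀ k : ℕ, 0 < k → k < p → ((k : ℕ) : F) ≠ 0 := by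
    intro k hk0 hkp h0
    rw [CharP.cast_eq_zero_iff F p] at h0
    exact absurd (Nat.le_of_dvd hk0 h0) (by omega)
  have h2F : (2 : F) ≠ 0 := by
    have := hnat 2 (by norm_num) (by omega)
    exact_mod_cast this
  have h3F : (3 : F) ≠ 0 := by
    have := hnat 3 (by norm_num) (by omega)
    exact_mod_cast this
  have hcardU : Nat.card Fˣ = p - 1 := by
    rw [Nat.card_eq_fintype_card, Fintype.card_units, hF]
  obtain ⟨ι, P, hι, hRP⟩ := Cfsg.Agent.Helper69.e4_normal_form h2F R hR hR6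
  have hN : ∀ y : GL (Fin 4) F, y ∈ subgroupNormalizer R ↔
      P⁻¹ * y * P ∈ subgroupNormalizer (E4 ι) := by
    intro y
    rw [hRP]
    exact e4_mem_normalizer_conj (E4 ι) P y
  -- from a conjugation by a matrix of determinant one to the statement
  have hgood : ∀ x ∈ specialLinear (Fin 4) F, ∀ (Q : Matrix (Fin 4) (Fin 4) F) (hQ : Q.det = 1)
      (M : Matrix (Fin 4) (Fin 4) F),
      Q * ((P⁻¹ * x * P : GL (Fin 4) F) : Matrix (Fin 4) (Fin 4) F) = M * Q →
      (∀ t : GL (Fin 4) F, (t : Matrix (Fin 4) (Fin 4) F) = M → t ∈ subgroupNormalizer (E4 ι)) →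
      ∃ g ∈ specialLinear (Fin 4) F, g⁻¹ * x * g ∈ subgroupNormalizer R := by
    intro x hx Q hQ M hQM hM
    have hQmem := Cfsg.Agent.Helper97.glOfDetOne_mem Q hQ
    refine ⟨P * (Cfsg.Agent.Helper97.glOfDetOne Q hQ)⁻¹ * P⁻¹, ?_, ?_⟩
    · have h1 := e4_specialLinear_conj P⁻¹ _ ((specialLinear (Fin 4) F).inv_mem hQmem)
      rw [inv_inv] at h1
      exact h1
    · rw [hN]
      have h2 : P⁻¹ * ((P * (Cfsg.Agent.Helper97.glOfDetOne Q hQ)⁻¹ * P⁻¹)⁻¹ * x *
          (P * (Cfsg.Agent.Helper97.glOfDetOne Q hQ)⁻¹ * P⁻¹)) * P =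
          Cfsg.Agent.Helper97.glOfDetOne Q hQ * (P⁻¹ * x * P) *
            (Cfsg.Agent.Helper97.glOfDetOne Q hQ)⁻¹ := by group
      rw [h2]
      exact hM _ (e4_conj_val Q hQ (P⁻¹ * x * P) M hQM)
  -- facts about x' = P⁻¹ x P
  have hx' : ∀ x ∈ specialLinear (Fin 4) F, ∀ z : F,
      ((x ^ r : GL (Fin 4) F) : Matrix (Fin 4) (Fin 4) F) = z • (1 : Matrix (Fin 4) (Fin 4) F) →
      ((P⁻¹ * x * P : GL (Fin 4) F) : Matrix (Fin 4) (Fin 4) F).det = 1 ∧
      ((P⁻¹ * x * P : GL (Fin 4) F) : Matrix (Fin 4) (Fin 4) F) ^ r =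
        z • (1 : Matrix (Fin 4) (Fin 4) F) := by
    intro x hx z hz
    refine ⟨(Cfsg.Agent.Helper97.mem_specialLinear_iff _).mp (e4_specialLinear_conj P x hx), ?_⟩
    rw [← Units.val_pow_eq_pow_val]
    rw [e4_conj_pow]
    exact e4_conj_scalar P _ z hz
  have hns' : ∀ x : GL (Fin 4) F,
      (∀ z : F, (x : Matrix (Fin 4) (Fin 4) F) ≠ z • (1 : Matrix (Fin 4) (Fin 4) F)) →
      ∀ c : F, ((P⁻¹ * x * P : GL (Fin 4) F) : Matrix (Fin 4) (Fin 4) F) ≠
        c • (1 : Matrix (Fin 4) (Fin 4) F) := by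
    intro x hns c hc
    apply hns c
    have h1 := e4_conj_scalar P⁻¹ (P⁻¹ * x * P) c hc
    have h2 : P⁻¹⁻¹ * (P⁻¹ * x * P) * P⁻¹ = x := by group
    rw [h2] at h1
    exact h1
  -- the scalar z of an element of determinant one with x ^ r = z has z ^ 4 = 1
  have hz4 : ∀ (M : Matrix (Fin 4) (Fin 4) F) (k : ℕ) (z : F), M.det = 1 →
      M ^ k = z • (1 : Matrix (Fin 4) (Fin 4) F) → z ^ 4 = 1 := by
    intro M k z hdet hpow
    have h1 := congrArg Matrix.det hpow
    rw [Matrix.det_pow, hdet, one_pow, Matrix.det_smul, Matrix.det_one, mul_one,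
      Fintype.card_fin] at h1
    exact h1.symm
  -- bad elements with a hyperplane of eigenvectors
  have hbad : ∀ (x : Matrix (Fin 4) (Fin 4) F) (a : Fin 4 → F) (μ : F), x.det = 1 → x ^ r = 1 →
      (∀ c : F, x ≠ c • (1 : Matrix (Fin 4) (Fin 4) F)) → a ≠ 0 →
      (∀ v : Fin 4 → F, a ⬝ᵥ v = 0 → x *ᵥ v = μ • v) → Odd r →
      ¬ (∀ x ∈ specialLinear (Fin 4) F, (∃ z : F, ((x ^ r : GL (Fin 4) F) : Matrix (Fin 4) (Fin 4) F) = z • (1 : Matrix (Fin 4) (Fin 4) F)) →
      (∀ z : F, (x : Matrix (Fin 4) (Fin 4) F) ≠ z • (1 : Matrix (Fin 4) (Fin 4) F)) →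
      ∃ g ∈ specialLinear (Fin 4) F, g⁻¹ * x * g ∈ subgroupNormalizer R) := by
    intro x a μ hdet hxr hns ha hμ hodd h
    have hXval : ((Cfsg.Agent.Helper97.glOfDetOne x hdet : GL (Fin 4) F) :
        Matrix (Fin 4) (Fin 4) F) = x := Cfsg.Agent.Helper97.glOfDetOne_val x hdet
    obtain ⟨g, -, hgN⟩ := h (Cfsg.Agent.Helper97.glOfDetOne x hdet)
      (Cfsg.Agent.Helper97.glOfDetOne_mem x hdet)
      ⟨1, by rw [Units.val_pow_eq_pow_val, hXval, hxr, one_smul]⟩
      (by rw [hXval]; exact hns)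
    rw [hN] at hgN
    have h1 : P⁻¹ * (g⁻¹ * Cfsg.Agent.Helper97.glOfDetOne x hdet * g) * P =
        (g * P)⁻¹ * Cfsg.Agent.Helper97.glOfDetOne x hdet * (g * P) := by group
    rw [h1] at hgN
    exact e4_bad_of_hyperplane h2F h3F ι hι x hdet r hodd hxr hns a ha μ hμ (g * P) hgN
  by_cases hr2 : r = 2
  · -- involutions
    refine iff_of_true ?_ (Or.inl hr2)
    intro x hx ⟨z, hz⟩ hns
    obtain ⟨hdet, hpow⟩ := hx' x hx z hz
    rw [hr2] at hpow
    obtain ⟨Q, c, d, hQ, hd, hQx⟩ := Cfsg.Agent.Helper69.e4_involution h2F ι hι _ hdet z hpow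
    exact hgood x hx Q hQ _ hQx
      (fun t ht => Cfsg.Agent.Helper66.e4_diag_mem_normalizer h2F ι hι d hd c t ht)
  by_cases hr3 : r = 3
  · have hodd : Odd r := by rw [hr3]; decide
    have hp3ne : p % 3 ≠ 0 := by
      intro h0
      have h3 : 3 ∣ p := Nat.dvd_of_mod_eq_zero h0
      have := (Nat.prime_dvd_prime_iff_eq Nat.prime_three hpP).mp h3
      omega
    by_cases hp3 : p % 3 = 2
    · refine iff_of_true ?_ (Or.inr (Or.inl ⟨hr3, hp3⟩))
      intro x hx ⟨z, hz⟩ hns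
      obtain ⟨hdet, hpow⟩ := hx' x hx z hz
      rw [hr3] at hpow
      have hz4' := hz4 _ 3 z hdet hpow
      have hz0 : z ≠ 0 := by
        rintro rfl
        norm_num at hz4'
      set x' : GL (Fin 4) F := P⁻¹ * x * P with hx'def
      have hx3 : (z • (x' : Matrix (Fin 4) (Fin 4) F)) ^ 3 = 1 := by
        rw [smul_pow, hpow, smul_smul, ← pow_succ, hz4', one_smul]
      have hx1 : z • (x' : Matrix (Fin 4) (Fin 4) F) ≠ 1 := by
        intro h1
        apply hns' x hns z⁻¹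
        rw [← h1, smul_smul, inv_mul_cancel₀ hz0, one_smul]
      obtain ⟨Q, hQ, hQx⟩ := Cfsg.Agent.Helper69.e4_cube hF hp3 h2F ι hι _ hx3 hx1
      have hconv : ∀ T : Matrix (Fin 4) (Fin 4) F,
          Q * (z • (x' : Matrix (Fin 4) (Fin 4) F)) = T * Q →
          Q * (x' : Matrix (Fin 4) (Fin 4) F) = (z⁻¹ • T) * Q := by
        intro T hT
        rw [Matrix.mul_smul] at hT
        rw [Matrix.smul_mul, ← hT, smul_smul, inv_mul_cancel₀ hz0, one_smul]
      rcases hQx with hQx | hQx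
      · exact hgood x hx Q hQ _ (hconv _ hQx)
          (fun t ht => Cfsg.Agent.Helper76.e4_T1_mem_normalizer h2F ι hι z⁻¹ t ht)
      · exact hgood x hx Q hQ _ (hconv _ hQx)
          (fun t ht => Cfsg.Agent.Helper76.e4_T2_mem_normalizer h2F ι hι z⁻¹ t ht)
    · -- p ≡ 1 mod 3: a bad element
      have hRHS : ¬ (r = 2 ∨ (r = 3 ∧ p % 3 = 2) ∨ (r = 5 ∧ orderOf (p : ZMod 5) = 4)) := by
        rintro (h | ⟨-, h⟩ | ⟨h, -⟩)
        · exact hr2 h
        · exact hp3 h
        · omega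
      refine iff_of_false ?_ hRHS
      obtain ⟨u, hu⟩ := exists_prime_orderOf_dvd_card' (G := Fˣ) 3 (by rw [hcardU]; omega)
      have hu1 : (u : F) ≠ 1 := by
        intro h1
        have h2 : u = 1 := Units.ext h1
        rw [h2, orderOf_one] at hu
        omega
      have hu3 : (u : F) ^ r = 1 := by
        rw [hr3, ← Units.val_pow_eq_pow_val, ← hu, pow_orderOf_eq_one, Units.val_one]
      obtain ⟨x, a, μ, hdet, hxr, hns, ha, hμ⟩ :=
        Cfsg.Agent.Helper73.e4_bad_diag (u : F) hu1 r (Or.inl hr3) hu3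
      exact hbad x a μ hdet hxr hns ha hμ hodd
  by_cases hr5 : r = 5
  · have hodd : Odd r := by rw [hr5]; decide
    have hord := Cfsg.Agent.Helper73.e4_orderOf_five p
    by_cases hp5' : p % 5 = 2 ∨ p % 5 = 3
    · have hord4 : orderOf (p : ZMod 5) = 4 := hord.mpr hp5'
      refine iff_of_true ?_ (Or.inr (Or.inr ⟨hr5, hord4⟩))
      intro x hx ⟨z, hz⟩ hns
      obtain ⟨hdet, hpow⟩ := hx' x hx z hz
      rw [hr5] at hpow
      have hz4' := hz4 _ 5 z hdet hpow
      have hz0 : z ≠ 0 := by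
        rintro rfl
        norm_num at hz4'
      set x' : GL (Fin 4) F := P⁻¹ * x * P with hx'def
      have hx5 : (z⁻¹ • (x' : Matrix (Fin 4) (Fin 4) F)) ^ 5 = 1 := by
        rw [smul_pow, hpow, smul_smul]
        have : z⁻¹ ^ 5 * z = 1 := by
          have h1 : z⁻¹ ^ 5 * z = (z ^ 4)⁻¹ := by
            field_simp
          rw [h1, hz4', inv_one]
        rw [this, one_smul]
      have hx1 : z⁻¹ • (x' : Matrix (Fin 4) (Fin 4) F) ≠ 1 := by
        intro h1
        apply hns' x hns z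
        rw [← h1, smul_smul, mul_inv_cancel₀ hz0, one_smul]
      obtain ⟨Q, hQ, hQx⟩ := Cfsg.Agent.Helper84.e4_fifth hF hord4 h2F ι hι _ hx5 hx1
      have hconv : Q * (x' : Matrix (Fin 4) (Fin 4) F) = (z • e4Y5 ι) * Q := by
        rw [Matrix.mul_smul] at hQx
        rw [Matrix.smul_mul, ← hQx, smul_smul, mul_inv_cancel₀ hz0, one_smul]
      exact hgood x hx Q hQ _ hconv
        (fun t ht => Cfsg.Agent.Helper76.e4_Y5_mem_normalizer h2F ι hι z t ht)
    · have hRHS : ¬ (r = 2 ∨ (r = 3 ∧ p % 3 = 2) ∨ (r = 5 ∧ orderOf (p : ZMod 5) = 4)) := by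
        rintro (h | ⟨h, -⟩ | ⟨-, h⟩)
        · exact hr2 h
        · exact hr3 h
        · exact hp5' (hord.mp h)
      refine iff_of_false ?_ hRHS
      have hcases : p % 5 = 0 ∨ p % 5 = 1 ∨ p % 5 = 4 := by omega
      rcases hcases with h0 | h1 | h4
      · -- p = 5: a transvection
        have hp5eq : p = 5 := by
          have h3 : 5 ∣ p := Nat.dvd_of_mod_eq_zero h0
          exact ((Nat.prime_dvd_prime_iff_eq (by norm_num) hpP).mp h3).symm
        have h5F : (5 : F) = 0 := by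
          have h1 : ((5 : ℕ) : F) = 0 := by
            rw [CharP.cast_eq_zero_iff F p, hp5eq]
          exact_mod_cast h1
        obtain ⟨x, a, μ, hdet, hxr, hns, ha, hμ⟩ :=
          Cfsg.Agent.Helper73.e4_bad_transvection (F := F) h5F
        rw [← hr5] at hxr
        exact hbad x a μ hdet hxr hns ha hμ hodd
      · -- p ≡ 1 mod 5: a diagonal element
        haveI : Fact (Nat.Prime 5) := ⟨by norm_num⟩
        obtain ⟨u, hu⟩ := exists_prime_orderOf_dvd_card' (G := Fˣ) 5 (by rw [hcardU]; omega)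
        have hu1 : (u : F) ≠ 1 := by
          intro h1
          have h2 : u = 1 := Units.ext h1
          rw [h2, orderOf_one] at hu
          omega
        have hu5 : (u : F) ^ r = 1 := by
          rw [hr5, ← Units.val_pow_eq_pow_val, ← hu, pow_orderOf_eq_one, Units.val_one]
        obtain ⟨x, a, μ, hdet, hxr, hns, ha, hμ⟩ :=
          Cfsg.Agent.Helper73.e4_bad_diag (u : F) hu1 r (Or.inr hr5) hu5
        exact hbad x a μ hdet hxr hns ha hμ hodd
      · -- p ≡ 4 mod 5: the trace obstruction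
        have h5F : (5 : F) ≠ 0 := by
          have := hnat 5 (by norm_num) (by omega)
          exact_mod_cast this
        obtain ⟨t, ht⟩ := Cfsg.Agent.Helper76.e4_exists_golden (F := F) hF hp4 h4
        obtain ⟨x, xi, hxxi, hx5, hdet, hns, htr⟩ :=
          Cfsg.Agent.Helper73.e4_bad_five h3F h5F t ht
        intro h
        set X : GL (Fin 4) F := Cfsg.Agent.Helper97.glOfDetOne x hdet with hXdef
        have hXval : (X : Matrix (Fin 4) (Fin 4) F) = x :=
          Cfsg.Agent.Helper97.glOfDetOne_val x hdet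
        have hX5 : X ^ 5 = 1 := by
          apply Units.ext
          rw [Units.val_pow_eq_pow_val, hXval, hx5, Units.val_one]
        have hXinv : ((X⁻¹ : GL (Fin 4) F) : Matrix (Fin 4) (Fin 4) F) = xi := by
          have h1 : (X : Matrix (Fin 4) (Fin 4) F) * xi = 1 := by rw [hXval]; exact hxxi
          have h2 : ((X⁻¹ : GL (Fin 4) F) : Matrix (Fin 4) (Fin 4) F) *
              ((X : Matrix (Fin 4) (Fin 4) F) * xi) = xi := by
            rw [← mul_assoc, ← Units.val_mul, inv_mul_cancel, Units.val_one, one_mul]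
          rw [h1, mul_one] at h2
          exact h2
        obtain ⟨g, -, hgN⟩ := h X (Cfsg.Agent.Helper97.glOfDetOne_mem x hdet)
          ⟨1, by rw [hr5, hX5, Units.val_one, one_smul]⟩ (by rw [hXval]; exact hns)
        rw [hN] at hgN
        have h1 : P⁻¹ * (g⁻¹ * X * g) * P = (g * P)⁻¹ * X * (g * P) := by group
        rw [h1] at hgN
        have hy5 : ((g * P)⁻¹ * X * (g * P)) ^ 5 = 1 := by
          rw [e4_conj_pow, hX5]
          group
        have hyns : ∀ c : F, (((g * P)⁻¹ * X * (g * P) : GL (Fin 4) F) :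
            Matrix (Fin 4) (Fin 4) F) ≠ c • (1 : Matrix (Fin 4) (Fin 4) F) := by
          intro c hc
          apply hns c
          have h2 := e4_conj_scalar (g * P)⁻¹ ((g * P)⁻¹ * X * (g * P)) c hc
          have h3 : (g * P)⁻¹⁻¹ * ((g * P)⁻¹ * X * (g * P)) * (g * P)⁻¹ = X := by group
          rw [h3, hXval] at h2
          exact h2
        have htr5 := Cfsg.Agent.Helper81.e4_trace_five h2F ι hι _ hgN hy5 hyns
        have hinv : ((g * P)⁻¹ * X * (g * P))⁻¹ = (g * P)⁻¹ * X⁻¹ * (g * P) := by group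
        rw [hinv, e4_conj_trace, e4_conj_trace, hXval, hXinv] at htr5
        exact htr htr5
  · -- r ≥ 7: both sides are false
    have hr7 : 7 ≤ r := by
      have h2 := hrP.two_le
      rcases Nat.lt_or_ge r 7 with h | h
      · have h46 : r = 4 ∨ r = 6 := by omega
        rcases h46 with h4 | h6
        · rw [h4] at hrP
          exact absurd hrP (by decide)
        · rw [h6] at hrP
          exact absurd hrP (by decide)
      · exact h
    have hRHS : ¬ (r = 2 ∨ (r = 3 ∧ p % 3 = 2) ∨ (r = 5 ∧ orderOf (p : ZMod 5) = 4)) := by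
      rintro (h | ⟨h, -⟩ | ⟨h, -⟩)
      · exact hr2 h
      · exact hr3 h
      · exact hr5 h
    refine iff_of_false ?_ hRHS
    intro h
    have hcard : r ∣ Nat.card ↥(specialLinear (Fin 4) F) :=
      hΩ.trans (Subgroup.relIndex_dvd_card _ _)
    obtain ⟨x, hx⟩ := exists_prime_orderOf_dvd_card' (G := ↥(specialLinear (Fin 4) F)) r hcard
    have hxr : (x : GL (Fin 4) F) ^ r = 1 := by
      have h1 : x ^ r = 1 := by rw [← hx]; exact pow_orderOf_eq_one x
      have h2 := congrArg Subtype.val h1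
      exact h2
    have hxdet : ((x : GL (Fin 4) F) : Matrix (Fin 4) (Fin 4) F).det = 1 :=
      (Cfsg.Agent.Helper97.mem_specialLinear_iff _).mp x.2
    have hxns : ∀ z : F, ((x : GL (Fin 4) F) : Matrix (Fin 4) (Fin 4) F) ≠
        z • (1 : Matrix (Fin 4) (Fin 4) F) := by
      intro z hz
      have hz4' : z ^ 4 = 1 := by
        have h1 := hxdet
        rw [hz, Matrix.det_smul, Matrix.det_one, mul_one, Fintype.card_fin] at h1
        exact h1
      have hzr : z ^ r = 1 := by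
        have h1 := congrArg (fun g : GL (Fin 4) F => (g : Matrix (Fin 4) (Fin 4) F)) hxr
        simp only [Units.val_pow_eq_pow_val, Units.val_one] at h1
        rw [hz, smul_pow, one_pow] at h1
        have h2 := congrFun (congrFun h1 0) 0
        simpa using h2
      have hcop : Nat.Coprime 4 r := by
        have h22 : Nat.Coprime 2 r := by
          rw [Nat.coprime_primes Nat.prime_two hrP]
          exact Ne.symm hr2
        exact Nat.Coprime.pow_left 2 h22
      have hz1 : z = 1 := (pow_eq_one_iff_of_coprime hcop).mp ⟨hz4', hzr⟩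
      have hx1 : (x : GL (Fin 4) F) = 1 := by
        apply Units.ext
        rw [hz, hz1, one_smul, Units.val_one]
      have hx1' : x = 1 := Subtype.ext hx1
      rw [hx1', orderOf_one] at hx
      exact hrP.one_lt.ne hx
    obtain ⟨g, hg, hgN⟩ := h x x.2 ⟨1, by rw [hxr, Units.val_one, one_smul]⟩ hxns
    rw [hN] at hgN
    have hpow : ((P⁻¹ * (g⁻¹ * x * g) * P) ^ r : GL (Fin 4) F) = 1 := by
      have h1 : P⁻¹ * (g⁻¹ * (x : GL (Fin 4) F) * g) * P = (g * P)⁻¹ * x * (g * P) := by group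
      rw [h1, e4_conj_pow, hxr]
      group
    obtain ⟨c, hc⟩ := Cfsg.Agent.Helper80.e4_normalizer_scalar h2F ι hι _ hgN r hrP hr7 1
      (by rw [hpow, Units.val_one, one_smul])
    apply hxns c
    have h1 := e4_conj_scalar (g * P)⁻¹ (P⁻¹ * (g⁻¹ * (x : GL (Fin 4) F) * g) * P) c hc
    have h2 : (g * P)⁻¹⁻¹ * (P⁻¹ * (g⁻¹ * (x : GL (Fin 4) F) * g) * P) * (g * P)⁻¹ = x := by group
    rw [h2] at h1
    exact h1

end Cfsg.Agent.Helper69
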