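import Mathlib
import Cfsg.Prelude.Def_GeometricClasses
import Cfsg.Agent.Helper69.E4Def
import Cfsg.Agent.Helper69.E4STRUCT
import Cfsg.Agent.Helper66.E4BASE1
import Cfsg.Agent.Helper70.E4CENTER
import Cfsg.Agent.Helper70.E4PAULI
import Cfsg.Agent.Helper73.E4COORD

set_option autoImplicit false

/-!
# Normal form of `4 ∘ 2^{1+4}` from primitive hypotheses (helper69, for S6001): an absolutely
irreducible symplectic-type 2-subgroup of order 64 with centre of order 4 of `GL_4(F)` is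
conjugate to the standard group `E4 ι`.
-/

namespace Cfsg.Agent.Helper69

theorem e4_normal_form' {F : Type*} [Field F] (h2 : (2 : F) ≠ 0)
    (R : Subgroup (GL (Fin 4) F)) (hRs : Cfsg.Geo.IsSymplecticTypeGroup 2 R)
    (hRi : Cfsg.Geo.ActsAbsolutelyIrreducibly (Cfsg.Geo.matrixSet R))
    (hR6 : Nat.card R = 2 ^ 6) (hZ : Nat.card (Subgroup.center R) = 4) :
    ∃ (ι : F) (P : GL (Fin 4) F), ι ^ 2 = -1 ∧
      R = (E4 ι).map (MulAut.conj P).toMonoidHom := by
  classical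
  have : Finite R := Nat.finite_of_card_ne_zero (by rw [hR6]; norm_num)
  have hexp : Monoid.exponent R = 4 := by
    rw [hRs.exponent_eq]
    rfl
  have hstruct := fun g h : R => e4_struct hRs.pGroup hexp hZ
    hRs.cyclic_of_characteristic g h
  obtain ⟨hcs, ι, gι, hι, hgιR, hgι⟩ := Cfsg.Agent.Helper70.e4_center R hRi hexp hZ
  have hexp4 : ∀ g : R, g ^ 4 = 1 := by
    intro g
    have h5 := Monoid.pow_exponent_eq_one g
    rw [hexp] at h5
    exact h5
  have hpm : ∀ c : F, c ^ 2 = 1 → c = 1 ∨ c = -1 := by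
    intro c hc
    have h3 : (c - 1) * (c + 1) = 0 := by linear_combination hc
    rcases mul_eq_zero.mp h3 with h | h
    · left; exact sub_eq_zero.mp h
    · right; exact eq_neg_of_add_eq_zero_left h
  have hscal_sq : ∀ (M : Matrix (Fin 4) (Fin 4) F) (c : F), M = c • (1 : Matrix (Fin 4) (Fin 4) F) →
      M ^ 2 = 1 → c ^ 2 = 1 := by
    intro M c hM hM2
    rw [hM, smul_pow, one_pow] at hM2
    have h3 := congrFun (congrFun hM2 0) 0
    simpa using h3
  have hsq : ∀ g ∈ R, (g : Matrix (Fin 4) (Fin 4) F) ^ 2 = 1 ∨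
      (g : Matrix (Fin 4) (Fin 4) F) ^ 2 = -1 := by
    intro g hg
    obtain ⟨c, hc⟩ := hcs (⟨g, hg⟩ ^ 2) (hstruct ⟨g, hg⟩ ⟨g, hg⟩).1
    have hc' : (g : Matrix (Fin 4) (Fin 4) F) ^ 2 = c • (1 : Matrix (Fin 4) (Fin 4) F) := by
      simpa using hc
    have h4 : (g : Matrix (Fin 4) (Fin 4) F) ^ 4 = 1 := by
      have h5 := congrArg (fun x : R => ((x : GL (Fin 4) F) : Matrix (Fin 4) (Fin 4) F))
        (hexp4 ⟨g, hg⟩)
      simpa using h5
    have hc2 : c ^ 2 = 1 := by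
      apply hscal_sq _ c hc'
      rw [← pow_mul]
      exact h4
    rcases hpm c hc2 with h | h
    · left; rw [hc', h, one_smul]
    · right; rw [hc', h, neg_smul, one_smul]
  have hcomm : ∀ g ∈ R, ∀ h ∈ R,
      (g : Matrix (Fin 4) (Fin 4) F) * (h : Matrix (Fin 4) (Fin 4) F) =
        (h : Matrix (Fin 4) (Fin 4) F) * (g : Matrix (Fin 4) (Fin 4) F) ∨
      (g : Matrix (Fin 4) (Fin 4) F) * (h : Matrix (Fin 4) (Fin 4) F) =
        -((h : Matrix (Fin 4) (Fin 4) F) * (g : Matrix (Fin 4) (Fin 4) F)) := by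
    intro g hg h hh
    obtain ⟨hk1, hk2⟩ := (hstruct ⟨g, hg⟩ ⟨h, hh⟩).2
    obtain ⟨c, hc⟩ := hcs _ hk1
    have hk2' : (((⟨g, hg⟩ * ⟨h, hh⟩ * ⟨g, hg⟩⁻¹ * ⟨h, hh⟩⁻¹ : R) : GL (Fin 4) F) :
        Matrix (Fin 4) (Fin 4) F) ^ 2 = 1 := by
      have h5 := congrArg (fun x : R => ((x : GL (Fin 4) F) : Matrix (Fin 4) (Fin 4) F)) hk2
      simpa using h5
    have hc2 : c ^ 2 = 1 := hscal_sq _ c hc hk2'
    have hgh : g * h = (g * h * g⁻¹ * h⁻¹) * (h * g) := by group
    have hgh' : (g : Matrix (Fin 4) (Fin 4) F) * (h : Matrix (Fin 4) (Fin 4) F) =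
        c • ((h : Matrix (Fin 4) (Fin 4) F) * (g : Matrix (Fin 4) (Fin 4) F)) := by
      have h5 := congrArg (fun x : GL (Fin 4) F => (x : Matrix (Fin 4) (Fin 4) F)) hgh
      simp only [Units.val_mul] at h5
      rw [h5]
      have h6 : (g : Matrix (Fin 4) (Fin 4) F) * (h : Matrix (Fin 4) (Fin 4) F) *
          ((g⁻¹ : GL (Fin 4) F) : Matrix (Fin 4) (Fin 4) F) *
          ((h⁻¹ : GL (Fin 4) F) : Matrix (Fin 4) (Fin 4) F) = c • 1 := by
        rw [← hc]
        simp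
      rw [h6, Matrix.smul_mul, Matrix.one_mul]
    rcases hpm c hc2 with h | h
    · left; rw [hgh', h, one_smul]
    · right; rw [hgh', h, neg_smul, one_smul]
  have hnc : ∀ g ∈ R, (∀ h ∈ R, g * h = h * g) →
      ∃ c : F, (g : Matrix (Fin 4) (Fin 4) F) = c • (1 : Matrix (Fin 4) (Fin 4) F) := by
    intro g hg hall
    apply hcs ⟨g, hg⟩
    rw [Subgroup.mem_center_iff]
    intro k
    apply Subtype.ext
    exact (hall k k.2).symm
  obtain ⟨x1, z1, x2, z2, hx1R, hz1R, hx2R, hz2R, hx1, hz1, hx2, hz2, h11, h22, hxx, hxz, hzx, hzz⟩ :=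
    Cfsg.Agent.Helper70.e4_exists_pauli h2 R (by rw [hR6]; norm_num) ι hι ⟨gι, hgιR, hgι⟩ hsq hcomm hnc
  obtain ⟨P, hP1, hP2, hP3, hP4⟩ :=
    Cfsg.Agent.Helper73.e4_coord h2 _ _ _ _ hx1 hz1 hx2 hz2 h11 h22 hxx hxz hzx hzz
  refine ⟨ι, P, hι, ?_⟩
  have hle : (E4 ι).map (MulAut.conj P).toMonoidHom ≤ R := by
    rw [Subgroup.map_le_iff_le_comap]
    unfold E4
    rw [Subgroup.closure_le]
    intro g hg
    show P * g * P⁻¹ ∈ R
    have key : ∀ m : GL (Fin 4) F, m ∈ R →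
        (m : Matrix (Fin 4) (Fin 4) F) * (P : Matrix (Fin 4) (Fin 4) F) =
          (P : Matrix (Fin 4) (Fin 4) F) * (g : Matrix (Fin 4) (Fin 4) F) → P * g * P⁻¹ ∈ R := by
      intro m hm hmP
      have h5 : P * g * P⁻¹ = m := by
        rw [mul_inv_eq_iff_eq_mul]
        apply Units.ext
        rw [Units.val_mul, Units.val_mul]
        exact hmP.symm
      rw [h5]
      exact hm
    rcases hg with hg | hg | hg | hg | hg
    · apply key gι hgιR
      rw [hgι, hg, Matrix.smul_mul, Matrix.mul_smul, Matrix.one_mul, Matrix.mul_one]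
    · apply key x1 hx1R
      rw [hg]; exact hP1
    · apply key z1 hz1R
      rw [hg]; exact hP2
    · apply key x2 hx2R
      rw [hg]; exact hP3
    · apply key z2 hz2R
      rw [hg]; exact hP4
  have hcard : Nat.card ((E4 ι).map (MulAut.conj P).toMonoidHom) = 64 := by
    rw [Subgroup.card_map_of_injective (MulAut.conj P).injective]
    exact Cfsg.Agent.Helper66.e4_card h2 ι hι
  exact (Subgroup.eq_of_le_of_card_ge hle (by rw [hR6, hcard]; norm_num)).symm

end Cfsg.Agent.Helper69
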