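import Mathlib
import Cfsg.Prelude.Def_GeometricClasses
import Cfsg.Prelude.Def_LieClassical
import Cfsg.Agent.Helper69.E4Def
import Cfsg.Agent.Helper69.E4UDef
import Cfsg.Agent.Helper69.E4Core
import Cfsg.Agent.Helper97.UForm
import Cfsg.Agent.Helper78.E3UUR
import Cfsg.Agent.Helper66.E4UMULT3P
import Cfsg.Agent.Helper88.E4UNFU
import Cfsg.Agent.Helper4.E4UBAD3UA
import Cfsg.Agent.Helper73.E4UBAD3UB
import Cfsg.Agent.Helper73.E4UINVU
import Cfsg.Agent.Helper73.E4UCUBEU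
import Cfsg.Agent.Helper73.E4UFIFTHU
import Cfsg.Agent.Helper84.E4UBAD5U

set_option autoImplicit false


/-!
# Core of S6001 (helper69): elements of prime order of `PSU_4(p)`, `p ≡ 3 (mod 4)`, and the
normalizer of `4 ∘ 2^{1+4}`.
-/

namespace Cfsg.Agent.Helper69

open Cfsg.Geo
open scoped Matrix

/-- the matrix of a conjugate `G⁻¹ x' G` from `x' * g = g * M` -/
theorem e4u_conj_val {F : Type*} [Field F] (g : Matrix (Fin 4) (Fin 4) F) (hg : g.det = 1)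
    (x' : GL (Fin 4) F) (M : Matrix (Fin 4) (Fin 4) F)
    (h : (x' : Matrix (Fin 4) (Fin 4) F) * g = g * M) :
    (((Cfsg.Agent.Helper97.glOfDetOne g hg)⁻¹ * x' * Cfsg.Agent.Helper97.glOfDetOne g hg :
      GL (Fin 4) F) : Matrix (Fin 4) (Fin 4) F) = M := by
  rw [Units.val_mul, Units.val_mul, Cfsg.Agent.Helper97.glOfDetOne_val, mul_assoc, h,
    ← mul_assoc]
  have h1 : (((Cfsg.Agent.Helper97.glOfDetOne g hg)⁻¹ : GL (Fin 4) F) :
      Matrix (Fin 4) (Fin 4) F) * g = 1 := by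
    have h2 := Units.inv_mul (Cfsg.Agent.Helper97.glOfDetOne g hg)
    rw [Cfsg.Agent.Helper97.glOfDetOne_val] at h2
    exact h2
  rw [h1, one_mul]

/-- a conjugate of an element with a hyperplane of eigenvectors does not normalise `E4`
(no restriction on the characteristic besides `2 ≠ 0`) -/
theorem e4u_bad_of_hyperplane {F : Type*} [Field F] (h2 : (2 : F) ≠ 0) (ι : F)
    (hι : ι ^ 2 = -1) (X : GL (Fin 4) F) (r : ℕ) (hr : Odd r)
    (hxr : (X : Matrix (Fin 4) (Fin 4) F) ^ r = 1)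
    (hns : ∀ c : F, (X : Matrix (Fin 4) (Fin 4) F) ≠ c • (1 : Matrix (Fin 4) (Fin 4) F))
    (a : Fin 4 → F) (ha : a ≠ 0) (μ : F)
    (hμ : ∀ v : Fin 4 → F, a ⬝ᵥ v = 0 → (X : Matrix (Fin 4) (Fin 4) F) *ᵥ v = μ • v)
    (A : GL (Fin 4) F)
    (hA : A⁻¹ * X * A ∈ subgroupNormalizer (E4 ι)) : False := by
  have hXr : X ^ r = 1 := by
    apply Units.ext
    rw [Units.val_pow_eq_pow_val, hxr, Units.val_one]
  have hyr : ((A⁻¹ * X * A : GL (Fin 4) F) : Matrix (Fin 4) (Fin 4) F) ^ r =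
      (1 : F) • (1 : Matrix (Fin 4) (Fin 4) F) := by
    rw [← Units.val_pow_eq_pow_val, e4_conj_pow, hXr, one_smul]
    simp
  have hAinv : ((A⁻¹ : GL (Fin 4) F) : Matrix (Fin 4) (Fin 4) F) *
      (A : Matrix (Fin 4) (Fin 4) F) = 1 := by
    rw [← Units.val_mul, inv_mul_cancel, Units.val_one]
  have hAinv' : (A : Matrix (Fin 4) (Fin 4) F) *
      ((A⁻¹ : GL (Fin 4) F) : Matrix (Fin 4) (Fin 4) F) = 1 := by
    rw [← Units.val_mul, mul_inv_cancel, Units.val_one]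
  have ha' : a ᵥ* (A : Matrix (Fin 4) (Fin 4) F) ≠ 0 := by
    intro h0
    apply ha
    have h1 : (a ᵥ* (A : Matrix (Fin 4) (Fin 4) F)) ᵥ*
        ((A⁻¹ : GL (Fin 4) F) : Matrix (Fin 4) (Fin 4) F) = a := by
      rw [Matrix.vecMul_vecMul, hAinv', Matrix.vecMul_one]
    rw [← h1, h0, Matrix.zero_vecMul]
  have hμ' : ∀ v : Fin 4 → F, (a ᵥ* (A : Matrix (Fin 4) (Fin 4) F)) ⬝ᵥ v = 0 →
      ((A⁻¹ * X * A : GL (Fin 4) F) : Matrix (Fin 4) (Fin 4) F) *ᵥ v = μ • v := by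
    intro v hv
    rw [← Matrix.dotProduct_mulVec] at hv
    have h1 := hμ _ hv
    rw [Units.val_mul, Units.val_mul, ← Matrix.mulVec_mulVec, ← Matrix.mulVec_mulVec, h1,
      Matrix.mulVec_smul, Matrix.mulVec_mulVec, hAinv, Matrix.one_mulVec]
  obtain ⟨c, hc⟩ := Cfsg.Agent.Helper66.e4_mult3' h2 ι hι (A⁻¹ * X * A) hA r hr 1 hyr
    (a ᵥ* (A : Matrix (Fin 4) (Fin 4) F)) ha' μ hμ'
  apply hns c
  have h1 := e4_conj_scalar A⁻¹ (A⁻¹ * X * A) c hc
  have h2' : A⁻¹⁻¹ * (A⁻¹ * X * A) * A⁻¹ = X := by group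
  rw [h2'] at h1
  exact h1

theorem e4u_main {F : Type*} [Field F] [Fintype F] {p : ℕ} [Fact p.Prime] [CharP F p] (hF : Fintype.card F = p ^ 2) (hp4 : p % 4 = 3)
    (R : Subgroup (GL (Fin 4) F)) (hRs : Cfsg.Geo.IsSymplecticTypeGroup 2 R) (hRi : Cfsg.Geo.ActsAbsolutelyIrreducibly (Cfsg.Geo.matrixSet R))
    (hRU : R ≤ Cfsg.GU 4 F p) (hR6 : Nat.card R = 2 ^ 6) (hRZ : Nat.card (Subgroup.center R) = 4)
    (r : ℕ) [Fact r.Prime]
    (hΩ : r ∣ (Cfsg.Geo.subgroupNormalizer R).relIndex (Cfsg.GU 4 F p ⊓ Cfsg.Geo.specialLinear (Fin 4) F)) :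
    (∀ x ∈ Cfsg.GU 4 F p ⊓ Cfsg.Geo.specialLinear (Fin 4) F, (∃ z : F, ((x ^ r : GL (Fin 4) F) : Matrix (Fin 4) (Fin 4) F) = z • (1 : Matrix (Fin 4) (Fin 4) F)) →
      (∀ z : F, (x : Matrix (Fin 4) (Fin 4) F) ≠ z • (1 : Matrix (Fin 4) (Fin 4) F)) →
      ∃ g ∈ Cfsg.GU 4 F p ⊓ Cfsg.Geo.specialLinear (Fin 4) F, g⁻¹ * x * g ∈ Cfsg.Geo.subgroupNormalizer R) ↔ (r = 2 ∨ (r = 3 ∧ p % 3 = 1) ∨ (r = 5 ∧ orderOf (p : ZMod 5) = 4)) := by
  classical
  have hpP := (Fact.out : p.Prime)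
  have hrP := (Fact.out : r.Prime)
  have hp3le : 3 ≤ p := by
    have h2 := hpP.two_le
    omega
  have hnat : ∀ k : ℕ, 0 < k → k < p → ((k : ℕ) : F) ≠ 0 := by
    intro k hk0 hkp h0
    rw [CharP.cast_eq_zero_iff F p] at h0
    exact absurd (Nat.le_of_dvd hk0 h0) (by omega)
  have h2F : (2 : F) ≠ 0 := by
    have := hnat 2 (by norm_num) (by omega)
    exact_mod_cast this
  obtain ⟨σ, hσ⟩ := Cfsg.Agent.Helper97.exists_sigma hF
  obtain ⟨ι, P, hι, hPU, hRP⟩ :=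
    Cfsg.Agent.Helper88.e4u_normal_form hF h2F R hRs hRi hRU hR6 hRZ
  have hN : ∀ y : GL (Fin 4) F, y ∈ subgroupNormalizer R ↔
      P⁻¹ * y * P ∈ subgroupNormalizer (E4 ι) := by
    intro y
    rw [hRP]
    exact e4_mem_normalizer_conj (E4 ι) P y
  have hSUconj : ∀ y : GL (Fin 4) F, y ∈ Cfsg.GU 4 F p ⊓ specialLinear (Fin 4) F →
      P⁻¹ * y * P ∈ Cfsg.GU 4 F p ⊓ specialLinear (Fin 4) F := by
    intro y hy
    exact Subgroup.mem_inf.mpr
      ⟨(Cfsg.GU 4 F p).mul_mem ((Cfsg.GU 4 F p).mul_mem ((Cfsg.GU 4 F p).inv_mem hPU)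
        (Subgroup.mem_inf.mp hy).1) hPU,
        e4_specialLinear_conj P y (Subgroup.mem_inf.mp hy).2⟩
  -- from a unitary conjugation of determinant one to the statement
  have hgood : ∀ x ∈ Cfsg.GU 4 F p ⊓ specialLinear (Fin 4) F,
      ∀ (g : Matrix (Fin 4) (Fin 4) F) (hg : g.det = 1) (M : Matrix (Fin 4) (Fin 4) F),
      gᵀ * g.map σ = 1 →
      ((P⁻¹ * x * P : GL (Fin 4) F) : Matrix (Fin 4) (Fin 4) F) * g = g * M →
      (∀ t : GL (Fin 4) F, (t : Matrix (Fin 4) (Fin 4) F) = M → t ∈ subgroupNormalizer (E4 ι)) →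
      ∃ g' ∈ Cfsg.GU 4 F p ⊓ specialLinear (Fin 4) F, g'⁻¹ * x * g' ∈ subgroupNormalizer R := by
    intro x hx g hg M hgU hgM hM
    have hGmem := Cfsg.Agent.Helper97.glOfDetOne_mem g hg
    have hGU : Cfsg.Agent.Helper97.glOfDetOne g hg ∈ Cfsg.GU 4 F p :=
      Cfsg.Agent.Helper78.e3ur_mem_GU hσ _ (by rw [Cfsg.Agent.Helper97.glOfDetOne_val]; exact hgU)
    refine ⟨P * Cfsg.Agent.Helper97.glOfDetOne g hg * P⁻¹, ?_, ?_⟩
    · refine Subgroup.mem_inf.mpr ⟨?_, ?_⟩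
      · exact (Cfsg.GU 4 F p).mul_mem ((Cfsg.GU 4 F p).mul_mem hPU hGU)
          ((Cfsg.GU 4 F p).inv_mem hPU)
      · have h1 := e4_specialLinear_conj P⁻¹ _ hGmem
        rw [inv_inv] at h1
        exact h1
    · rw [hN]
      have h2 : P⁻¹ * ((P * Cfsg.Agent.Helper97.glOfDetOne g hg * P⁻¹)⁻¹ * x *
          (P * Cfsg.Agent.Helper97.glOfDetOne g hg * P⁻¹)) * P =
          (Cfsg.Agent.Helper97.glOfDetOne g hg)⁻¹ * (P⁻¹ * x * P) *
            Cfsg.Agent.Helper97.glOfDetOne g hg := by group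
      rw [h2]
      exact hM _ (e4u_conj_val g hg (P⁻¹ * x * P) M hgM)
  -- facts about x' = P⁻¹ x P
  have hx' : ∀ x ∈ Cfsg.GU 4 F p ⊓ specialLinear (Fin 4) F, ∀ z : F,
      ((x ^ r : GL (Fin 4) F) : Matrix (Fin 4) (Fin 4) F) = z • (1 : Matrix (Fin 4) (Fin 4) F) →
      ((P⁻¹ * x * P : GL (Fin 4) F) : Matrix (Fin 4) (Fin 4) F).det = 1 ∧
      ((P⁻¹ * x * P : GL (Fin 4) F) : Matrix (Fin 4) (Fin 4) F) ^ r =
        z • (1 : Matrix (Fin 4) (Fin 4) F) ∧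
      ((P⁻¹ * x * P : GL (Fin 4) F) : Matrix (Fin 4) (Fin 4) F)ᵀ *
        ((P⁻¹ * x * P : GL (Fin 4) F) : Matrix (Fin 4) (Fin 4) F).map σ = 1 := by
    intro x hx z hz
    have hc := hSUconj x hx
    refine ⟨(Cfsg.Agent.Helper97.mem_specialLinear_iff _).mp (Subgroup.mem_inf.mp hc).2, ?_,
      hσ.GU_matrix _ (Subgroup.mem_inf.mp hc).1⟩
    rw [← Units.val_pow_eq_pow_val]
    rw [e4_conj_pow]
    exact e4_conj_scalar P _ z hz
  have hns' : ∀ x : GL (Fin 4) F,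
      (∀ z : F, (x : Matrix (Fin 4) (Fin 4) F) ≠ z • (1 : Matrix (Fin 4) (Fin 4) F)) →
      ∀ c : F, ((P⁻¹ * x * P : GL (Fin 4) F) : Matrix (Fin 4) (Fin 4) F) ≠
        c • (1 : Matrix (Fin 4) (Fin 4) F) := by
    intro x hns c hc
    apply hns c
    have h1 := e4_conj_scalar P⁻¹ (P⁻¹ * x * P) c hc
    have h2 : P⁻¹⁻¹ * (P⁻¹ * x * P) * P⁻¹ = x := by group
    rw [h2] at h1
    exact h1
  -- bad elements with a hyperplane of eigenvectors
  have hbad : ∀ (X : GL (Fin 4) F) (a : Fin 4 → F) (μ : F),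
      X ∈ Cfsg.GU 4 F p ⊓ specialLinear (Fin 4) F →
      (X : Matrix (Fin 4) (Fin 4) F) ^ r = 1 →
      (∀ c : F, (X : Matrix (Fin 4) (Fin 4) F) ≠ c • (1 : Matrix (Fin 4) (Fin 4) F)) → a ≠ 0 →
      (∀ v : Fin 4 → F, a ⬝ᵥ v = 0 → (X : Matrix (Fin 4) (Fin 4) F) *ᵥ v = μ • v) → Odd r →
      ¬ (∀ x ∈ Cfsg.GU 4 F p ⊓ specialLinear (Fin 4) F, (∃ z : F, ((x ^ r : GL (Fin 4) F) : Matrix (Fin 4) (Fin 4) F) = z • (1 : Matrix (Fin 4) (Fin 4) F)) →
      (∀ z : F, (x : Matrix (Fin 4) (Fin 4) F) ≠ z • (1 : Matrix (Fin 4) (Fin 4) F)) →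
      ∃ g ∈ Cfsg.GU 4 F p ⊓ specialLinear (Fin 4) F, g⁻¹ * x * g ∈ subgroupNormalizer R) := by
    intro X a μ hXmem hxr hns ha hμ hodd h
    obtain ⟨g, -, hgN⟩ := h X hXmem
      ⟨1, by rw [Units.val_pow_eq_pow_val, hxr, one_smul]⟩ hns
    rw [hN] at hgN
    have h1 : P⁻¹ * (g⁻¹ * X * g) * P = (g * P)⁻¹ * X * (g * P) := by group
    rw [h1] at hgN
    exact e4u_bad_of_hyperplane h2F ι hι X r hodd hxr hns a ha μ hμ (g * P) hgN
  by_cases hr2 : r = 2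
  · -- involutions
    refine iff_of_true ?_ (Or.inl hr2)
    intro x hx ⟨z, hz⟩ hns
    obtain ⟨hdet, hpow, hU⟩ := hx' x hx z hz
    rw [hr2] at hpow
    obtain ⟨g, c, d, hgU, hgdet, hd, hxg⟩ :=
      Cfsg.Agent.Helper73.e4u_involution hF hp4 h2F σ hσ ι hι _ hU hdet z hpow
    exact hgood x hx g hgdet _ hgU hxg
      (fun t ht => Cfsg.Agent.Helper66.e4_diag_mem_normalizer h2F ι hι d hd c t ht)
  by_cases hr3 : r = 3
  · have hodd : Odd r := by rw [hr3]; decide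
    by_cases hp3 : p % 3 = 1
    · refine iff_of_true ?_ (Or.inr (Or.inl ⟨hr3, hp3⟩))
      intro x hx ⟨z, hz⟩ hns
      obtain ⟨hdet, hpow, hU⟩ := hx' x hx z hz
      rw [hr3] at hpow
      obtain ⟨g, c, hgU, hgdet, hxg⟩ :=
        Cfsg.Agent.Helper73.e4u_cube hF hp4 hp3 h2F σ hσ ι hι _ hU hdet z hpow (hns' x hns)
      rcases hxg with hxg | hxg
      · exact hgood x hx g hgdet _ hgU hxg
          (fun t ht => Cfsg.Agent.Helper76.e4_T1_mem_normalizer h2F ι hι c t ht)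
      · exact hgood x hx g hgdet _ hgU hxg
          (fun t ht => Cfsg.Agent.Helper76.e4_T2_mem_normalizer h2F ι hι c t ht)
    · have hRHS : ¬ (r = 2 ∨ (r = 3 ∧ p % 3 = 1) ∨ (r = 5 ∧ orderOf (p : ZMod 5) = 4)) := by
        rintro (h | ⟨-, h⟩ | ⟨h, -⟩)
        · exact hr2 h
        · exact hp3 h
        · omega
      refine iff_of_false ?_ hRHS
      have hcases : p % 3 = 2 ∨ p % 3 = 0 := by omega
      rcases hcases with h2' | h0
      · obtain ⟨X, a, μ, hXmem, hX3, hns, ha, hμ⟩ :=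
          Cfsg.Agent.Helper4.e4u_bad_diag (F := F) hF h2'
        rw [← hr3] at hX3
        exact hbad X a μ hXmem hX3 hns ha hμ hodd
      · have hp3eq : p = 3 := by
          have h3 : 3 ∣ p := Nat.dvd_of_mod_eq_zero h0
          exact ((Nat.prime_dvd_prime_iff_eq Nat.prime_three hpP).mp h3).symm
        have h3F : (3 : F) = 0 := by
          have h1 : ((3 : ℕ) : F) = 0 := by
            rw [CharP.cast_eq_zero_iff F p, hp3eq]
          exact_mod_cast h1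
        obtain ⟨X, a, μ, hXmem, hX3, hns, ha, hμ⟩ :=
          Cfsg.Agent.Helper73.e4u_bad_transvection (F := F) hF h3F
        rw [← hr3] at hX3
        exact hbad X a μ hXmem hX3 hns ha hμ hodd
  by_cases hr5 : r = 5
  · have hord := Cfsg.Agent.Helper73.e4_orderOf_five p
    by_cases hp5' : p % 5 = 2 ∨ p % 5 = 3
    · have hord4 : orderOf (p : ZMod 5) = 4 := hord.mpr hp5'
      refine iff_of_true ?_ (Or.inr (Or.inr ⟨hr5, hord4⟩))
      intro x hx ⟨z, hz⟩ hns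
      obtain ⟨hdet, hpow, hU⟩ := hx' x hx z hz
      rw [hr5] at hpow
      obtain ⟨g, c, hgU, hgdet, hxg⟩ :=
        Cfsg.Agent.Helper73.e4u_fifth hF hp4 hp5' h2F σ hσ ι hι _ hU hdet z hpow (hns' x hns)
      exact hgood x hx g hgdet _ hgU hxg
        (fun t ht => Cfsg.Agent.Helper76.e4_Y5_mem_normalizer h2F ι hι c t ht)
    · have hRHS : ¬ (r = 2 ∨ (r = 3 ∧ p % 3 = 1) ∨ (r = 5 ∧ orderOf (p : ZMod 5) = 4)) := by
        rintro (h | ⟨h, -⟩ | ⟨-, h⟩)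
        · exact hr2 h
        · exact hr3 h
        · exact hp5' (hord.mp h)
      refine iff_of_false ?_ hRHS
      have hp5ne : p % 5 ≠ 0 := by
        intro h0
        have h3 : 5 ∣ p := Nat.dvd_of_mod_eq_zero h0
        have h4 := (Nat.prime_dvd_prime_iff_eq (by norm_num) hpP).mp h3
        omega
      have hcases : p % 5 = 1 ∨ p % 5 = 4 := by omega
      obtain ⟨X, hXmem, hX5, hns, htr⟩ :=
        Cfsg.Agent.Helper84.e4u_bad_five (F := F) hF h2F hcases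
      intro h
      obtain ⟨g, -, hgN⟩ := h X hXmem
        ⟨1, by rw [hr5, hX5, Units.val_one, one_smul]⟩ hns
      rw [hN] at hgN
      have h1 : P⁻¹ * (g⁻¹ * X * g) * P = (g * P)⁻¹ * X * (g * P) := by group
      rw [h1] at hgN
      have hy5 : ((g * P)⁻¹ * X * (g * P)) ^ 5 = 1 := by
        rw [e4_conj_pow, hX5]
        group
      have hyns : ∀ c : F, (((g * P)⁻¹ * X * (g * P) : GL (Fin 4) F) :
          Matrix (Fin 4) (Fin 4) F) ≠ c • (1 : Matrix (Fin 4) (Fin 4) F) := by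
        intro c hc
        apply hns c
        have h2 := e4_conj_scalar (g * P)⁻¹ ((g * P)⁻¹ * X * (g * P)) c hc
        have h3 : (g * P)⁻¹⁻¹ * ((g * P)⁻¹ * X * (g * P)) * (g * P)⁻¹ = X := by group
        rw [h3] at h2
        exact h2
      have htr5 := Cfsg.Agent.Helper81.e4_trace_five h2F ι hι _ hgN hy5 hyns
      have hinv : ((g * P)⁻¹ * X * (g * P))⁻¹ = (g * P)⁻¹ * X⁻¹ * (g * P) := by group
      rw [hinv, e4_conj_trace, e4_conj_trace] at htr5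
      exact htr htr5
  · -- r ≥ 7: both sides are false
    have hr7 : 7 ≤ r := by
      have h2 := hrP.two_le
      rcases Nat.lt_or_ge r 7 with h | h
      · have h46 : r = 4 ∨ r = 6 := by omega
        rcases h46 with h4 | h6
        · rw [h4] at hrP
          exact absurd hrP (by decide)
        · rw [h6] at hrP
          exact absurd hrP (by decide)
      · exact h
    have hRHS : ¬ (r = 2 ∨ (r = 3 ∧ p % 3 = 1) ∨ (r = 5 ∧ orderOf (p : ZMod 5) = 4)) := by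
      rintro (h | ⟨h, -⟩ | ⟨h, -⟩)
      · exact hr2 h
      · exact hr3 h
      · exact hr5 h
    refine iff_of_false ?_ hRHS
    intro h
    have hcard : r ∣ Nat.card ↥(Cfsg.GU 4 F p ⊓ specialLinear (Fin 4) F) :=
      hΩ.trans (Subgroup.relIndex_dvd_card _ _)
    obtain ⟨x, hx⟩ := exists_prime_orderOf_dvd_card'
      (G := ↥(Cfsg.GU 4 F p ⊓ specialLinear (Fin 4) F)) r hcard
    have hxr : (x : GL (Fin 4) F) ^ r = 1 := by
      have h1 : x ^ r = 1 := by rw [← hx]; exact pow_orderOf_eq_one x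
      have h2 := congrArg Subtype.val h1
      exact h2
    have hxdet : ((x : GL (Fin 4) F) : Matrix (Fin 4) (Fin 4) F).det = 1 :=
      (Cfsg.Agent.Helper97.mem_specialLinear_iff _).mp (Subgroup.mem_inf.mp x.2).2
    have hxns : ∀ z : F, ((x : GL (Fin 4) F) : Matrix (Fin 4) (Fin 4) F) ≠
        z • (1 : Matrix (Fin 4) (Fin 4) F) := by
      intro z hz
      have hz4' : z ^ 4 = 1 := by
        have h1 := hxdet
        rw [hz, Matrix.det_smul, Matrix.det_one, mul_one, Fintype.card_fin] at h1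
        exact h1
      have hzr : z ^ r = 1 := by
        have h1 := congrArg (fun g : GL (Fin 4) F => (g : Matrix (Fin 4) (Fin 4) F)) hxr
        simp only [Units.val_pow_eq_pow_val, Units.val_one] at h1
        rw [hz, smul_pow, one_pow] at h1
        have h2 := congrFun (congrFun h1 0) 0
        simpa using h2
      have hcop : Nat.Coprime 4 r := by
        have h22 : Nat.Coprime 2 r := by
          rw [Nat.coprime_primes Nat.prime_two hrP]
          exact Ne.symm hr2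
        exact Nat.Coprime.pow_left 2 h22
      have hz1 : z = 1 := (pow_eq_one_iff_of_coprime hcop).mp ⟨hz4', hzr⟩
      have hx1 : (x : GL (Fin 4) F) = 1 := by
        apply Units.ext
        rw [hz, hz1, one_smul, Units.val_one]
      have hx1' : x = 1 := Subtype.ext hx1
      rw [hx1', orderOf_one] at hx
      exact hrP.one_lt.ne hx
    obtain ⟨g, hg, hgN⟩ := h x x.2 ⟨1, by rw [hxr, Units.val_one, one_smul]⟩ hxns
    rw [hN] at hgN
    have hpow : ((P⁻¹ * (g⁻¹ * x * g) * P) ^ r : GL (Fin 4) F) = 1 := by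
      have h1 : P⁻¹ * (g⁻¹ * (x : GL (Fin 4) F) * g) * P = (g * P)⁻¹ * x * (g * P) := by group
      rw [h1, e4_conj_pow, hxr]
      group
    obtain ⟨c, hc⟩ := Cfsg.Agent.Helper80.e4_normalizer_scalar h2F ι hι _ hgN r hrP hr7 1
      (by rw [hpow, Units.val_one, one_smul])
    apply hxns c
    have h1 := e4_conj_scalar (g * P)⁻¹ (P⁻¹ * (g⁻¹ * (x : GL (Fin 4) F) * g) * P) c hc
    have h2 : (g * P)⁻¹⁻¹ * (P⁻¹ * (g⁻¹ * (x : GL (Fin 4) F) * g) * P) * (g * P)⁻¹ = x := by group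
    rw [h2] at h1
    exact h1

end Cfsg.Agent.Helper69
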