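import Mathlib
import Cfsg.Prelude.Def_GeometricClasses
import Cfsg.Prelude.Def_LieClassical
import Cfsg.Agent.Helper69.E4Def
import Cfsg.Agent.Helper69.E5Def
import Cfsg.Agent.Helper66.E4BASE1
import Cfsg.Agent.Helper73.E4ORD5
import Cfsg.Agent.Helper37.E5WORDS
import Cfsg.Agent.Helper14.E5Y5
import Cfsg.Agent.Helper37.E5BAD5S
import Cfsg.Agent.Helper20.E5BAD3S
import Cfsg.Agent.Helper83.E5CF5
import Cfsg.Agent.Helper3.E5INVB
import Cfsg.Agent.Helper11.E5INVA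
import Cfsg.Agent.Helper66.E5GOLDS
import Cfsg.Agent.Helper11.E5FORMUNIQ
import Cfsg.Agent.Helper11.E5SPMAT
import Cfsg.Agent.Helper83.E5NF2
import Cfsg.Agent.Helper74.E5NEG
import Cfsg.Agent.Helper72.E5SPCONJ

set_option autoImplicit false


/-!
# Core of S6002 (helper69): elements of prime order of `PSp_4(p)`, `p` odd, and the normalizer
of an extraspecial group `2^{1+4}_-`.
-/

namespace Cfsg.Agent.Helper69

open Cfsg.Geo
open scoped Matrix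

section e5aux

variable {F : Type*} [Field F] {n : Type*} [Fintype n] [DecidableEq n]

theorem e5_conj_scalar (P y : GL n F) (c : F)
    (h : (y : Matrix n n F) = c • (1 : Matrix n n F)) :
    ((P⁻¹ * y * P : GL n F) : Matrix n n F) = c • (1 : Matrix n n F) := by
  rw [Units.val_mul, Units.val_mul, h, Matrix.mul_smul, Matrix.smul_mul, Matrix.mul_one,
    ← Units.val_mul, inv_mul_cancel, Units.val_one]

theorem e5_conj_trace (A X : GL n F) :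
    ((A⁻¹ * X * A : GL n F) : Matrix n n F).trace = (X : Matrix n n F).trace := by
  rw [Units.val_mul, Units.val_mul, Matrix.trace_mul_comm, ← mul_assoc, ← Units.val_mul,
    mul_inv_cancel, Units.val_one, one_mul]

theorem e5_conj_rank_one (A X : GL n F) (μ : F) (u w : n → F)
    (h : (X : Matrix n n F) = μ • 1 + Matrix.vecMulVec u w) :
    ((A⁻¹ * X * A : GL n F) : Matrix n n F) =
      μ • 1 + Matrix.vecMulVec (((A⁻¹ : GL n F) : Matrix n n F) *ᵥ u)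
        (w ᵥ* (A : Matrix n n F)) := by
  rw [Units.val_mul, Units.val_mul, h, Matrix.mul_add, Matrix.add_mul, Matrix.mul_smul,
    Matrix.smul_mul, Matrix.mul_one, ← Units.val_mul, inv_mul_cancel, Units.val_one,
    Matrix.mul_vecMulVec, Matrix.vecMulVec_mul]

theorem e5_conj_ne_scalar (A X : GL n F)
    (hns : ∀ c : F, (X : Matrix n n F) ≠ c • (1 : Matrix n n F)) (c : F) :
    ((A⁻¹ * X * A : GL n F) : Matrix n n F) ≠ c • (1 : Matrix n n F) := by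
  intro hc
  apply hns c
  have h1 := e5_conj_scalar A⁻¹ (A⁻¹ * X * A) c hc
  have h2 : A⁻¹⁻¹ * (A⁻¹ * X * A) * A⁻¹ = X := by group
  rw [h2] at h1
  exact h1

theorem e5_conj_pow' {G : Type*} [Group G] (A B : G) (k : ℕ) :
    (A⁻¹ * B * A) ^ k = A⁻¹ * B ^ k * A := by
  induction k with
  | zero => simp
  | succ k ih => rw [pow_succ, ih, pow_succ]; group

end e5aux

section e5sandwich

variable {F : Type*} [Field F]

/-- the unit `C * M * Ci` -/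
def e5Unit (C : Matrix (Fin 2 ⊕ Fin 2) (Fin 4) F) (Ci : Matrix (Fin 4) (Fin 2 ⊕ Fin 2) F)
    (hC2 : Ci * C = 1) (hC1 : C * Ci = 1) (M Mi : Matrix (Fin 4) (Fin 4) F) (h1 : M * Mi = 1)
    (h2 : Mi * M = 1) : GL (Fin 2 ⊕ Fin 2) F :=
  ⟨C * M * Ci, C * Mi * Ci,
    by
      have e : C * M * Ci * (C * Mi * Ci) = C * (M * ((Ci * C) * Mi)) * Ci := by
        simp only [Matrix.mul_assoc]
      rw [e, hC2, Matrix.one_mul, h1, Matrix.mul_one, hC1],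
    by
      have e : C * Mi * Ci * (C * M * Ci) = C * (Mi * ((Ci * C) * M)) * Ci := by
        simp only [Matrix.mul_assoc]
      rw [e, hC2, Matrix.one_mul, h2, Matrix.mul_one, hC1]⟩

theorem e5Unit_val (C : Matrix (Fin 2 ⊕ Fin 2) (Fin 4) F) (Ci : Matrix (Fin 4) (Fin 2 ⊕ Fin 2) F)
    (hC2 : Ci * C = 1) (hC1 : C * Ci = 1) (M Mi : Matrix (Fin 4) (Fin 4) F) (h1 : M * Mi = 1)
    (h2 : Mi * M = 1) :
    ((e5Unit C Ci hC2 hC1 M Mi h1 h2 : GL (Fin 2 ⊕ Fin 2) F) :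
      Matrix (Fin 2 ⊕ Fin 2) (Fin 2 ⊕ Fin 2) F) = C * M * Ci := rfl

theorem e5Unit_sand (C : Matrix (Fin 2 ⊕ Fin 2) (Fin 4) F) (Ci : Matrix (Fin 4) (Fin 2 ⊕ Fin 2) F)
    (hC2 : Ci * C = 1) (hC1 : C * Ci = 1) (M Mi : Matrix (Fin 4) (Fin 4) F) (h1 : M * Mi = 1)
    (h2 : Mi * M = 1) :
    Ci * ((e5Unit C Ci hC2 hC1 M Mi h1 h2 : GL (Fin 2 ⊕ Fin 2) F) :
      Matrix (Fin 2 ⊕ Fin 2) (Fin 2 ⊕ Fin 2) F) * C = M := by
  rw [e5Unit_val]
  have e : Ci * (C * M * Ci) * C = (Ci * C) * M * (Ci * C) := by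
    simp only [Matrix.mul_assoc]
  rw [e, hC2, Matrix.one_mul, Matrix.mul_one]

theorem e5_sand_mul (C : Matrix (Fin 2 ⊕ Fin 2) (Fin 4) F) (Ci : Matrix (Fin 4) (Fin 2 ⊕ Fin 2) F)
    (hC1 : C * Ci = 1) (A B : Matrix (Fin 2 ⊕ Fin 2) (Fin 2 ⊕ Fin 2) F) :
    Ci * (A * B) * C = (Ci * A * C) * (Ci * B * C) := by
  have e : (Ci * A * C) * (Ci * B * C) = Ci * (A * ((C * Ci) * B)) * C := by
    simp only [Matrix.mul_assoc]
  rw [e, hC1, Matrix.one_mul]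

theorem e5Unit_pow (C : Matrix (Fin 2 ⊕ Fin 2) (Fin 4) F) (Ci : Matrix (Fin 4) (Fin 2 ⊕ Fin 2) F)
    (hC2 : Ci * C = 1) (hC1 : C * Ci = 1) (M Mi : Matrix (Fin 4) (Fin 4) F) (h1 : M * Mi = 1)
    (h2 : Mi * M = 1) (k : ℕ) :
    ((e5Unit C Ci hC2 hC1 M Mi h1 h2 : GL (Fin 2 ⊕ Fin 2) F) :
      Matrix (Fin 2 ⊕ Fin 2) (Fin 2 ⊕ Fin 2) F) ^ k = C * M ^ k * Ci := by
  induction k with
  | zero => rw [pow_zero, pow_zero, Matrix.mul_one, hC1]
  | succ k ih =>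
    rw [pow_succ, ih, e5Unit_val, pow_succ]
    have e : C * M ^ k * Ci * (C * M * Ci) = C * (M ^ k * ((Ci * C) * M)) * Ci := by
      simp only [Matrix.mul_assoc]
    rw [e, hC2, Matrix.one_mul]

end e5sandwich


theorem e5_sand_val {F : Type*} [Field F] (C : Matrix (Fin 2 ⊕ Fin 2) (Fin 4) F)
    (Ci : Matrix (Fin 4) (Fin 2 ⊕ Fin 2) F) (hC2 : Ci * C = 1) (M : Matrix (Fin 4) (Fin 4) F) :
    Ci * (C * M * Ci) * C = M := by
  have e : Ci * (C * M * Ci) * C = (Ci * C) * M * (Ci * C) := by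
    simp only [Matrix.mul_assoc]
  rw [e, hC2, Matrix.one_mul, Matrix.mul_one]

theorem e5_main {F : Type*} [Field F] [Fintype F] {p : ℕ} [Fact p.Prime] [CharP F p] (hF : Fintype.card F = p) (hodd : Odd p)
    (R : Subgroup (GL (Fin 2 ⊕ Fin 2) F)) (hRs : Cfsg.Geo.IsSymplecticTypeGroup 2 R) (hRi : Cfsg.Geo.ActsAbsolutelyIrreducibly (Cfsg.Geo.matrixSet R))
    (hRf : R ≤ Cfsg.spGL 2 F) (hR5 : Nat.card R = 2 ^ 5) (hRZ : Nat.card (Subgroup.center R) = 2) (hRm : Cfsg.Geo.IsOfMinusType 2 R)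
    (r : ℕ) [Fact r.Prime]
    (hΩ : r ∣ (Cfsg.Geo.subgroupNormalizer R).relIndex (Cfsg.spGL 2 F)) :
    (∀ x ∈ Cfsg.spGL 2 F, (∃ z : F, ((x ^ r : GL (Fin 2 ⊕ Fin 2) F) : Matrix (Fin 2 ⊕ Fin 2) (Fin 2 ⊕ Fin 2) F) = z • (1 : Matrix (Fin 2 ⊕ Fin 2) (Fin 2 ⊕ Fin 2) F)) →
      (∀ z : F, (x : Matrix (Fin 2 ⊕ Fin 2) (Fin 2 ⊕ Fin 2) F) ≠ z • (1 : Matrix (Fin 2 ⊕ Fin 2) (Fin 2 ⊕ Fin 2) F)) →
      ∃ g ∈ Cfsg.spGL 2 F, g⁻¹ * x * g ∈ Cfsg.Geo.subgroupNormalizer R) ↔ (r = 2 ∨ (r = 5 ∧ orderOf (p : ZMod 5) = 4)) := by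
  classical
  have hpP := (Fact.out : p.Prime)
  have hrP := (Fact.out : r.Prime)
  have hp3le : 3 ≤ p := by
    have h2 := hpP.two_le
    rcases hodd with ⟨k, hk⟩
    omega
  have hnat : ∀ k : ℕ, 0 < k → k < p → ((k : ℕ) : F) ≠ 0 := by
    intro k hk0 hkp h0
    rw [CharP.cast_eq_zero_iff F p] at h0
    exact absurd (Nat.le_of_dvd hk0 h0) (by omega)
  have h2F : (2 : F) ≠ 0 := by
    have := hnat 2 (by norm_num) (by omega)
    exact_mod_cast this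
  have hSp := fun g : GL (Fin 2 ⊕ Fin 2) F => Cfsg.Agent.Helper11.e5_mem_spGL_iff (F := F) g
  have hJne : (Matrix.J (Fin 2) F) (Sum.inl 0) (Sum.inr 0) = -1 := by
    simp [Matrix.J, Matrix.fromBlocks]
  have hpm : ∀ c : F, c ^ 2 = 1 → c = 1 ∨ c = -1 := by
    intro c hc
    have h3 : (c - 1) * (c + 1) = 0 := by linear_combination hc
    rcases mul_eq_zero.mp h3 with h | h
    · left; exact sub_eq_zero.mp h
    · right; exact eq_neg_of_add_eq_zero_left h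
  -- a scalar isometry has square one
  have hz2 : ∀ (M : Matrix (Fin 2 ⊕ Fin 2) (Fin 2 ⊕ Fin 2) F) (z : F),
      Mᵀ * Matrix.J (Fin 2) F * M = Matrix.J (Fin 2) F → M = z • 1 → z ^ 2 = 1 := by
    intro M z hM hz
    rw [hz, Matrix.transpose_smul, Matrix.transpose_one, Matrix.smul_mul, Matrix.one_mul,
      Matrix.mul_smul, Matrix.mul_one, smul_smul] at hM
    have h1 := congrFun (congrFun hM (Sum.inl 0)) (Sum.inr 0)
    rw [Matrix.smul_apply, hJne, smul_eq_mul] at h1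
    linear_combination -h1
  obtain ⟨a, b, C, Ci, hab, hC1, hC2, hRmem⟩ :=
    Cfsg.Agent.Helper83.e5_normal_form h2F R hRs hRi hR5 hRZ hRm
  -- the scalar -1
  have hnegR : (-1 : GL (Fin 2 ⊕ Fin 2) F) ∈ R := by
    refine (hRmem _).mpr ⟨1, 0, 0, 0, 0, ?_⟩
    rw [Units.val_neg, Units.val_one, Matrix.mul_neg, Matrix.mul_one, Matrix.neg_mul, hC2]
    simp [e5W]
  have hnegS : (-1 : GL (Fin 2 ⊕ Fin 2) F) ∈ Cfsg.spGL 2 F := hRf hnegR
  have hRN : R ≤ subgroupNormalizer R := Subgroup.le_normalizer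
  -- the negative direction
  have hneg : ∀ X ∈ Cfsg.spGL 2 F, X ^ r = 1 →
      (∀ c : F, (X : Matrix (Fin 2 ⊕ Fin 2) (Fin 2 ⊕ Fin 2) F) ≠ c • 1) → r ≠ 2 →
      (∀ x ∈ Cfsg.spGL 2 F, (∃ z : F, ((x ^ r : GL (Fin 2 ⊕ Fin 2) F) : Matrix (Fin 2 ⊕ Fin 2) (Fin 2 ⊕ Fin 2) F) = z • (1 : Matrix (Fin 2 ⊕ Fin 2) (Fin 2 ⊕ Fin 2) F)) →
      (∀ z : F, (x : Matrix (Fin 2 ⊕ Fin 2) (Fin 2 ⊕ Fin 2) F) ≠ z • (1 : Matrix (Fin 2 ⊕ Fin 2) (Fin 2 ⊕ Fin 2) F)) →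
      ∃ g ∈ Cfsg.spGL 2 F, g⁻¹ * x * g ∈ Cfsg.Geo.subgroupNormalizer R) →
      ∃ g : GL (Fin 2 ⊕ Fin 2) F, (r = 3 ∨ r = 5) ∧
        (∀ (μ : F) (u w : Fin 2 ⊕ Fin 2 → F),
          ((g⁻¹ * X * g : GL (Fin 2 ⊕ Fin 2) F) : Matrix (Fin 2 ⊕ Fin 2) (Fin 2 ⊕ Fin 2) F) ≠
            μ • 1 + Matrix.vecMulVec u w) ∧
        (r = 3 → (X : Matrix (Fin 2 ⊕ Fin 2) (Fin 2 ⊕ Fin 2) F).trace *
          ((X⁻¹ : GL (Fin 2 ⊕ Fin 2) F) : Matrix (Fin 2 ⊕ Fin 2) (Fin 2 ⊕ Fin 2) F).trace = 4) ∧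
        (r = 5 → (X : Matrix (Fin 2 ⊕ Fin 2) (Fin 2 ⊕ Fin 2) F).trace *
          ((X⁻¹ : GL (Fin 2 ⊕ Fin 2) F) : Matrix (Fin 2 ⊕ Fin 2) (Fin 2 ⊕ Fin 2) F).trace = 1) := by
    intro X hX hXr hns hr2 h
    obtain ⟨g, -, hgN⟩ := h X hX ⟨1, by rw [hXr, Units.val_one, one_smul]⟩ hns
    have hyr : (g⁻¹ * X * g) ^ r = 1 := by
      rw [e5_conj_pow', hXr]
      group
    have hyns := e5_conj_ne_scalar g X hns
    obtain ⟨h35, hhyp, h3, h5⟩ := Cfsg.Agent.Helper74.e5_normalizer_facts h2F R hRs hRi hR5 hRZ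
      hRm _ hgN r hrP hr2 hyr hyns
    have hinv : (g⁻¹ * X * g)⁻¹ = g⁻¹ * X⁻¹ * g := by group
    rw [hinv, e5_conj_trace, e5_conj_trace] at h3 h5
    exact ⟨g, h35, hhyp, h3, h5⟩
  by_cases hr2 : r = 2
  · -- involutions
    refine iff_of_true ?_ (Or.inl hr2)
    have hZZ : e4Z2 F * e4Z2 F = 1 := Cfsg.Agent.Helper66.e4Z2_mul_self
    obtain ⟨sZ, hsZ⟩ : ∃ sZ : GL (Fin 2 ⊕ Fin 2) F,
        sZ = e5Unit C Ci hC2 hC1 (e4Z2 F) (e4Z2 F) hZZ hZZ := ⟨_, rfl⟩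
    have hsZR : sZ ∈ R := by
      refine (hRmem sZ).mpr ⟨0, 0, 0, 0, 1, ?_⟩
      rw [hsZ, e5Unit_sand]
      simp [e5W]
    have hsZ2 : (sZ : Matrix (Fin 2 ⊕ Fin 2) (Fin 2 ⊕ Fin 2) F) ^ 2 = 1 := by
      rw [hsZ, e5Unit_pow, pow_two, hZZ, Matrix.mul_one, hC1]
    have hsZns : ∀ c : F, (sZ : Matrix (Fin 2 ⊕ Fin 2) (Fin 2 ⊕ Fin 2) F) ≠ c • 1 := by
      intro c hc
      have h1 := e5Unit_sand C Ci hC2 hC1 (e4Z2 F) (e4Z2 F) hZZ hZZ
      rw [← hsZ, hc, Matrix.mul_smul, Matrix.smul_mul, Matrix.mul_one, hC2] at h1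
      have h00 := congrFun (congrFun h1 0) 0
      have h11 := congrFun (congrFun h1 1) 1
      simp [e4Z2] at h00 h11
      apply h2F
      rw [h00] at h11
      linear_combination h11
    have hII : e5I F * (-e5I F) = 1 := by
      rw [mul_neg, ← pow_two, Cfsg.Agent.Helper37.e5I_sq, neg_neg]
    have hII' : (-e5I F) * e5I F = 1 := by
      rw [neg_mul, ← pow_two, Cfsg.Agent.Helper37.e5I_sq, neg_neg]
    obtain ⟨sI, hsI⟩ : ∃ sI : GL (Fin 2 ⊕ Fin 2) F,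
        sI = e5Unit C Ci hC2 hC1 (e5I F) (-e5I F) hII hII' := ⟨_, rfl⟩
    have hsIR : sI ∈ R := by
      refine (hRmem sI).mpr ⟨0, 1, 0, 0, 0, ?_⟩
      rw [hsI, e5Unit_sand]
      simp [e5W]
    have hsI2 : (sI : Matrix (Fin 2 ⊕ Fin 2) (Fin 2 ⊕ Fin 2) F) ^ 2 = -1 := by
      rw [hsI, e5Unit_pow, Cfsg.Agent.Helper37.e5I_sq, Matrix.mul_neg, Matrix.neg_mul,
        Matrix.mul_one, hC1]
    intro x hx ⟨z, hz⟩ hns
    rw [hr2] at hz
    have hzz := hz2 _ z ((hSp _).mp ((Cfsg.spGL 2 F).pow_mem hx 2)) hz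
    rw [Units.val_pow_eq_pow_val] at hz
    rcases hpm z hzz with h1 | h1
    · rw [h1, one_smul] at hz
      obtain ⟨Bx, Bxi, hb1, hb2, hb3, hb4⟩ := Cfsg.Agent.Helper11.e5_canon_inv_one h2F
        (x : Matrix (Fin 2 ⊕ Fin 2) (Fin 2 ⊕ Fin 2) F) ((hSp x).mp hx) hz hns
      obtain ⟨By, Byi, hc1, hc2, hc3, hc4⟩ := Cfsg.Agent.Helper11.e5_canon_inv_one h2F
        (sZ : Matrix (Fin 2 ⊕ Fin 2) (Fin 2 ⊕ Fin 2) F) ((hSp sZ).mp (hRf hsZR)) hsZ2 hsZns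
      obtain ⟨g, hg, hgx⟩ := Cfsg.Agent.Helper72.e5_sp_conj x sZ (e4Z1 F) (e5GA F) Bx By Bxi Byi
        hb1 hb2 hc1 hc2 hb3 hc3 hb4 hc4
      exact ⟨g, hg, by rw [hgx]; exact hRN hsZR⟩
    · rw [h1, neg_smul, one_smul] at hz
      obtain ⟨Bx, Bxi, hb1, hb2, hb3, hb4⟩ := Cfsg.Agent.Helper3.e5_canon_inv_neg h2F
        (x : Matrix (Fin 2 ⊕ Fin 2) (Fin 2 ⊕ Fin 2) F) ((hSp x).mp hx) hz
      obtain ⟨By, Byi, hc1, hc2, hc3, hc4⟩ := Cfsg.Agent.Helper3.e5_canon_inv_neg h2F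
        (sI : Matrix (Fin 2 ⊕ Fin 2) (Fin 2 ⊕ Fin 2) F) ((hSp sI).mp (hRf hsIR)) hsI2
      obtain ⟨g, hg, hgx⟩ := Cfsg.Agent.Helper72.e5_sp_conj x sI (e5NB F) (e5GA F) Bx By Bxi Byi
        hb1 hb2 hc1 hc2 hb3 hc3 hb4 hc4
      exact ⟨g, hg, by rw [hgx]; exact hRN hsIR⟩
  by_cases hr3 : r = 3
  · have hRHS : ¬ (r = 2 ∨ (r = 5 ∧ orderOf (p : ZMod 5) = 4)) := by
      rintro (h | ⟨h, -⟩)
      · exact hr2 h
      · omega
    refine iff_of_false ?_ hRHS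
    intro h
    obtain ⟨X, hXS, hX3, hXns, htr, hrank⟩ := Cfsg.Agent.Helper20.e5_bad_three (F := F)
    rw [← hr3] at hX3
    obtain ⟨g, -, hhyp, h3, -⟩ := hneg X hXS hX3 hXns hr2 h
    by_cases h3F : (3 : F) = 0
    · obtain ⟨μ, u, w, hXe⟩ := hrank h3F
      exact hhyp μ _ _ (e5_conj_rank_one g X μ u w hXe)
    · exact htr h3F (h3 hr3)
  by_cases hr5 : r = 5
  · have hord := Cfsg.Agent.Helper73.e4_orderOf_five p
    by_cases hp5' : p % 5 = 2 ∨ p % 5 = 3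
    · have hord4 : orderOf (p : ZMod 5) = 4 := hord.mpr hp5'
      refine iff_of_true ?_ (Or.inr ⟨hr5, hord4⟩)
      have hY5 := Cfsg.Agent.Helper14.e5Y_pow h2F a b hab
      have hYY : e5Y a b * e5Y a b ^ 4 = 1 := by rw [← pow_succ', hY5]
      have hYY' : e5Y a b ^ 4 * e5Y a b = 1 := by rw [← pow_succ, hY5]
      obtain ⟨yY, hyY⟩ : ∃ yY : GL (Fin 2 ⊕ Fin 2) F,
          yY = e5Unit C Ci hC2 hC1 (e5Y a b) (e5Y a b ^ 4) hYY hYY' := ⟨_, rfl⟩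
      have hyY5m : (yY : Matrix (Fin 2 ⊕ Fin 2) (Fin 2 ⊕ Fin 2) F) ^ 5 = 1 := by
        rw [hyY, e5Unit_pow, hY5, Matrix.mul_one, hC1]
      have hyY5 : yY ^ 5 = 1 := Units.ext (by rw [Units.val_pow_eq_pow_val, hyY5m, Units.val_one])
      have hyYinv : yY⁻¹ = yY ^ 4 := by
        apply inv_eq_of_mul_eq_one_right
        rw [← pow_succ', hyY5]
      have hyYsand : ∀ k : ℕ, Ci * ((yY ^ k : GL (Fin 2 ⊕ Fin 2) F) :
          Matrix (Fin 2 ⊕ Fin 2) (Fin 2 ⊕ Fin 2) F) * C = e5Y a b ^ k := by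
        intro k
        rw [Units.val_pow_eq_pow_val, hyY, e5Unit_pow, e5_sand_val C Ci hC2]
      have hfw : ∀ h ∈ R, yY * h * yY⁻¹ ∈ R := by
        intro h hh
        obtain ⟨s, α, β, γ, δ, hw⟩ := (hRmem h).mp hh
        obtain ⟨s', α', β', γ', δ', hw'⟩ :=
          Cfsg.Agent.Helper14.e5Y_word h2F a b hab s α β γ δ
        refine (hRmem _).mpr ⟨s', α', β', γ', δ', ?_⟩
        have h1 := hyYsand 1
        rw [pow_one, pow_one] at h1
        rw [Units.val_mul, Units.val_mul, e5_sand_mul C Ci hC1, e5_sand_mul C Ci hC1, hw, h1,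
          hyYinv, hyYsand 4, hw', mul_assoc, hYY, mul_one]
      have hfwn : ∀ k : ℕ, ∀ h ∈ R, yY ^ k * h * (yY ^ k)⁻¹ ∈ R := by
        intro k
        induction k with
        | zero =>
          intro h hh
          simpa using hh
        | succ k ih =>
          intro h hh
          have h1 := hfw _ (ih h hh)
          have e : yY ^ (k + 1) * h * (yY ^ (k + 1))⁻¹ = yY * (yY ^ k * h * (yY ^ k)⁻¹) * yY⁻¹ := by
            rw [pow_succ']
            group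
          rw [e]
          exact h1
      have hyN : yY ∈ subgroupNormalizer R := by
        show yY ∈ Subgroup.normalizer (R : Set (GL (Fin 2 ⊕ Fin 2) F))
        rw [Subgroup.mem_normalizer_iff]
        intro h
        constructor
        · exact hfw h
        · intro hh
          have h1 := hfwn 4 _ hh
          have e : yY ^ 4 * (yY * h * yY⁻¹) * (yY ^ 4)⁻¹ = h := by
            rw [← hyYinv]
            group
          rw [e] at h1
          exact h1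
      obtain ⟨c, hc⟩ := Cfsg.Agent.Helper11.e5_form_unique R hRi hRf yY hyN
      have hck : ∀ k : ℕ, ((yY : Matrix (Fin 2 ⊕ Fin 2) (Fin 2 ⊕ Fin 2) F) ^ k)ᵀ *
          Matrix.J (Fin 2) F * (yY : Matrix (Fin 2 ⊕ Fin 2) (Fin 2 ⊕ Fin 2) F) ^ k =
          c ^ k • Matrix.J (Fin 2) F := by
        intro k
        induction k with
        | zero => simp
        | succ k ih =>
          rw [pow_succ, Matrix.transpose_mul]
          have e : (yY : Matrix (Fin 2 ⊕ Fin 2) (Fin 2 ⊕ Fin 2) F)ᵀ *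
              ((yY : Matrix (Fin 2 ⊕ Fin 2) (Fin 2 ⊕ Fin 2) F) ^ k)ᵀ * Matrix.J (Fin 2) F *
              ((yY : Matrix (Fin 2 ⊕ Fin 2) (Fin 2 ⊕ Fin 2) F) ^ k *
                (yY : Matrix (Fin 2 ⊕ Fin 2) (Fin 2 ⊕ Fin 2) F)) =
              (yY : Matrix (Fin 2 ⊕ Fin 2) (Fin 2 ⊕ Fin 2) F)ᵀ *
              (((yY : Matrix (Fin 2 ⊕ Fin 2) (Fin 2 ⊕ Fin 2) F) ^ k)ᵀ * Matrix.J (Fin 2) F *
              (yY : Matrix (Fin 2 ⊕ Fin 2) (Fin 2 ⊕ Fin 2) F) ^ k) *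
                (yY : Matrix (Fin 2 ⊕ Fin 2) (Fin 2 ⊕ Fin 2) F) := by
            simp only [Matrix.mul_assoc]
          rw [e, ih, Matrix.mul_smul, Matrix.smul_mul, hc, smul_smul, ← pow_succ]
      have hc5 : c ^ 5 = 1 := by
        have h1 := hck 5
        rw [hyY5m, Matrix.transpose_one, Matrix.one_mul, Matrix.mul_one] at h1
        have h2 := congrFun (congrFun h1 (Sum.inl 0)) (Sum.inr 0)
        rw [Matrix.smul_apply, hJne, smul_eq_mul] at h2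
        linear_combination h2
      have hc1 : c = 1 := by
        have hc0 : c ≠ 0 := by
          intro h0
          rw [h0] at hc5
          simp at hc5
        have hcp : c ^ (p - 1) = 1 := by
          have := FiniteField.pow_card_sub_one_eq_one c hc0
          rwa [hF] at this
        have hcop : Nat.Coprime 5 (p - 1) := by
          rw [Nat.Prime.coprime_iff_not_dvd (by norm_num)]
          omega
        exact (pow_eq_one_iff_of_coprime hcop).mp ⟨hc5, hcp⟩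
      have hyYS : yY ∈ Cfsg.spGL 2 F := (hSp yY).mpr (by rw [hc, hc1, one_smul])
      have hyYns : ∀ c' : F, (yY : Matrix (Fin 2 ⊕ Fin 2) (Fin 2 ⊕ Fin 2) F) ≠ c' • 1 := by
        intro c' hc'
        have h1 := hyYsand 1
        rw [pow_one, pow_one, hc', Matrix.mul_smul, Matrix.smul_mul, Matrix.mul_one, hC2] at h1
        exact Cfsg.Agent.Helper14.e5Y_ne h2F a b c' h1.symm
      have hyYne1 : (yY : Matrix (Fin 2 ⊕ Fin 2) (Fin 2 ⊕ Fin 2) F) ≠ 1 :=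
        fun h => hyYns 1 (by rw [h, one_smul])
      have hconj5 : ∀ x₁ ∈ Cfsg.spGL 2 F,
          (x₁ : Matrix (Fin 2 ⊕ Fin 2) (Fin 2 ⊕ Fin 2) F) ^ 5 = 1 →
          (x₁ : Matrix (Fin 2 ⊕ Fin 2) (Fin 2 ⊕ Fin 2) F) ≠ 1 →
          ∃ g ∈ Cfsg.spGL 2 F, g⁻¹ * x₁ * g = yY := by
        intro x₁ hx₁ h5 h1
        obtain ⟨Bx, Bxi, hb1, hb2, hb3, hb4⟩ := Cfsg.Agent.Helper83.e5_canon_five hF hp5'
          (x₁ : Matrix (Fin 2 ⊕ Fin 2) (Fin 2 ⊕ Fin 2) F) ((hSp x₁).mp hx₁) h5 h1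
        obtain ⟨By, Byi, hc1, hc2, hc3, hc4⟩ := Cfsg.Agent.Helper83.e5_canon_five hF hp5'
          (yY : Matrix (Fin 2 ⊕ Fin 2) (Fin 2 ⊕ Fin 2) F) ((hSp yY).mp hyYS) hyY5m hyYne1
        exact Cfsg.Agent.Helper72.e5_sp_conj x₁ yY (e5C F) (e5G F) Bx By Bxi Byi
          hb1 hb2 hc1 hc2 hb3 hc3 hb4 hc4
      intro x hx ⟨z, hz⟩ hns
      rw [hr5] at hz
      have hzz := hz2 _ z ((hSp _).mp ((Cfsg.spGL 2 F).pow_mem hx 5)) hz
      rw [Units.val_pow_eq_pow_val] at hz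
      rcases hpm z hzz with h1 | h1
      · rw [h1, one_smul] at hz
        obtain ⟨g, hg, hgx⟩ := hconj5 x hx hz (fun h => hns 1 (by rw [h, one_smul]))
        exact ⟨g, hg, by rw [hgx]; exact hyN⟩
      · rw [h1, neg_smul, one_smul] at hz
        have hnx5 : ((-x : GL (Fin 2 ⊕ Fin 2) F) : Matrix (Fin 2 ⊕ Fin 2) (Fin 2 ⊕ Fin 2) F) ^ 5
            = 1 := by
          rw [Units.val_neg, Odd.neg_pow (by decide), hz, neg_neg]
        have hnx1 : ((-x : GL (Fin 2 ⊕ Fin 2) F) : Matrix (Fin 2 ⊕ Fin 2) (Fin 2 ⊕ Fin 2) F)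
            ≠ 1 := by
          intro h
          apply hns (-1)
          rw [Units.val_neg] at h
          rw [neg_smul, one_smul, ← h, neg_neg]
        have hnxS : -x ∈ Cfsg.spGL 2 F := by
          have h := (Cfsg.spGL 2 F).mul_mem hnegS hx
          rwa [neg_one_mul] at h
        obtain ⟨g, hg, hgx⟩ := hconj5 (-x) hnxS hnx5 hnx1
        refine ⟨g, hg, ?_⟩
        have e : g⁻¹ * x * g = -1 * yY := by
          rw [← hgx]
          simp [mul_neg, neg_mul]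
        rw [e]
        exact (subgroupNormalizer R).mul_mem (hRN hnegR) hyN
    · have hRHS : ¬ (r = 2 ∨ (r = 5 ∧ orderOf (p : ZMod 5) = 4)) := by
        rintro (h | ⟨-, h⟩)
        · exact hr2 h
        · exact hp5' (hord.mp h)
      refine iff_of_false ?_ hRHS
      intro h
      by_cases hp50 : p % 5 = 0
      · have hp5eq : p = 5 := by
          have h3 : 5 ∣ p := Nat.dvd_of_mod_eq_zero hp50
          exact ((Nat.prime_dvd_prime_iff_eq (by norm_num) hpP).mp h3).symm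
        have h5F : (5 : F) = 0 := by
          have h1 : ((5 : ℕ) : F) = 0 := by
            rw [CharP.cast_eq_zero_iff F p, hp5eq]
          exact_mod_cast h1
        obtain ⟨X, hXS, hX5, hXns, μ, u, w, hXe⟩ :=
          Cfsg.Agent.Helper37.e5_bad_five_char (F := F) h5F
        rw [← hr5] at hX5
        obtain ⟨g, -, hhyp, -, -⟩ := hneg X hXS hX5 hXns hr2 h
        exact hhyp μ _ _ (e5_conj_rank_one g X μ u w hXe)
      · have hcases : p % 5 = 1 ∨ p % 5 = 4 := by omega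
        have h5F : (5 : F) ≠ 0 := by
          intro h0
          have h1 : ((5 : ℕ) : F) = 0 := by exact_mod_cast h0
          rw [CharP.cast_eq_zero_iff F p] at h1
          have h2 := (Nat.prime_dvd_prime_iff_eq hpP (by norm_num)).mp h1
          omega
        obtain ⟨t, ht⟩ := Cfsg.Agent.Helper66.e5_exists_golden hF hodd hcases
        obtain ⟨X, hXS, hX5, hXns, htr⟩ :=
          Cfsg.Agent.Helper37.e5_bad_five_golden h5F t ht
        rw [← hr5] at hX5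
        obtain ⟨g, -, -, -, h5⟩ := hneg X hXS hX5 hXns hr2 h
        exact htr (h5 hr5)
  · -- r ≥ 7: both sides are false
    have hRHS : ¬ (r = 2 ∨ (r = 5 ∧ orderOf (p : ZMod 5) = 4)) := by
      rintro (h | ⟨h, -⟩)
      · exact hr2 h
      · exact hr5 h
    refine iff_of_false ?_ hRHS
    intro h
    have hcard : r ∣ Nat.card ↥(Cfsg.spGL 2 F) :=
      hΩ.trans (Subgroup.relIndex_dvd_card _ _)
    obtain ⟨x, hx⟩ := exists_prime_orderOf_dvd_card' (G := ↥(Cfsg.spGL 2 F)) r hcard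
    have hxr : (x : GL (Fin 2 ⊕ Fin 2) F) ^ r = 1 := by
      have h1 : x ^ r = 1 := by rw [← hx]; exact pow_orderOf_eq_one x
      have h2 := congrArg Subtype.val h1
      exact h2
    have hxns : ∀ z : F, ((x : GL (Fin 2 ⊕ Fin 2) F) : Matrix (Fin 2 ⊕ Fin 2) (Fin 2 ⊕ Fin 2) F) ≠
        z • (1 : Matrix (Fin 2 ⊕ Fin 2) (Fin 2 ⊕ Fin 2) F) := by
      intro z hz
      have hzz := hz2 _ z ((hSp _).mp x.2) hz
      have hzr : z ^ r = 1 := by
        have h1 := congrArg (fun g : GL (Fin 2 ⊕ Fin 2) F =>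
          (g : Matrix (Fin 2 ⊕ Fin 2) (Fin 2 ⊕ Fin 2) F)) hxr
        simp only [Units.val_pow_eq_pow_val, Units.val_one] at h1
        rw [hz, smul_pow, one_pow] at h1
        have h2 := congrFun (congrFun h1 (Sum.inl 0)) (Sum.inl 0)
        simpa using h2
      have hcop : Nat.Coprime 2 r := by
        rw [Nat.coprime_primes Nat.prime_two hrP]
        exact Ne.symm hr2
      have hz1 : z = 1 := (pow_eq_one_iff_of_coprime hcop).mp ⟨hzz, hzr⟩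
      have hx1 : (x : GL (Fin 2 ⊕ Fin 2) F) = 1 := by
        apply Units.ext
        rw [hz, hz1, one_smul, Units.val_one]
      have hx1' : x = 1 := Subtype.ext hx1
      rw [hx1', orderOf_one] at hx
      exact hrP.one_lt.ne hx
    obtain ⟨g, h35, -, -, -⟩ := hneg x x.2 hxr hxns hr2 h
    rcases h35 with h3 | h5
    · exact hr3 h3
    · exact hr5 h5

end Cfsg.Agent.Helper69
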