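import Mathlib
import Cfsg.Agent.Helper52.K2B2b2

/-!
# Matrix units and freeness over the centre (PIECE D of CALL S4648, helper69)
-/

set_option autoImplicit false
set_option linter.unusedVariables false
set_option linter.unusedSectionVars false

universe u v w

namespace Cfsg.Agent.Helper69

section kulD
variable {k : Type v} [Field k] {A : Type u} [Ring A] [Algebra k A]

theorem kul_mul_single_mul {n : ℕ} (M M' : Matrix (Fin n) (Fin n) k) (o s t : Fin n) :
    (M * Matrix.single o o (1 : k) * M') s t = M s o * M' o t := by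
  rw [Matrix.mul_apply, Finset.sum_eq_single o]
  · rw [Matrix.mul_single_apply_same, mul_one]
  · intro u _ hu
    rw [Matrix.mul_single_apply_of_ne (1 : k) o o s u hu M, zero_mul]
  · intro h
    exact absurd (Finset.mem_univ _) h

/-- the matrix units `ε bᵢ aⱼ ε = δᵢⱼ ε`. -/
theorem kul_matrix_units (n : ℕ) (hn : 0 < n)
    (g : A →ₐ[k] Matrix (Fin n) (Fin n) k)
    (N : ℕ) (hN : ∀ l : List A, l.length = N → (∀ x ∈ l, g x = 0) → l.prod = 0)
    (ε : A) (a b : Fin n → A) (hε : ε * ε = ε)
    (hgε : g ε = Matrix.single (⟨0, hn⟩ : Fin n) (⟨0, hn⟩ : Fin n) (1 : k))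
    (hab : ∑ i, a i * ε * b i = 1) (i j : Fin n) :
    ε * b i * a j * ε = if i = j then ε else 0 := by
  classical
  set o : Fin n := ⟨0, hn⟩ with ho
  -- step (2)
  have hBA : ∀ i j, g (b i * a j) o o = if i = j then 1 else 0 := by
    let V : Matrix (Fin n) (Fin n) k := Matrix.of fun s i => g (a i) s o
    let W : Matrix (Fin n) (Fin n) k := Matrix.of fun i t => g (b i) o t
    have hVW : V * W = 1 := by
      have h1 := congrArg g hab
      rw [map_sum, map_one] at h1
      ext s t
      rw [← h1, Matrix.mul_apply, Matrix.sum_apply]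
      apply Finset.sum_congr rfl
      intro i _
      rw [map_mul, map_mul, hgε, kul_mul_single_mul]
      rfl
    have hWV : W * V = 1 := mul_eq_one_comm.1 hVW
    intro i j
    have h2 := congrFun (congrFun hWV i) j
    rw [Matrix.one_apply, Matrix.mul_apply] at h2
    rw [map_mul, Matrix.mul_apply]
    exact h2
  -- the submodule `K = ker g`
  set K : Submodule k A := LinearMap.ker g.toLinearMap with hK
  have hKN : K ^ N = ⊥ := by
    apply Helper52.k2_pow_eq_bot K N
    intro l hl hx
    apply hN l hl
    intro x hx'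
    exact LinearMap.mem_ker.1 (hx x hx')
  -- matrices over `A`
  let D : Matrix (Fin n) (Fin n) A := Matrix.of fun i j => ε * b i * a j * ε
  let Eε : Matrix (Fin n) (Fin n) A := Matrix.diagonal (fun _ : Fin n => ε)
  have hDapp : ∀ i j, D i j = ε * b i * a j * ε := fun i j => rfl
  have h1 : Eε * Eε = Eε := by
    show Matrix.diagonal (fun _ : Fin n => ε) * Matrix.diagonal (fun _ : Fin n => ε)
      = Matrix.diagonal (fun _ : Fin n => ε)
    rw [Matrix.diagonal_mul_diagonal]
    simp only [hε]
  have h2 : Eε * D = D := by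
    ext i j
    show (Matrix.diagonal (fun _ : Fin n => ε) * D) i j = D i j
    rw [Matrix.diagonal_mul, hDapp]
    simp only [← mul_assoc, hε]
  have h3 : D * Eε = D := by
    ext i j
    show (D * Matrix.diagonal (fun _ : Fin n => ε)) i j = D i j
    rw [Matrix.mul_diagonal, hDapp, mul_assoc, hε]
  have h4 : D * D = D := by
    ext i l
    rw [Matrix.mul_apply]
    have e : ∀ j, D i j * D j l = ε * b i * (a j * ε * b j) * (a l * ε) := by
      intro j
      rw [hDapp, hDapp]
      simp only [mul_assoc]
      rw [← mul_assoc ε ε, hε]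
    rw [Finset.sum_congr rfl (fun j _ => e j), ← Finset.sum_mul, ← Finset.mul_sum, hab, mul_one,
      hDapp, ← mul_assoc]
  have hFF : (Eε - D) * (Eε - D) = Eε - D := by
    rw [sub_mul, mul_sub, mul_sub, h1, h2, h3, h4]
    abel
  have hFK : ∀ i j, (Eε - D) i j ∈ K := by
    intro i j
    rw [hK, LinearMap.mem_ker]
    show g ((Eε - D) i j) = 0
    rw [Matrix.sub_apply]
    show g (Matrix.diagonal (fun _ : Fin n => ε) i j - D i j) = 0
    rw [Matrix.diagonal_apply, hDapp, map_sub]
    have e : g (ε * b i * a j * ε) = if i = j then g ε else 0 := by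
      have e1 : ε * b i * a j * ε = ε * (b i * a j) * ε := by simp only [mul_assoc]
      rw [e1, map_mul, map_mul, hgε, Matrix.single_mul_mul_single, hBA, one_mul, mul_one]
      by_cases hij : i = j
      · rw [if_pos hij, if_pos hij]
      · rw [if_neg hij, if_neg hij, Matrix.single_zero]
    rw [e]
    by_cases hij : i = j
    · rw [if_pos hij, if_pos hij, sub_self]
    · rw [if_neg hij, if_neg hij, map_zero, sub_self]
  have hpow : ∀ m : ℕ, ∀ i l, (Eε - D) i l ∈ K ^ (m + 1) := by
    intro m
    induction m with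
    | zero =>
      intro i l
      rw [zero_add, pow_one]
      exact hFK i l
    | succ m ih =>
      intro i l
      rw [← hFF, Matrix.mul_apply, pow_succ]
      apply Submodule.sum_mem
      intro j _
      exact Submodule.mul_mem_mul (ih i j) (hFK j l)
  have hF0 : (Eε - D) i j = 0 := by
    rcases Nat.eq_zero_or_pos N with h0 | hpos
    · have h10 : (1 : A) = 0 := by
        have := hN [] (by simp [h0]) (by simp)
        simpa using this
      have : ∀ z : A, z = 0 := by
        intro z
        rw [← mul_one z, h10, mul_zero]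
      exact this _
    · obtain ⟨m, rfl⟩ : ∃ m, N = m + 1 := ⟨N - 1, by omega⟩
      have := hpow m i j
      rw [hKN] at this
      exact (Submodule.mem_bot k).1 this
  rw [Matrix.sub_apply] at hF0
  have hF0' : Matrix.diagonal (fun _ : Fin n => ε) i j - D i j = 0 := hF0
  rw [Matrix.diagonal_apply, hDapp, sub_eq_zero] at hF0'
  exact hF0'.symm

/-- **PIECE D of CALL S4648**. -/
theorem kul_free [FiniteDimensional k A] (n : ℕ) (hn : 0 < n)
    (g : A →ₐ[k] Matrix (Fin n) (Fin n) k)
    (N : ℕ) (hN : ∀ l : List A, l.length = N → (∀ x ∈ l, g x = 0) → l.prod = 0)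
    (ε : A) (a b : Fin n → A) (hε : ε * ε = ε)
    (hgε : g ε = Matrix.single (⟨0, hn⟩ : Fin n) (⟨0, hn⟩ : Fin n) (1 : k))
    (hab : ∑ i, a i * ε * b i = 1)
    (r : ℕ) (w : Fin r → A) (hw : ∀ i x, w i * x = x * w i) (hli : LinearIndependent k w) :
    r * n ^ 2 ≤ Module.finrank k A := by
  classical
  have hU := kul_matrix_units n hn g N hN ε a b hε hgε hab
  -- (4)
  have hcentral0 : ∀ z : A, (∀ y, z * y = y * z) → z * ε = 0 → z = 0 := by
    intro z hz hzε
    calc z = z * ∑ i, a i * ε * b i := by rw [hab, mul_one]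
      _ = ∑ i, a i * (z * ε) * b i := by
        rw [Finset.mul_sum]
        apply Finset.sum_congr rfl
        intro i _
        rw [← mul_assoc, ← mul_assoc, hz (a i), mul_assoc (a i) z ε]
      _ = 0 := by simp [hzε]
  -- (5)
  have hT : ∀ (j' l' : Fin n) (i : Fin r) (j l : Fin n),
      ε * b j' * (w i * (a j * ε * b l)) * (a l' * ε) = if j = j' ∧ l = l' then w i * ε else 0 := by
    intro j' l' i j l
    have e1 : ε * b j' * (w i * (a j * ε * b l)) * (a l' * ε)
        = w i * ((ε * b j' * a j * ε) * (ε * b l * a l' * ε)) := by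
      have e2 : ε * b j' * (w i * (a j * ε * b l)) = w i * (ε * b j' * (a j * ε * b l)) := by
        rw [← mul_assoc, ← hw i (ε * b j'), mul_assoc]
      rw [e2]
      simp only [mul_assoc]
      rw [← mul_assoc ε ε, hε]
    rw [e1, hU, hU]
    by_cases h1 : j = j'
    · by_cases h2 : l = l'
      · rw [if_pos h1.symm, if_pos h2, if_pos ⟨h1, h2⟩, hε]
      · rw [if_neg h2, mul_zero, mul_zero, if_neg (fun h => h2 h.2)]
    · rw [if_neg (fun h => h1 h.symm), zero_mul, mul_zero, if_neg (fun h => h1 h.1)]
  have hli' : LinearIndependent k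
      (fun x : Fin r × Fin n × Fin n => w x.1 * (a x.2.1 * ε * b x.2.2)) := by
    rw [Fintype.linearIndependent_iff]
    intro c hc x
    obtain ⟨i0, j', l'⟩ := x
    have h1 : ε * b j' * (∑ x : Fin r × Fin n × Fin n, c x • (w x.1 * (a x.2.1 * ε * b x.2.2)))
        * (a l' * ε) = 0 := by
      rw [hc, mul_zero, zero_mul]
    have h2 : ε * b j' * (∑ x : Fin r × Fin n × Fin n, c x • (w x.1 * (a x.2.1 * ε * b x.2.2)))
        * (a l' * ε) = (∑ i, c (i, j', l') • w i) * ε := by
      rw [Finset.mul_sum, Finset.sum_mul, Finset.sum_mul, Fintype.sum_prod_type]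
      apply Finset.sum_congr rfl
      intro i _
      rw [Finset.sum_eq_single (j', l')]
      · rw [mul_smul_comm, smul_mul_assoc, hT, if_pos ⟨rfl, rfl⟩, smul_mul_assoc]
      · intro y _ hy
        rw [mul_smul_comm, smul_mul_assoc, hT, if_neg, smul_zero]
        rintro ⟨h1, h2⟩
        exact hy (Prod.ext h1 h2)
      · intro h
        exact absurd (Finset.mem_univ _) h
    rw [h2] at h1
    have h3 : ∑ i, c (i, j', l') • w i = 0 := by
      apply hcentral0 _ _ h1
      intro y
      rw [Finset.sum_mul, Finset.mul_sum]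
      apply Finset.sum_congr rfl
      intro i _
      rw [smul_mul_assoc, hw, mul_smul_comm]
    exact Fintype.linearIndependent_iff.1 hli (fun i => c (i, j', l')) h3 i0
  have h := hli'.fintype_card_le_finrank
  have hcard : Fintype.card (Fin r × Fin n × Fin n) = r * n ^ 2 := by
    rw [Fintype.card_prod, Fintype.card_prod, Fintype.card_fin, Fintype.card_fin]
    ring
  rw [hcard] at h
  exact h

end kulD

end Cfsg.Agent.Helper69
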