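import Mathlib
import Cfsg.Agent.Helper96.OHDefs
import Cfsg.Agent.Helper31.OHOFIX
import Cfsg.Agent.Helper31.OHOGROW
import Cfsg.Agent.Helper96.OHCDVD
import Cfsg.Agent.Helper96.OHATOM
import Cfsg.Agent.Helper88.OHOTYPEEVEN
import Cfsg.Agent.Helper70.OHOSUB

set_option autoImplicit false
set_option linter.unusedSectionVars false
set_option linter.unusedVariables false

/-!
# CALL S5993, piece EGOOD (helper69): elliptic twin of OGOOD.
-/

namespace Cfsg.Agent.Helper69.OE5993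

open Module Polynomial Cfsg Cfsg.Geo
open Cfsg.Agent.Helper13.TIu Cfsg.Agent.Helper96.OH
open Cfsg.Agent.Helper31.OH5992 Cfsg.Agent.Helper96.OH5992 Cfsg.Agent.Helper88.OH5992
open Cfsg.Agent.Helper70.OH5992

variable {ι : Type} [Fintype ι] [DecidableEq ι] {F : Type*} [Field F] (Q : (ι → F) → F)

theorem egood_ord_pos [Fintype F] (r : ℕ) [Fact r.Prime] (hrF : (r : F) ≠ 0) :
    0 < orderOf ((Fintype.card F : ℕ) : ZMod r) := by
  have hr : r.Prime := Fact.out
  obtain ⟨n, hp, hcard⟩ := FiniteField.card F (ringChar F)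
  have hne : ((Fintype.card F : ℕ) : ZMod r) ≠ 0 := by
    intro h0
    rw [ZMod.natCast_eq_zero_iff] at h0
    rw [hcard] at h0
    have h1 := hr.dvd_of_dvd_pow h0
    have h2 := (Nat.prime_dvd_prime_iff_eq hr hp).mp h1
    apply hrF
    rw [h2]
    exact CharP.cast_eq_zero F (ringChar F)
  rw [orderOf_pos_iff, isOfFinOrder_iff_pow_eq_one]
  exact ⟨r - 1, Nat.sub_pos_of_lt hr.one_lt, ZMod.pow_card_sub_one_eq_one hne⟩

theorem oe_good [Fintype F] (hQ : IsNondegenerateQuadraticForm Q) (h2 : (2 : F) ≠ 0)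
    (T : Module.End F (ι → F)) (hT : OPres Q T) (r : ℕ) [Fact r.Prime] (hr2 : 2 < r)
    (hrF : (r : F) ≠ 0) (hTr : T ^ r = 1) (i c : ℕ)
    (hi : i = orderOf ((Fintype.card F : ℕ) : ZMod r)) (hc : c = if Even i then i else 2 * i)
    (m : ℕ) (hme : Even m) (hcm : c ≤ m) (hmn : m < Fintype.card ι)
    (hk : m % c < Fintype.card ι % c) (hty : 0 < m % c ∨ (Even i ∧ Odd (m / i))) :
    ∃ W : Submodule F (ι → F), (finrank F W = m ∧ ONd Q W ∧ ¬ OPl Q W) ∧ W.map T ≤ W := by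
  classical
  have hrpr : r.Prime := Fact.out
  have hipos : 0 < i := by rw [hi]; exact egood_ord_pos r hrF
  have hcpos : 0 < c := by
    rw [hc]; split_ifs <;> omega
  have hceven : Even c := by
    rw [hc]; split_ifs with h
    · exact h
    · exact even_two_mul i
  -- fixed space and its complement
  have htop : finrank F (⊤ : Submodule F (ι → F)) = Fintype.card ι := by
    rw [finrank_top, Module.finrank_fintype_fun_eq_card]
  have hfix0 := o_fix Q hQ T hT r hrpr.pos hrF hTr ⊤ le_top (ond_top Q hQ)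
  have hcd := o_cdvd Q hQ h2 T hT r hr2 hrF hTr i c hi hc ⊤ le_top (ond_top Q hQ)
  obtain ⟨Fix, hFixdef⟩ : ∃ Fix : Submodule F (ι → F), Fix = ⊤ ⊓ LinearMap.ker (T - 1) :=
    ⟨_, rfl⟩
  rw [← hFixdef] at hfix0 hcd
  rw [htop] at hfix0 hcd
  obtain ⟨hFix, P, -, hPT, hP, hPk, hsup, horth, hdim⟩ := hfix0
  obtain ⟨ρ, hρ⟩ := hcd
  have hPdim : finrank F P = c * ρ := by omega
  have hFixdim : finrank F Fix + c * ρ = Fintype.card ι := by omega
  -- atoms
  have hatom : ∀ N : Submodule F (ι → F), N ≤ P → N.map T ≤ N → ONd Q N → N ≠ ⊥ →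
      ∃ E : Submodule F (ι → F), E ≤ N ∧ E.map T ≤ E ∧ ONd Q E ∧ finrank F E = c := by
    intro N hNP hNT hN hN0
    have hNk : N ⊓ LinearMap.ker (T - 1) = ⊥ :=
      le_bot_iff.mp (hPk ▸ inf_le_inf_right _ hNP)
    exact o_atom Q hQ h2 T hT r hr2 hrF hTr i c hi hc N hNT hN hN0 hNk
  obtain ⟨h₁, hh₁⟩ : ∃ h₁ : ℕ, h₁ = min (m / c) ρ := ⟨_, rfl⟩
  have hh₁ρ : h₁ ≤ ρ := hh₁ ▸ min_le_right _ _
  have hh₁m : h₁ ≤ m / c := hh₁ ▸ min_le_left _ _
  have hh₁le : c * h₁ ≤ finrank F P := by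
    rw [hPdim]
    exact Nat.mul_le_mul_left c hh₁ρ
  obtain ⟨N₁, hN₁P, hN₁T, hN₁, hN₁dim⟩ :=
    o_grow Q hQ T hT r hrpr.pos hTr c hcpos P hatom P le_rfl hPT hP h₁ hh₁le
  have hN₁k : N₁ ⊓ LinearMap.ker (T - 1) = ⊥ :=
    le_bot_iff.mp (hPk ▸ inf_le_inf_right _ hN₁P)
  have hch₁m : c * h₁ ≤ m := by
    calc c * h₁ ≤ c * (m / c) := Nat.mul_le_mul_left c hh₁m
      _ ≤ m := Nat.mul_div_le m c
  have hN₁ev : Even (finrank F N₁) := by
    rw [hN₁dim]; exact hceven.mul_right h₁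
  rcases Nat.eq_zero_or_pos (m - c * h₁) with he0 | hepos
  · -- `m = c * h₁`
    have hm : m = c * h₁ := by omega
    have hmod : m % c = 0 := by rw [hm]; exact Nat.mul_mod_right c h₁
    rcases hty with h0 | ⟨hie, hodd⟩
    · omega
    · refine ⟨N₁, ⟨by rw [hN₁dim, hm], hN₁, ?_⟩, hN₁T⟩
      intro hpl
      have hev : Even (orderOf ((Fintype.card F : ℕ) : ZMod r)) := hi ▸ hie
      have h3 := (o_type_even Q hQ h2 T hT r hr2 hrF hTr hev N₁ hN₁T hN₁ hN₁k).mp hpl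
      rw [hN₁dim, ← hm, ← hi] at h3
      exact (Nat.not_even_iff_odd.mpr hodd) h3
  · -- `e₁ > 0`
    have he1lt : m - c * h₁ < finrank F Fix := by
      rcases le_or_gt (m / c) ρ with hle | hgt
      · have hh : h₁ = m / c := hh₁.trans (min_eq_left hle)
        have h5 : m - c * h₁ = m % c := by
          rw [hh]
          have := Nat.div_add_mod m c
          omega
        rw [h5]
        have h6 : Fintype.card ι % c = finrank F Fix % c := by
          rw [← hFixdim, Nat.add_mul_mod_self_left]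
        rw [h6] at hk
        exact lt_of_lt_of_le hk (Nat.mod_le _ _)
      · have hh : h₁ = ρ := hh₁.trans (min_eq_right hgt.le)
        rw [hh] at hepos ⊢
        omega
    have he1ev : Even (m - c * h₁) := by
      have h7 : Even (c * h₁) := hceven.mul_right h₁
      exact (Nat.even_sub hch₁m).mpr ⟨fun _ => h7, fun _ => hme⟩
    obtain ⟨X, hXF, hX, hXdim, hXty⟩ :=
      o_sub Q hQ h2 Fix hFix (m - c * h₁) he1ev hepos he1lt (¬ OPl Q N₁)
    have hXN : OOrth Q X N₁ := fun u hu v hv => horth u (hXF hu) v (hN₁P hv)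
    have hXev : Even (finrank F X) := by rw [hXdim]; exact he1ev
    refine ⟨X ⊔ N₁, ⟨?_, ?_, ?_⟩, ?_⟩
    · rw [Cfsg.Agent.Helper33.OType.finrank_sup_of_orth Q X N₁ hX hXN, hXdim, hN₁dim]
      omega
    · exact Cfsg.Agent.Helper33.OType.nondeg_sup Q hQ X N₁ hX hN₁ hXN
    · intro hpl
      have h8 := (Cfsg.Agent.Helper33.o_type_mul Q hQ X N₁ hX hN₁ hXN hXev hN₁ev).mp hpl
      by_cases h9 : OPl Q N₁
      · exact (hXty.mp (h8.mpr h9)) h9
      · exact h9 (h8.mp (hXty.mpr h9))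
    · rw [Submodule.map_sup]
      refine sup_le_sup ?_ hN₁T
      rintro _ ⟨x, hx, rfl⟩
      have hxk : x ∈ LinearMap.ker (T - 1) := (hFixdef ▸ hXF hx : x ∈ ⊤ ⊓ LinearMap.ker (T - 1)).2
      rw [LinearMap.mem_ker, LinearMap.sub_apply, Module.End.one_apply, sub_eq_zero] at hxk
      rw [hxk]
      exact hx

end Cfsg.Agent.Helper69.OE5993
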