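/-
helper69: SUB-CALL S4705B piece COL (helper82), double.
-/
import Mathlib
import Cfsg.Agent.Helper79.S4705Defs
import Cfsg.Agent.Helper79.Basic
import Cfsg.Agent.Helper15.B42Defs
import Cfsg.Agent.Helper91.B42STRONG
import Cfsg.Agent.Helper77.D1Final
import Cfsg.Agent.Helper80.CharIrr
import Cfsg.Agent.Helper80.CharOrtho
import Cfsg.Agent.Helper76.CentralChar

universe u
set_option autoImplicit false
open Cfsg Cfsg.Agent.Helper79 Cfsg.Agent.Helper77 Cfsg.Agent.Helper15
open scoped ComplexConjugate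

namespace Cfsg.Agent.Helper69

variable {H : Type u} [Group H] [Finite H]

omit [Finite H] in
/-- `|C(x)| = p |K|` under `D1Hyp`. -/
theorem col69_card_centralizer (p : ℕ) [Fact p.Prime] (x : H) (K : Subgroup H)
    (hKc : K ≤ Subgroup.center H) (h : D1Hyp p x K) :
    Nat.card (Subgroup.centralizer ({x} : Set H)) = p * Nat.card K := by
  classical
  have hpp : p.Prime := Fact.out
  have hcop : Nat.Coprime (Nat.card K) p := by
    rw [Nat.coprime_comm]; exact (Nat.Prime.coprime_iff_not_dvd hpp).2 h.hK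
  have hkx : ∀ k : K, (k : H) * x = x * (k : H) := fun k =>
    (Subgroup.mem_center_iff.1 (hKc k.2) x).symm
  have hkpow : ∀ k : K, (k : H) ^ Nat.card K = 1 := by
    intro k
    have := pow_card_eq_one' (G := K) (x := k)
    exact_mod_cast congrArg Subtype.val this
  have hmem : ∀ (i : Fin p) (k : K), x ^ (i : ℕ) * (k : H) ∈ Subgroup.centralizer ({x} : Set H) := by
    intro i k
    rw [Subgroup.mem_centralizer_iff]
    intro y hy
    rw [Set.mem_singleton_iff] at hy
    subst hy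
    rw [← mul_assoc, ← pow_succ', mul_assoc, hkx k, ← mul_assoc, ← pow_succ]
  have hbij : Function.Bijective (fun q : Fin p × K =>
      (⟨x ^ (q.1 : ℕ) * (q.2 : H), hmem q.1 q.2⟩ : Subgroup.centralizer ({x} : Set H))) := by
    constructor
    · rintro ⟨i, k⟩ ⟨j, k'⟩ hq
      have hq' : x ^ (i : ℕ) * (k : H) = x ^ (j : ℕ) * (k' : H) := congrArg Subtype.val hq
      have hcomm : ∀ (n : ℕ) (k : K), Commute (x ^ n) (k : H) := fun n k =>
        (show Commute x (k : H) from (hkx k).symm).pow_left n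
      have h1 : (x ^ (i : ℕ) * (k : H)) ^ Nat.card K = (x ^ (j : ℕ) * (k' : H)) ^ Nat.card K := by
        rw [hq']
      rw [(hcomm _ k).mul_pow, (hcomm _ k').mul_pow, hkpow, hkpow, mul_one, mul_one, ← pow_mul,
        ← pow_mul, pow_eq_pow_iff_modEq, h.hx] at h1
      have h2 : (i : ℕ) ≡ (j : ℕ) [MOD p] :=
        Nat.ModEq.cancel_right_of_coprime hcop.symm h1
      have h3 : (i : ℕ) = (j : ℕ) := by
        have := Nat.ModEq.eq_of_lt_of_lt h2 i.2 j.2
        exact this
      have hij : i = j := Fin.ext h3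
      subst hij
      have hkk : (k : H) = (k' : H) := mul_left_cancel hq'
      rw [Subtype.ext hkk]
    · rintro ⟨g, hg⟩
      rw [Subgroup.mem_centralizer_iff] at hg
      have hgx : g * x = x * g := (hg x rfl).symm
      obtain ⟨i, k, hk, rfl⟩ := (h.hC g).1 hgx
      refine ⟨(⟨i % p, Nat.mod_lt _ hpp.pos⟩, ⟨k, hk⟩), ?_⟩
      apply Subtype.ext
      show x ^ (i % p) * k = x ^ i * k
      rw [← h.hx, pow_mod_orderOf]
  rw [← Nat.card_eq_of_bijective _ hbij, Nat.card_prod, Nat.card_fin]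

/-- COL: column orthogonality twisted by the central character of `ζ₀`. -/
theorem s4705b_col (p : ℕ) [Fact p.Prime] (x : H) (h : D1Hyp p x (Subgroup.center H))
    (ζ₀ : Cfsg.IrrCharacter H) (T : Finset (Cfsg.IrrCharacter H))
    (hT : ∀ ξ : Cfsg.IrrCharacter H, ξ ∈ T ↔
      (S4705Over (ζ₀ : H → ℂ) (ξ : H → ℂ) ∧ (ξ : H → ℂ) x ≠ 0)) :
    (∀ g : H, ¬ p ∣ orderOf g → ∑ ξ ∈ T, (ξ : H → ℂ) g * conj ((ξ : H → ℂ) x) = 0) ∧
    ∑ ξ ∈ T, (ξ : H → ℂ) x * conj ((ξ : H → ℂ) x) = (p : ℂ) := by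
  classical
  let _ : Fintype H := Fintype.ofFinite H
  let _ : Fintype (Cfsg.IrrCharacter H) := Fintype.ofFinite _
  let _ : Fintype (Subgroup.center H) := Fintype.ofFinite _
  have hpp : p.Prime := Fact.out
  have hex := fun ξ : Cfsg.IrrCharacter H =>
    Cfsg.Agent.Helper76.exists_central_scalar (Subgroup.center H).subtype (fun z => z.2) ξ
  choose c hc using hex
  have hc' : ∀ (ξ : Cfsg.IrrCharacter H) (z : Subgroup.center H) (g : H),
      (ξ : H → ℂ) (g * (z : H)) = c ξ z * (ξ : H → ℂ) g := fun ξ z g => hc ξ z g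
  have hc1 : ∀ ξ : Cfsg.IrrCharacter H, c ξ 1 = 1 ∧ ∀ z w, c ξ (z * w) = c ξ z * c ξ w :=
    fun ξ => Cfsg.Agent.Helper76.scalar_mul _ (ξ : H → ℂ)
      (Cfsg.Agent.Helper76.irr_one_ne_zero ξ) (c ξ) (hc ξ)
  have hcn : ∀ (ξ : Cfsg.IrrCharacter H) (z : Subgroup.center H), c ξ z * conj (c ξ z) = 1 :=
    fun ξ z => Cfsg.Agent.Helper76.scalar_norm (c ξ) (hc1 ξ).1 (hc1 ξ).2 z
  have hover : ∀ ξ : Cfsg.IrrCharacter H,
      S4705Over (ζ₀ : H → ℂ) (ξ : H → ℂ) ↔ ∀ z, c ξ z = c ζ₀ z := by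
    intro ξ
    have hξ1 := Cfsg.Agent.Helper76.irr_one_ne_zero ξ
    have hζ1 := Cfsg.Agent.Helper76.irr_one_ne_zero ζ₀
    constructor
    · intro hov z
      have h1 := hov z z.2
      have h2 := hc' ξ z 1
      have h3 := hc' ζ₀ z 1
      rw [one_mul] at h2 h3
      rw [h2, h3] at h1
      have h4 : (c ξ z - c ζ₀ z) * ((ξ : H → ℂ) 1 * (ζ₀ : H → ℂ) 1) = 0 := by
        linear_combination h1
      rcases mul_eq_zero.1 h4 with h5 | h5
      · exact sub_eq_zero.1 h5
      · exact absurd h5 (mul_ne_zero hξ1 hζ1)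
    · intro hall z hz
      have h2 := hc' ξ ⟨z, hz⟩ 1
      have h3 := hc' ζ₀ ⟨z, hz⟩ 1
      rw [one_mul] at h2 h3
      have h2' : (ξ : H → ℂ) z = c ξ ⟨z, hz⟩ * (ξ : H → ℂ) 1 := h2
      have h3' : (ζ₀ : H → ℂ) z = c ζ₀ ⟨z, hz⟩ * (ζ₀ : H → ℂ) 1 := h3
      rw [h2', h3', hall]; ring
  have key : ∀ g : H, ∑ z : Subgroup.center H, conj (c ζ₀ z) *
      ∑ ξ : Cfsg.IrrCharacter H, (ξ : H → ℂ) (g * (z : H)) * conj ((ξ : H → ℂ) x)
      = (Nat.card (Subgroup.center H) : ℂ) *
        ∑ ξ ∈ T, (ξ : H → ℂ) g * conj ((ξ : H → ℂ) x) := by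
    intro g
    have h1 : ∀ z : Subgroup.center H, conj (c ζ₀ z) *
        ∑ ξ : Cfsg.IrrCharacter H, (ξ : H → ℂ) (g * (z : H)) * conj ((ξ : H → ℂ) x)
        = ∑ ξ : Cfsg.IrrCharacter H, (c ξ z * conj (c ζ₀ z)) *
          ((ξ : H → ℂ) g * conj ((ξ : H → ℂ) x)) := by
      intro z
      rw [Finset.mul_sum]
      apply Finset.sum_congr rfl
      intro ξ _
      rw [hc' ξ z g]; ring
    rw [Finset.sum_congr rfl (fun z _ => h1 z), Finset.sum_comm]
    have h2 : ∀ ξ : Cfsg.IrrCharacter H,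
        ∑ z : Subgroup.center H, (c ξ z * conj (c ζ₀ z)) *
          ((ξ : H → ℂ) g * conj ((ξ : H → ℂ) x))
        = if ξ ∈ T then (Nat.card (Subgroup.center H) : ℂ) *
            ((ξ : H → ℂ) g * conj ((ξ : H → ℂ) x)) else 0 := by
      intro ξ
      rw [← Finset.sum_mul]
      by_cases hov : S4705Over (ζ₀ : H → ℂ) (ξ : H → ℂ)
      · have hall := (hover ξ).1 hov
        have hsum : ∑ z : Subgroup.center H, c ξ z * conj (c ζ₀ z)
            = (Nat.card (Subgroup.center H) : ℂ) := by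
          rw [Finset.sum_congr rfl (fun z _ => by rw [hall z, hcn ζ₀ z])]
          simp [Nat.card_eq_fintype_card]
        by_cases hx0 : (ξ : H → ℂ) x = 0
        · rw [if_neg (fun hm => ((hT ξ).1 hm).2 hx0), hx0]; simp
        · rw [if_pos ((hT ξ).2 ⟨hov, hx0⟩), hsum]
      · rw [if_neg (fun hm => hov ((hT ξ).1 hm).1)]
        rcases Cfsg.Agent.Helper76.sum_scalar_dichotomy (c ξ) (c ζ₀) (hc1 ξ).2 (hc1 ζ₀).2
          (hcn ζ₀) with h0 | hall
        · rw [h0, zero_mul]
        · exact absurd ((hover ξ).2 hall) hov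
    rw [Finset.sum_congr rfl (fun ξ _ => h2 ξ), ← Finset.sum_filter, Finset.mul_sum]
    apply Finset.sum_congr
    · ext ξ; simp
    · intros; rfl
  have hZ0 : (Nat.card (Subgroup.center H) : ℂ) ≠ 0 := by exact_mod_cast Nat.card_pos.ne'
  have hord : ∀ a b : H, IsConj a b → orderOf a = orderOf b := by
    intro a b hab
    obtain ⟨y, hy⟩ := isConj_iff.1 hab
    rw [← hy]
    exact (orderOf_injective (MulAut.conj y).toMonoidHom (MulAut.conj y).injective a).symm
  have hzpow : ∀ z : Subgroup.center H, (z : H) ^ Nat.card (Subgroup.center H) = 1 := by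
    intro z
    have := pow_card_eq_one' (G := Subgroup.center H) (x := z)
    exact_mod_cast congrArg Subtype.val this
  have hzcomm : ∀ (g : H) (z : Subgroup.center H), Commute g (z : H) := fun g z =>
    (Subgroup.mem_center_iff.1 z.2 g)
  constructor
  · intro g hg
    have hk := key g
    have hzero : ∀ z : Subgroup.center H,
        ∑ ξ : Cfsg.IrrCharacter H, (ξ : H → ℂ) (g * (z : H)) * conj ((ξ : H → ℂ) x) = 0 := by
      intro z
      apply Cfsg.Agent.Helper80.irr_column_orthogonality_of_not_isConj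
      intro hconj
      have ho : orderOf (g * (z : H)) = p := by rw [hord _ _ hconj]; exact h.hx
      have h1 : (g * (z : H)) ^ (orderOf g * Nat.card (Subgroup.center H)) = 1 := by
        rw [(hzcomm g z).mul_pow, pow_mul, pow_orderOf_eq_one, one_pow, mul_comm (orderOf g),
          pow_mul, hzpow, one_pow, mul_one]
      have h2 : p ∣ orderOf g * Nat.card (Subgroup.center H) := by
        rw [← ho]; exact orderOf_dvd_of_pow_eq_one h1
      rcases (Nat.Prime.dvd_mul hpp).1 h2 with h3 | h3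
      · exact hg h3
      · exact h.hK h3
    rw [Finset.sum_congr rfl (fun z _ => by rw [hzero z, mul_zero]), Finset.sum_const_zero] at hk
    exact (mul_eq_zero.1 hk.symm).resolve_left hZ0
  · have hk := key x
    have hz1 : ∀ z : Subgroup.center H, z ≠ 1 →
        ∑ ξ : Cfsg.IrrCharacter H, (ξ : H → ℂ) (x * (z : H)) * conj ((ξ : H → ℂ) x) = 0 := by
      intro z hz
      apply Cfsg.Agent.Helper80.irr_column_orthogonality_of_not_isConj
      intro hconj
      have ho : orderOf (x * (z : H)) = p := by rw [hord _ _ hconj]; exact h.hx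
      have h1 : (x * (z : H)) ^ p = 1 := by rw [← ho]; exact pow_orderOf_eq_one _
      rw [(hzcomm x z).mul_pow, ← h.hx, pow_orderOf_eq_one, one_mul, h.hx] at h1
      have h2 : orderOf (z : H) ∣ p := orderOf_dvd_of_pow_eq_one h1
      have h3 : orderOf (z : H) ∣ Nat.card (Subgroup.center H) :=
        orderOf_dvd_of_pow_eq_one (hzpow z)
      rcases (Nat.dvd_prime hpp).1 h2 with h4 | h4
      · apply hz
        apply Subtype.ext
        exact orderOf_eq_one_iff.1 h4
      · rw [h4] at h3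
        exact h.hK h3
    have hone : ∑ ξ : Cfsg.IrrCharacter H, (ξ : H → ℂ) (x * ((1 : Subgroup.center H) : H)) *
        conj ((ξ : H → ℂ) x) = (Nat.card (Subgroup.centralizer ({x} : Set H)) : ℂ) := by
      have : x * ((1 : Subgroup.center H) : H) = x := by simp
      rw [this]
      exact Cfsg.Agent.Helper80.irr_column_orthogonality_of_isConj (IsConj.refl x)
    rw [Finset.sum_eq_single (1 : Subgroup.center H) (fun z _ hz => by rw [hz1 z hz, mul_zero])
      (fun hh => absurd (Finset.mem_univ _) hh), hone, (hc1 ζ₀).1, map_one, one_mul,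
      col69_card_centralizer p x (Subgroup.center H) le_rfl h] at hk
    have h5 : (Nat.card (Subgroup.center H) : ℂ) *
        (∑ ξ ∈ T, (ξ : H → ℂ) x * conj ((ξ : H → ℂ) x) - (p : ℂ)) = 0 := by
      rw [mul_sub, ← hk]; push_cast; ring
    exact sub_eq_zero.1 ((mul_eq_zero.1 h5).resolve_left hZ0)

end Cfsg.Agent.Helper69
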