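import Mathlib
import Cfsg.Agent.Helper43.UniMain
import Cfsg.Agent.Helper43.UniEll
import Cfsg.Agent.Helper43.PrimeOrdO
import Cfsg.Agent.Helper10.U5994Mod4

/-!
# S5993, the case `r = p` (helper69)

A unipotent element of `Ω_{2d+1}(q)` of Jordan type `(1, 2^d)` (`d` even) or `(3, 2^(d-1))`
(`d` odd) fixes no elliptic subspace of even dimension: an invariant nondegenerate subspace of
even dimension `m` has type `2^(m/2)` and is therefore of plus type.
-/

set_option autoImplicit false
open scoped MatrixGroups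

namespace Cfsg.Agent.Helper69.S5993P

open Module Cfsg.Agent.Helper43 Cfsg.Agent.Helper43.UniIso Cfsg.Agent.Helper43.UniMain
  Cfsg.Agent.Helper43.OrthEven Cfsg.Agent.Helper43.OrthStd Cfsg.Agent.Helper43.PrimeOrdO

/-- The case `r = p` of S5993: some element of order `p` of `Ω_{2d+1}(q)` fixes no elliptic
`m`-space. -/
theorem s5993_p {F : Type*} [Field F] [Fintype F] {p : ℕ} [Fact p.Prime] [CharP F p] {q : ℕ}
    (hq : Fintype.card F = q) (hqodd : Odd q)
    (d m : ℕ) (hd : 3 ≤ d) (hm : 2 ≤ m) (hme : Even m) (hmn : m ≤ 2 * d) :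
    ¬ (∀ x : GL (Unit ⊕ (Fin d ⊕ Fin d)) F, x ∈ Cfsg.Geo.omegaGL (Cfsg.quadFormOdd d F) →
      orderOf x = p →
      ∃ W : Submodule F (Unit ⊕ (Fin d ⊕ Fin d) → F), (Module.finrank F ↥W = m ∧
        Cfsg.Geo.IsNondegenerateOn (QuadraticMap.polar (Cfsg.quadFormOdd d F)) W ∧
        ¬ Cfsg.Geo.IsPlusTypeOn (Cfsg.quadFormOdd d F) W) ∧
        W.map (Matrix.toLin' (x : Matrix (Unit ⊕ (Fin d ⊕ Fin d)) (Unit ⊕ (Fin d ⊕ Fin d)) F)) ≤ W) := by
  classical
  intro H
  have hpp : p.Prime := Fact.out
  have hp2 : p ≠ 2 := by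
    intro h
    obtain ⟨n, -, hn⟩ := FiniteField.card F p
    rw [hq, h] at hn
    rw [hn] at hqodd
    exact (Nat.not_even_iff_odd.mpr hqodd) (Nat.even_pow.mpr ⟨even_two, n.pos.ne'⟩)
  have hp3 : 3 ≤ p := by
    have := hpp.two_le
    omega
  have h2 : (2 : F) ≠ 0 := by
    intro h
    have h' : ((2 : ℕ) : F) = 0 := by exact_mod_cast h
    have hd2 : p ∣ 2 := (CharP.cast_eq_zero_iff F p 2).mp h'
    exact hp2 ((Nat.prime_dvd_prime_iff_eq hpp Nat.prime_two).mp hd2)
  -- the general step for a partition `o ::ₘ replicate k 2` with `o` odd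
  have key : ∀ (o k : ℕ), Odd o → 0 < o → o ≤ p → Even k → 1 ≤ k → o + 2 * k = 2 * d + 1 →
      False := by
    intro o k ho ho0 hop hk hk1 hsum0
    have ho2 : o ≠ 2 := by
      rintro rfl
      exact absurd ho (by decide)
    set μ : Multiset ℕ := o ::ₘ Multiset.replicate k 2 with hμdef
    have hμ : ∀ e ∈ μ, 0 < e ∧ e ≤ p := by
      intro e he
      rw [hμdef, Multiset.mem_cons] at he
      rcases he with rfl | he
      · exact ⟨ho0, hop⟩
      · rw [Multiset.eq_of_mem_replicate he]
        exact ⟨two_pos, by omega⟩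
    have hpar : ∀ e : ℕ, Even e → Even (μ.count e) := by
      intro e he
      rw [hμdef, Multiset.count_cons, Multiset.count_replicate]
      have h1 : e ≠ o := by
        rintro rfl
        exact (Nat.not_even_iff_odd.mpr ho) he
      rw [if_neg h1, add_zero]
      split_ifs with h3
      · exact hk
      · exact Even.zero
    have hsum : μ.sum = 2 * d + 1 := by
      rw [hμdef, Multiset.sum_cons, Multiset.sum_replicate, smul_eq_mul]
      omega
    obtain ⟨V, _, _, _, Q, T, hnd, hT, hdim, hkd⟩ :=
      unipO_of_parity (F := F) h2 μ (fun e he => (hμ e he).1) hpar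
    obtain ⟨b, c, hc, hb⟩ := exists_basis_odd (m := d) (by rw [hdim, hsum]) Q hnd
    obtain ⟨A, hA, hAk⟩ := exists_matrix_kdim Q T hT b.equivFun.symm (Cfsg.quadFormOdd d F) c hc
      (by intro z; rw [hb, LinearEquiv.apply_symm_apply])
    have hcard : Fintype.card (Unit ⊕ (Fin d ⊕ Fin d)) = 2 * d + 1 := by
      rw [Fintype.card_sum, Fintype.card_sum, Fintype.card_fin, Fintype.card_unit]; ring
    have keyg := key_general p hp2 (oddQF d F) (oddQF_nondeg h2 d) m
      (fun W => Module.finrank F ↥W = m ∧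
        Cfsg.Geo.IsNondegenerateOn (QuadraticMap.polar (Cfsg.quadFormOdd d F)) W ∧
        ¬ Cfsg.Geo.IsPlusTypeOn (Cfsg.quadFormOdd d F) W)
      (fun W hW => ⟨hW.1, hW.2.1⟩)
      (fun x hxΩ hxp hx1 hxs => H x hxΩ (orderOf_eq_prime hxp hx1)) μ hμ
      (by rw [hsum, hcard])
      A hA (fun l => by rw [hAk, hkd])
    rcases keyg with hμ1 | ⟨W, ν, hGW, hWA, hnil, hνμ, hνs, hνp, hνc⟩
    · -- μ is not all ones
      have h2mem : (2 : ℕ) ∈ μ := by
        rw [hμdef, Multiset.mem_cons]
        right
        rw [Multiset.mem_replicate]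
        exact ⟨by omega, rfl⟩
      rw [hμ1] at h2mem
      have := Multiset.eq_of_mem_replicate h2mem
      omega
    · obtain ⟨hWm, hWnd, hWnp⟩ := hGW
      apply hWnp
      -- ν = 2^(m/2)
      have h1 := Cfsg.Agent.Helper10.u5994_sub_cons_replicate k o ho2 ν hνμ
      have hco : ν.count o ≤ 1 := by
        have h3 := Multiset.count_le_of_le o hνμ
        rw [hμdef, Multiset.count_cons_self, Multiset.count_replicate,
          if_neg (fun h => ho2 h.symm)] at h3
        exact h3
      have hsum' : ν.sum = ν.count o * o + ν.count 2 * 2 := by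
        conv_lhs => rw [h1]
        rw [Multiset.sum_add, Multiset.sum_replicate, Multiset.sum_replicate, smul_eq_mul,
          smul_eq_mul]
      have hco0 : ν.count o = 0 := by
        obtain ⟨c', hc'⟩ := ho
        obtain ⟨d', hd'⟩ := hme
        rw [hνs] at hsum'
        have hcases : ν.count o = 0 ∨ ν.count o = 1 := by omega
        rcases hcases with h0 | h0
        · exact h0
        · rw [h0] at hsum'
          omega
      have hcnt : ∀ e, e ≠ 2 → ν.count e = 0 := by
        intro e he
        rw [h1, Multiset.count_add, Multiset.count_replicate, Multiset.count_replicate, hco0,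
          if_neg (fun h : 2 = e => he h.symm)]
        simp
      apply Cfsg.Agent.Helper43.UniEll.plus_of_all_even h2 (oddQF d F) A hA ⟨p, hnil⟩ W hWA
        (by rw [hWm]; exact hme)
      intro e he
      have h1' := hνc e he.pos
      have h0 : ν.count e = 0 := hcnt e (by
        rintro rfl
        exact absurd he (by decide))
      rw [h0, zero_add] at h1'
      exact h1'
  rcases Nat.even_or_odd d with hde | hdo
  · exact key 1 d odd_one one_pos (by omega) hde (by omega) (by omega)
  · exact key 3 (d - 1) (by decide) (by norm_num) hp3 (Nat.Odd.sub_odd hdo odd_one) (by omega)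
      (by omega)

end Cfsg.Agent.Helper69.S5993P
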