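import Mathlib
import Cfsg.Prelude.Def_GeometricClasses
import Cfsg.Prelude.Def_Classical
import Cfsg.Agent.Helper35.S88Defs
import Cfsg.Agent.Helper35.TSSTDM
import Cfsg.Agent.Helper90.TSR2Main
import Cfsg.Agent.Helper20.S88R2SKSUBTYPE
import Cfsg.Agent.Helper39.S88R2SKND
import Cfsg.Agent.Helper70.TSR2Z
import Cfsg.Agent.Helper70.TSR2CH2
import Cfsg.Agent.Helper50.TSR2SPLA
import Cfsg.Agent.Helper66.ODSKM
import Cfsg.Agent.Helper33.ODDSSUB
import Cfsg.Agent.Helper33.ODDSSUM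
import Cfsg.Agent.Helper33.ODDSBASIS
import Cfsg.Agent.Helper33.ODisc
import Cfsg.Agent.Helper96.OHEXND
import Cfsg.Agent.Helper97.OForm

set_option autoImplicit false
set_option linter.unusedSectionVars false
set_option linter.unusedVariables false

/-!
# CALL S90 (helper98; row S5990), stage R2G (helper69): `r = 2 ≠ p`, sufficiency.

Involutions are always good (eigenspaces `V₊ ⊥ V₋`, `W = W₊ ⊥ W₋` with a free discriminant class,
CALL OD pieces `ods_sub`, `ods_sup`); a skew element of `Ω⁻` exists only for `d` odd, `q ≡ 7 (8)`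
(`od_skew_minus`), and then it fixes elliptic `m`-spaces for `m ≡ 2 (4)`.
-/

namespace Cfsg.Agent.Helper69.S90

open Module Cfsg Cfsg.Geo Cfsg.Agent.Helper35.S88
open Cfsg.Agent.Helper96.OH Cfsg.Agent.Helper69.OD
open scoped MatrixGroups

section generic

variable {ι : Type} [Fintype ι] [DecidableEq ι] {F : Type*} [Field F] [Fintype F]
  (Q : (ι → F) → F)

/-- an involutory isometry fixes a nondegenerate `m`-space of either discriminant class, for every
`0 < m` with `m + 2 ≤ |ι|`. -/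
theorem s90g_invo_class (hQ : IsNondegenerateQuadraticForm Q) (h2 : (2 : F) ≠ 0)
    (M : Matrix ι ι F) (hM : ∀ v, Q (M.mulVec v) = Q v) (hM2 : M * M = 1) (m : ℕ) (hm0 : 0 < m)
    (hmn : m + 2 ≤ Fintype.card ι) (b : Prop) :
    ∃ W : Submodule F (ι → F), (finrank F W = m ∧ ONd Q W ∧ (ODs Q W ↔ b)) ∧
      W.map (Matrix.toLin' M) ≤ W := by
  classical
  obtain ⟨h1, h3, h4, -⟩ := Cfsg.Agent.Helper50.TSR2.r2_split Q hQ h2 M hM hM2
  have hp : ∀ w ∈ LinearMap.ker (Matrix.toLin' M - 1), Matrix.toLin' M w = w := by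
    intro w hw
    rw [LinearMap.mem_ker, LinearMap.sub_apply, Module.End.one_apply, sub_eq_zero] at hw
    exact hw
  have hn : ∀ w ∈ LinearMap.ker (Matrix.toLin' M + 1), Matrix.toLin' M w = -w := by
    intro w hw
    rw [LinearMap.mem_ker, LinearMap.add_apply, Module.End.one_apply] at hw
    exact eq_neg_of_add_eq_zero_left hw
  have invp : ∀ X : Submodule F (ι → F), X ≤ LinearMap.ker (Matrix.toLin' M - 1) →
      X.map (Matrix.toLin' M) ≤ X := by
    rintro X hX _ ⟨w, hw, rfl⟩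
    rw [hp w (hX hw)]
    exact hw
  have invn : ∀ X : Submodule F (ι → F), X ≤ LinearMap.ker (Matrix.toLin' M + 1) →
      X.map (Matrix.toLin' M) ≤ X := by
    rintro X hX _ ⟨w, hw, rfl⟩
    rw [hn w (hX hw)]
    exact X.neg_mem hw
  by_cases hbig : m < finrank F (LinearMap.ker (Matrix.toLin' M - 1))
  · obtain ⟨X, hXK, hnd, hfr, hb⟩ :=
      Cfsg.Agent.Helper33.OD59.ods_sub Q hQ h2 _ h1 m hm0 hbig b
    exact ⟨X, ⟨hfr, hnd, hb⟩, invp X hXK⟩
  by_cases hbig' : m < finrank F (LinearMap.ker (Matrix.toLin' M + 1))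
  · obtain ⟨X, hXK, hnd, hfr, hb⟩ :=
      Cfsg.Agent.Helper33.OD59.ods_sub Q hQ h2 _ h3 m hm0 hbig' b
    exact ⟨X, ⟨hfr, hnd, hb⟩, invn X hXK⟩
  -- both eigenspaces have dimension `≤ m`
  set a := finrank F (LinearMap.ker (Matrix.toLin' M - 1)) with ha
  set c := finrank F (LinearMap.ker (Matrix.toLin' M + 1)) with hc
  obtain ⟨Wp, hWpK, hWpnd, hWpfr⟩ :=
    Cfsg.Agent.Helper96.OH5992.o_exists_nd Q hQ h2 _ h1 (a - 1) (by omega)
  obtain ⟨Wn, hWnK, hWnnd, hWnfr, hWnb⟩ :=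
    Cfsg.Agent.Helper33.OD59.ods_sub Q hQ h2 _ h3 (m - (a - 1)) (by omega) (by omega)
      (ODs Q Wp ↔ b)
  have horth : OOrth Q Wp Wn := by
    intro u hu v hv
    have hu' := hp u (hWpK hu)
    have hv' := hn v (hWnK hv)
    have hbil := hQ.polar_bilinear
    have hpol : QuadraticMap.polar Q (Matrix.toLin' M u) (Matrix.toLin' M v) =
        QuadraticMap.polar Q u v := by
      unfold QuadraticMap.polar
      rw [← map_add, Matrix.toLin'_apply, Matrix.toLin'_apply, Matrix.toLin'_apply, hM, hM, hM]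
    rw [hu', hv'] at hpol
    have hneg : QuadraticMap.polar Q u (-v) = - QuadraticMap.polar Q u v := by
      have := hbil.smul_right (-1 : F) u v
      simpa using this
    rw [hneg] at hpol
    have h5 : (2 : F) * QuadraticMap.polar Q u v = 0 := by linear_combination -hpol
    rcases mul_eq_zero.mp h5 with h | h
    · exact absurd h h2
    · exact h
  refine ⟨Wp ⊔ Wn, ⟨?_, ?_, ?_⟩, ?_⟩
  · rw [Cfsg.Agent.Helper33.OType.finrank_sup_of_orth Q Wp Wn hWpnd horth, hWpfr, hWnfr]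
    omega
  · exact Cfsg.Agent.Helper33.OType.nondeg_sup Q hQ Wp Wn hWpnd hWnnd horth
  · rw [Cfsg.Agent.Helper33.OD59.ods_sup Q hQ Wp Wn hWpnd hWnnd horth, hWnb]
    tauto
  · rw [Submodule.map_sup]
    exact sup_le_sup (invp Wp hWpK) (invn Wn hWnK)

/-- an involutory isometry fixes an elliptic `m`-space, `m` even, `2 ≤ m`, `m + 2 ≤ |ι|`. -/
theorem s90g_invo (hQ : IsNondegenerateQuadraticForm Q) (h2 : (2 : F) ≠ 0)
    (M : Matrix ι ι F) (hM : ∀ v, Q (M.mulVec v) = Q v) (hM2 : M * M = 1) (m : ℕ) (hm : 2 ≤ m)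
    (hme : Even m) (hmn : m + 2 ≤ Fintype.card ι) : InvEll Q M m := by
  classical
  obtain ⟨l, hl⟩ := hme
  have hl1 : 1 ≤ l := by omega
  obtain ⟨W, ⟨hfr, hnd, hb⟩, hinv⟩ := s90g_invo_class Q hQ h2 M hM hM2 m (by omega) hmn
    (¬ IsSquare ((-1 : F) ^ l))
  refine ⟨W, ⟨hfr, hnd, ?_⟩, hinv⟩
  have hdim : finrank F W = 2 * l := by rw [hfr, hl]; ring
  let e := Module.finBasis F W
  have hdet := Cfsg.Agent.Helper33.OD59.ods_det_ne_zero Q hQ W hnd e
  rw [Cfsg.Agent.Helper33.o_plus_iff_disc_on h2 Q hQ W hnd hl1 hdim e]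
  rw [Cfsg.Agent.Helper33.OD59.ods_iff_basis Q hQ W e] at hb
  have hne1 : ((-1 : F) ^ l) ≠ 0 := pow_ne_zero _ (neg_ne_zero.mpr one_ne_zero)
  rw [Cfsg.Agent.Helper33.OD59.ods_sq_prod hne1 hdet]
  tauto

end generic

variable {F : Type*} [Field F] [Fintype F]

/-- R2G -/
theorem s90_two_good {p : ℕ} [Fact p.Prime] [CharP F p] {q : ℕ} (hq : Fintype.card F = q)
    (d m : ℕ) (hd : 4 ≤ d) (hm : 2 ≤ m) (hme : Even m) (hmn : m + 2 ≤ 2 * d) (a b : F)
    (hab : ∀ x y : F, x ^ 2 + a * x * y + b * y ^ 2 = 0 → x = 0 ∧ y = 0) (hp2 : p ≠ 2)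
    (hcond : Even d ∨ q % 8 ≠ 7 ∨ m % 4 = 2) :
    AllEll (Cfsg.quadFormMinus (d - 1) F a b) 2 m := by
  classical
  obtain ⟨hQ, hminus⟩ := Cfsg.Agent.Helper35.TS5973.ts_std_minus (F := F) (d - 1) a b hab
  have hoddq : Odd (Fintype.card F) := by
    obtain ⟨n, hp, hc⟩ := FiniteField.card F p
    rw [hc]
    exact (hp.odd_of_ne_two hp2).pow
  have h2 : (2 : F) ≠ 0 := Cfsg.Agent.Helper70.TSR2.r2_two_ne hoddq
  have hcard : Fintype.card ((Fin (d - 1) ⊕ Fin (d - 1)) ⊕ Fin 2) = 2 * d := by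
    rw [Fintype.card_sum, Fintype.card_sum, Fintype.card_fin, Fintype.card_fin]
    omega
  have hne : Nonempty ((Fin (d - 1) ⊕ Fin (d - 1)) ⊕ Fin 2) := ⟨Sum.inr 0⟩
  intro x hx hxz hns
  obtain ⟨z, hz⟩ := hxz
  obtain ⟨g, hgΩ, rfl⟩ := (Cfsg.Agent.Helper90.TS5973.r2a_mem_omegaGL _ _).mp hx
  have hM := Cfsg.Agent.Helper90.TS5973.r2a_iso (Cfsg.quadFormMinus (d - 1) F a b) g
  rw [Cfsg.Agent.Helper90.TS5973.r2a_sq] at hz
  rcases Cfsg.Agent.Helper70.TSR2.r2_z _ hQ hne _ hM z hz with rfl | rfl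
  · rw [one_smul] at hz
    exact s90g_invo _ hQ h2 _ hM hz m hm hme (by rw [hcard]; exact hmn)
  · rw [Cfsg.Agent.Helper90.TS5973.r2a_neg_one] at hz
    have hsk := (Cfsg.Agent.Helper66.OD59.od_skew_minus (F := F) hoddq d (by omega) a b hab).mp
      ⟨g, hgΩ, hz⟩
    rw [not_or, not_not] at hsk
    obtain ⟨hdo, hq7⟩ := hsk
    rw [hq] at hq7
    have hm4 : m % 4 = 2 := by
      rcases hcond with h | h | h
      · exact absurd h hdo
      · exact absurd hq7 h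
      · exact h
    have hm1 : ¬ IsSquare (-1 : F) := by
      rw [FiniteField.isSquare_neg_one_iff, hq]
      omega
    obtain ⟨W, hWinv, hWnd, hWfr⟩ := Cfsg.Agent.Helper39.S88R2.r2e_skew_nd _ hQ h2 d hcard _ hM hz
      hm1 (m / 2) (by omega)
    have hty := Cfsg.Agent.Helper20.S88R2.r2e_skew_sub_type _ hQ h2 _ hM hz hm1 W hWinv hWnd
      (m / 2) hWfr
    refine ⟨W, ⟨by rw [hWfr]; omega, hWnd, ?_⟩, hWinv⟩
    rw [hty, Nat.not_even_iff_odd, Nat.odd_iff]
    omega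

end Cfsg.Agent.Helper69.S90
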