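import Mathlib
import Cfsg.Agent.S5545

/-!
Helper library (helper69): general facts about one Majorana pair `(μ, a)` used in the proof of
Sakuma's theorem (`S5544`).

* `decomp4`: eigen-decomposition of an arbitrary vector;
* `mu_mu`, `mu_axis`: the Majorana involution is an involution fixing the axis;
* `eig32`: `v - μ v` is a `1/32`-eigenvector;
* `adsq`: on the fixed space of `μ`, `ad(a)^2 = (1/4) ad(a) + (3/4) (·, a) a`;
* `sigma_mul`: the map `w ↦ w - 8 a w + 8 (w, a) a` is multiplicative on the fixed space of `μ`;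
* `pair_conj`: conjugating a Majorana pair by an automorphism; `mu_unique`: the involution is
  determined by the axis.
-/

set_option autoImplicit false

namespace Cfsg.Agent.Helper69.Sak

open Cfsg Cfsg.Axial

variable {V : Type*} [AddCommGroup V] [Module ℝ V]

theorem decomp4 (mul : V →ₗ[ℝ] V →ₗ[ℝ] V) (B : LinearMap.BilinForm ℝ V) (μ : V ≃ₗ[ℝ] V) (a : V)
    (h : IsMajoranaPair mul B μ a) (v : V) :
    ∃ p q r s : V, v = p + q + r + s ∧ p ∈ eigen mul a 1 ∧ q ∈ eigen mul a 0 ∧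
      r ∈ eigen mul a (1 / 4) ∧ s ∈ eigen mul a (1 / 32) ∧
      μ p = p ∧ μ q = q ∧ μ r = r ∧ μ s = -s := by
  obtain ⟨-, -, ⟨⟨-, -, htop, -⟩, -⟩, hM1, hM2⟩ := h
  have hv' : v ∈ eigenSum mul a majoranaSpectrum := by rw [htop]; trivial
  rw [eigenSum, majoranaSpectrum, iSup_insert, iSup_insert, iSup_insert, iSup_singleton,
    Submodule.mem_sup] at hv'
  obtain ⟨p, hp, w1, hw1, rfl⟩ := hv'
  rw [Submodule.mem_sup] at hw1
  obtain ⟨q, hq, w2, hw2, rfl⟩ := hw1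
  rw [Submodule.mem_sup] at hw2
  obtain ⟨r, hr, s, hs, rfl⟩ := hw2
  have hp' : (μ : V →ₗ[ℝ] V) p = p :=
    hM1 p (le_iSup₂ (f := fun c (_ : c ∈ ({1, 0, 1 / 4} : Set ℝ)) => eigen mul a c) 1 (by simp) hp)
  have hq' : (μ : V →ₗ[ℝ] V) q = q :=
    hM1 q (le_iSup₂ (f := fun c (_ : c ∈ ({1, 0, 1 / 4} : Set ℝ)) => eigen mul a c) 0 (by simp) hq)
  have hr' : (μ : V →ₗ[ℝ] V) r = r :=
    hM1 r (le_iSup₂ (f := fun c (_ : c ∈ ({1, 0, 1 / 4} : Set ℝ)) => eigen mul a c) (1 / 4)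
      (by simp) hr)
  have hs' : (μ : V →ₗ[ℝ] V) s = -s := hM2 s hs
  simp only [LinearEquiv.coe_coe] at hp' hq' hr' hs'
  exact ⟨p, q, r, s, by abel, hp, hq, hr, hs, hp', hq', hr', hs'⟩

theorem mu_mu (mul : V →ₗ[ℝ] V →ₗ[ℝ] V) (B : LinearMap.BilinForm ℝ V) (μ : V ≃ₗ[ℝ] V) (a : V)
    (h : IsMajoranaPair mul B μ a) (v : V) : μ (μ v) = v := by
  obtain ⟨p, q, r, s, rfl, -, -, -, -, hp, hq, hr, hs⟩ := decomp4 mul B μ a h v
  simp only [map_add, map_neg, hp, hq, hr, hs, neg_neg]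

theorem mu_axis (mul : V →ₗ[ℝ] V →ₗ[ℝ] V) (B : LinearMap.BilinForm ℝ V) (μ : V ≃ₗ[ℝ] V) (a : V)
    (h : IsMajoranaPair mul B μ a) : μ a = a := by
  obtain ⟨-, -, ⟨⟨-, haa, -, -⟩, -⟩, hM1, -⟩ := h
  have ha : a ∈ eigen mul a 1 := by
    rw [eigen, Module.End.mem_eigenspace_iff, haa, one_smul]
  have := hM1 a (le_iSup₂ (f := fun c (_ : c ∈ ({1, 0, 1 / 4} : Set ℝ)) => eigen mul a c) 1
    (by simp) ha)
  simpa using this

theorem eig32 (mul : V →ₗ[ℝ] V →ₗ[ℝ] V) (B : LinearMap.BilinForm ℝ V) (μ : V ≃ₗ[ℝ] V) (a : V)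
    (h : IsMajoranaPair mul B μ a) (v : V) :
    mul a (v - μ v) = (1 / 32 : ℝ) • (v - μ v) := by
  obtain ⟨p, q, r, s, rfl, -, -, -, hs4, hp, hq, hr, hs⟩ := decomp4 mul B μ a h v
  rw [eigen, Module.End.mem_eigenspace_iff] at hs4
  have e : p + q + r + s - μ (p + q + r + s) = (2 : ℝ) • s := by
    simp only [map_add, hp, hq, hr, hs]
    module
  rw [e, map_smul, hs4]
  module

theorem adsq (mul : V →ₗ[ℝ] V →ₗ[ℝ] V) (B : LinearMap.BilinForm ℝ V)
    (hV : IsMajoranaAmbient mul B) (μ : V ≃ₗ[ℝ] V) (a : V)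
    (h : IsMajoranaPair mul B μ a) (hBa : B a a = 1) (w : V) (hw : μ w = w) :
    mul a (mul a w) = (1 / 4 : ℝ) • mul a w + (3 / 4 * B w a) • a := by
  obtain ⟨l, β, γ, hd, hβ, hγ⟩ := Cfsg.Agent.S5545.decomp mul B μ a h w hw
  have haa : mul a a = a := h.2.2.1.1.2.1
  have hl : B w a = l :=
    Cfsg.Agent.S5545.coeff_eq mul B hV.1 hV.2.2.2.1 a w β γ l haa hBa hd hβ hγ
  have h2 := (Cfsg.Agent.S5545.side1 mul a w β γ l haa hd hβ hγ).2
  rw [h2, hl]
  module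

theorem form_eig_zero (mul : V →ₗ[ℝ] V →ₗ[ℝ] V) (B : LinearMap.BilinForm ℝ V)
    (hV : IsMajoranaAmbient mul B) (a : V) (haa : mul a a = a) (u : V) (k : ℝ) (hk : k ≠ 1)
    (hu : mul a u = k • u) : B u a = 0 := by
  have := hV.2.2.2.1 u a a
  rw [haa, hV.1 u a, hu, map_smul, LinearMap.smul_apply, smul_eq_mul] at this
  have h2 : (1 - k) * B u a = 0 := by linarith
  rcases mul_eq_zero.mp h2 with h3 | h3
  · exact absurd (by linarith : k = 1) hk
  · exact h3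

theorem sigma_mul (mul : V →ₗ[ℝ] V →ₗ[ℝ] V) (B : LinearMap.BilinForm ℝ V)
    (hV : IsMajoranaAmbient mul B) (μ : V ≃ₗ[ℝ] V) (a : V)
    (h : IsMajoranaPair mul B μ a) (hBa : B a a = 1) (x y : V) (hx : μ x = x) (hy : μ y = y) :
    mul x y - (8 : ℝ) • mul a (mul x y) + (8 * B (mul x y) a) • a =
      mul (x - (8 : ℝ) • mul a x + (8 * B x a) • a) (y - (8 : ℝ) • mul a y + (8 * B y a) • a) := by
  obtain ⟨l, β, γ, hxd, hβ, hγ⟩ := Cfsg.Agent.S5545.decomp mul B μ a h x hx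
  obtain ⟨l', β', γ', hyd, hβ', hγ'⟩ := Cfsg.Agent.S5545.decomp mul B μ a h y hy
  have haa : mul a a = a := h.2.2.1.1.2.1
  have hcomm := hV.1
  have hl : B x a = l :=
    Cfsg.Agent.S5545.coeff_eq mul B hV.1 hV.2.2.2.1 a x β γ l haa hBa hxd hβ hγ
  have hl' : B y a = l' :=
    Cfsg.Agent.S5545.coeff_eq mul B hV.1 hV.2.2.2.1 a y β' γ' l' haa hBa hyd hβ' hγ'
  obtain ⟨f00, f0q, fqq⟩ := Cfsg.Agent.S5545.fusion_rules mul B μ a h
  obtain ⟨p, q, hp, hq, hpq⟩ := fqq γ γ' hγ hγ'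
  have hprim : eigen mul a 1 = Submodule.span ℝ {a} := h.2.2.1.2
  have hpm : p ∈ eigen mul a 1 := by
    rw [eigen, Module.End.mem_eigenspace_iff, hp, one_smul]
  rw [hprim, Submodule.mem_span_singleton] at hpm
  obtain ⟨c, rfl⟩ := hpm
  have e1 := f00 β β' hβ hβ'
  have e2 := f0q β γ' hβ hγ'
  have e3 : mul a (mul γ β') = (1 / 4 : ℝ) • mul γ β' := by
    rw [hcomm γ β']; exact f0q β' γ hβ' hγ
  have z1 : B γ a = 0 := form_eig_zero mul B hV a haa γ (1 / 4) (by norm_num) hγ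
  have z2 : B γ' a = 0 := form_eig_zero mul B hV a haa γ' (1 / 4) (by norm_num) hγ'
  have z3 : B (mul β β') a = 0 :=
    form_eig_zero mul B hV a haa _ 0 (by norm_num) (by rw [e1, zero_smul])
  have z4 : B (mul β γ') a = 0 := form_eig_zero mul B hV a haa _ (1 / 4) (by norm_num) e2
  have z5 : B (mul γ β') a = 0 := form_eig_zero mul B hV a haa _ (1 / 4) (by norm_num) e3
  have z6 : B q a = 0 := form_eig_zero mul B hV a haa q 0 (by norm_num) (by rw [hq, zero_smul])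
  have hβa : mul β a = 0 := by rw [hcomm β a, hβ]
  have hγa : mul γ a = (1 / 4 : ℝ) • γ := by rw [hcomm γ a, hγ]
  have hxy : mul x y = (l * l') • a + (l / 4) • γ' + (l' / 4) • γ + mul β β' + mul β γ'
      + mul γ β' + (c • a + q) := by
    rw [hxd, hyd]
    simp only [map_add, map_smul, LinearMap.add_apply, LinearMap.smul_apply, haa, hβ', hγ', hβa,
      hγa, hpq]
    module
  have hax : mul a x = l • a + (1 / 4 : ℝ) • γ := by
    rw [hxd]; simp only [map_add, map_smul, haa, hβ, hγ]; module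
  have hay : mul a y = l' • a + (1 / 4 : ℝ) • γ' := by
    rw [hyd]; simp only [map_add, map_smul, haa, hβ', hγ']; module
  have haxy : mul a (mul x y) = (l * l') • a + (l / 16) • γ' + (l' / 16) • γ
      + (1 / 4 : ℝ) • mul β γ' + (1 / 4 : ℝ) • mul γ β' + c • a := by
    rw [hxy]
    simp only [map_add, map_smul, haa, hγ, hγ', e1, e2, e3, hq]
    module
  have hBxy : B (mul x y) a = l * l' + c := by
    rw [hxy]
    simp only [map_add, map_smul, LinearMap.add_apply, LinearMap.smul_apply, hBa, z1, z2, z3, z4,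
      z5, z6, smul_eq_mul]
    ring
  have hsx : x - (8 : ℝ) • mul a x + (8 * B x a) • a = l • a + β - γ := by
    rw [hax, hl, hxd]; module
  have hsy : y - (8 : ℝ) • mul a y + (8 * B y a) • a = l' • a + β' - γ' := by
    rw [hay, hl', hyd]; module
  rw [hsx, hsy, haxy, hBxy, hxy]
  simp only [map_add, map_sub, map_smul, LinearMap.add_apply, LinearMap.sub_apply,
    LinearMap.smul_apply, haa, hβ', hγ', hβa, hγa, hpq]
  module

theorem symm_mul (mul : V →ₗ[ℝ] V →ₗ[ℝ] V) (g : V ≃ₗ[ℝ] V)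
    (hg : ∀ u v : V, g (mul u v) = mul (g u) (g v)) (u v : V) :
    g.symm (mul u v) = mul (g.symm u) (g.symm v) := by
  apply g.injective
  rw [hg, g.apply_symm_apply, g.apply_symm_apply, g.apply_symm_apply]

theorem pair_conj (mul : V →ₗ[ℝ] V →ₗ[ℝ] V) (B : LinearMap.BilinForm ℝ V) (μ : V ≃ₗ[ℝ] V) (a : V)
    (h : IsMajoranaPair mul B μ a) (g : V ≃ₗ[ℝ] V)
    (hg : ∀ u v : V, g (mul u v) = mul (g u) (g v)) (hgB : ∀ u v : V, B (g u) (g v) = B u v) :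
    IsMajoranaPair mul B (g * μ * g⁻¹) (g a) := by
  obtain ⟨h1, h2, ⟨⟨ha0, haa, htop, hfus⟩, hprim⟩, hM1, hM2⟩ := h
  have hap : ∀ v : V, (g * μ * g⁻¹) v = g (μ (g.symm v)) := fun v => rfl
  refine ⟨?_, ?_, ⟨⟨?_, ?_, ?_, ?_⟩, ?_⟩, ?_, ?_⟩
  · intro u v
    rw [hap, hap, hap, symm_mul mul g hg, h1, hg]
  · intro u v
    rw [hap, hap, hgB, h2]
    have := hgB (g.symm u) (g.symm v)
    rw [g.apply_symm_apply, g.apply_symm_apply] at this
    exact this.symm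
  · intro h0
    apply ha0
    apply g.injective
    rw [h0, map_zero]
  · rw [← hg, haa]
  · rw [Cfsg.Agent.S5545.eigenSum_map mul g hg, htop, Submodule.map_top, LinearEquiv.range]
  · intro c hcS d hdS u hu v hv
    rw [Cfsg.Agent.S5545.eigen_map mul g hg] at hu hv
    rw [Cfsg.Agent.S5545.eigenSum_map mul g hg]
    obtain ⟨u', hu', rfl⟩ := hu
    obtain ⟨v', hv', rfl⟩ := hv
    exact ⟨mul u' v', hfus c hcS d hdS u' hu' v' hv', hg u' v'⟩
  · rw [Cfsg.Agent.S5545.eigen_map mul g hg, hprim, Submodule.map_span, Set.image_singleton]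
    rfl
  · intro v hv
    rw [Cfsg.Agent.S5545.eigenSum_map mul g hg] at hv
    obtain ⟨v', hv', rfl⟩ := hv
    have := hM1 v' hv'
    simp only [LinearEquiv.coe_coe] at this ⊢
    rw [hap, g.symm_apply_apply, this]
  · intro v hv
    rw [Cfsg.Agent.S5545.eigen_map mul g hg] at hv
    obtain ⟨v', hv', rfl⟩ := hv
    have := hM2 v' hv'
    simp only [LinearEquiv.coe_coe] at this ⊢
    rw [hap, g.symm_apply_apply, this, map_neg]

theorem mu_unique (mul : V →ₗ[ℝ] V →ₗ[ℝ] V) (B : LinearMap.BilinForm ℝ V) (μ μ' : V ≃ₗ[ℝ] V)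
    (a : V) (h : IsMajoranaPair mul B μ a) (h' : IsMajoranaPair mul B μ' a) : μ = μ' := by
  ext v
  obtain ⟨p, q, r, s, rfl, hp1, hq1, hr1, hs1, hp, hq, hr, hs⟩ := decomp4 mul B μ a h v
  obtain ⟨-, -, -, hM1, hM2⟩ := h'
  have hp' : (μ' : V →ₗ[ℝ] V) p = p :=
    hM1 p (le_iSup₂ (f := fun c (_ : c ∈ ({1, 0, 1 / 4} : Set ℝ)) => eigen mul a c) 1 (by simp) hp1)
  have hq' : (μ' : V →ₗ[ℝ] V) q = q :=
    hM1 q (le_iSup₂ (f := fun c (_ : c ∈ ({1, 0, 1 / 4} : Set ℝ)) => eigen mul a c) 0 (by simp) hq1)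
  have hr' : (μ' : V →ₗ[ℝ] V) r = r :=
    hM1 r (le_iSup₂ (f := fun c (_ : c ∈ ({1, 0, 1 / 4} : Set ℝ)) => eigen mul a c) (1 / 4)
      (by simp) hr1)
  have hs' : (μ' : V →ₗ[ℝ] V) s = -s := hM2 s hs1
  simp only [LinearEquiv.coe_coe] at hp' hq' hr' hs'
  simp only [map_add, hp, hq, hr, hs, hp', hq', hr', hs']

end Cfsg.Agent.Helper69.Sak
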