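import Mathlib
import Cfsg.Agent.Helper69.SakA

/-!
Helper library (helper69): the dihedral configuration of two Majorana axes `a₀, a₁` with
involutions `t₀, t₁` (structure `Dih`), the invariant vectors `σ, y, z` and the first product
formulas.
-/

set_option autoImplicit false

namespace Cfsg.Agent.Helper69.Sak

open Cfsg Cfsg.Axial

variable {V : Type*} [AddCommGroup V] [Module ℝ V]

/-- the facts about two Majorana pairs `(t₀, a₀)`, `(t₁, a₁)` that the proof uses -/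
structure Dih (mul : V →ₗ[ℝ] V →ₗ[ℝ] V) (B : LinearMap.BilinForm ℝ V) (t₀ t₁ : V ≃ₗ[ℝ] V)
    (a₀ a₁ : V) : Prop where
  comm : ∀ u v : V, mul u v = mul v u
  bsymm : ∀ u v : V, B u v = B v u
  assoc : ∀ u v w : V, B u (mul v w) = B (mul u v) w
  m0 : ∀ u v : V, t₀ (mul u v) = mul (t₀ u) (t₀ v)
  m1 : ∀ u v : V, t₁ (mul u v) = mul (t₁ u) (t₁ v)
  b0 : ∀ u v : V, B (t₀ u) (t₀ v) = B u v
  b1 : ∀ u v : V, B (t₁ u) (t₁ v) = B u v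
  i0 : ∀ v : V, t₀ (t₀ v) = v
  i1 : ∀ v : V, t₁ (t₁ v) = v
  f0 : t₀ a₀ = a₀
  f1 : t₁ a₁ = a₁
  id0 : mul a₀ a₀ = a₀
  id1 : mul a₁ a₁ = a₁
  n0 : B a₀ a₀ = 1
  n1 : B a₁ a₁ = 1
  e0 : ∀ v : V, mul a₀ (v - t₀ v) = (1 / 32 : ℝ) • (v - t₀ v)
  e1 : ∀ v : V, mul a₁ (v - t₁ v) = (1 / 32 : ℝ) • (v - t₁ v)
  q0 : ∀ w : V, t₀ w = w → mul a₀ (mul a₀ w) = (1 / 4 : ℝ) • mul a₀ w + (3 / 4 * B w a₀) • a₀
  q1 : ∀ w : V, t₁ w = w → mul a₁ (mul a₁ w) = (1 / 4 : ℝ) • mul a₁ w + (3 / 4 * B w a₁) • a₁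
  s0 : ∀ x y : V, t₀ x = x → t₀ y = y →
    mul x y - (8 : ℝ) • mul a₀ (mul x y) + (8 * B (mul x y) a₀) • a₀ =
      mul (x - (8 : ℝ) • mul a₀ x + (8 * B x a₀) • a₀)
        (y - (8 : ℝ) • mul a₀ y + (8 * B y a₀) • a₀)
  s1 : ∀ x y : V, t₁ x = x → t₁ y = y →
    mul x y - (8 : ℝ) • mul a₁ (mul x y) + (8 * B (mul x y) a₁) • a₁ =
      mul (x - (8 : ℝ) • mul a₁ x + (8 * B x a₁) • a₁)
        (y - (8 : ℝ) • mul a₁ y + (8 * B y a₁) • a₁)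

theorem Dih.swap {mul : V →ₗ[ℝ] V →ₗ[ℝ] V} {B : LinearMap.BilinForm ℝ V} {t₀ t₁ : V ≃ₗ[ℝ] V}
    {a₀ a₁ : V} (d : Dih mul B t₀ t₁ a₀ a₁) : Dih mul B t₁ t₀ a₁ a₀ :=
  ⟨d.comm, d.bsymm, d.assoc, d.m1, d.m0, d.b1, d.b0, d.i1, d.i0, d.f1, d.f0, d.id1, d.id0, d.n1,
    d.n0, d.e1, d.e0, d.q1, d.q0, d.s1, d.s0⟩

theorem Dih.of_pairs (mul : V →ₗ[ℝ] V →ₗ[ℝ] V) (B : LinearMap.BilinForm ℝ V)
    (hV : IsMajoranaAmbient mul B) (t₀ t₁ : V ≃ₗ[ℝ] V) (a₀ a₁ : V)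
    (h₀ : IsMajoranaPair mul B t₀ a₀) (h₁ : IsMajoranaPair mul B t₁ a₁)
    (hn₀ : B a₀ a₀ = 1) (hn₁ : B a₁ a₁ = 1) : Dih mul B t₀ t₁ a₀ a₁ :=
  ⟨hV.1, hV.2.1, hV.2.2.2.1, h₀.1, h₁.1, h₀.2.1, h₁.2.1, mu_mu mul B t₀ a₀ h₀,
    mu_mu mul B t₁ a₁ h₁, mu_axis mul B t₀ a₀ h₀, mu_axis mul B t₁ a₁ h₁, h₀.2.2.1.1.2.1,
    h₁.2.2.1.1.2.1, hn₀, hn₁, eig32 mul B t₀ a₀ h₀, eig32 mul B t₁ a₁ h₁,
    adsq mul B hV t₀ a₀ h₀ hn₀, adsq mul B hV t₁ a₁ h₁ hn₁, sigma_mul mul B hV t₀ a₀ h₀ hn₀,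
    sigma_mul mul B hV t₁ a₁ h₁ hn₁⟩

/-- `σ(u, v) = u v - (u + v)/32` -/
noncomputable def sg (mul : V →ₗ[ℝ] V →ₗ[ℝ] V) (u v : V) : V := mul u v - (1 / 32 : ℝ) • (u + v)

theorem mul_eq_sg (mul : V →ₗ[ℝ] V →ₗ[ℝ] V) (u v : V) :
    mul u v = sg mul u v + (1 / 32 : ℝ) • (u + v) := by
  rw [sg]; module

section

variable {mul : V →ₗ[ℝ] V →ₗ[ℝ] V} {B : LinearMap.BilinForm ℝ V} {t₀ t₁ : V ≃ₗ[ℝ] V}
  {a₀ a₁ : V}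

theorem Dih.sg_comm (d : Dih mul B t₀ t₁ a₀ a₁) (u v : V) : sg mul u v = sg mul v u := by
  rw [sg, sg, d.comm u v, add_comm u v]

theorem Dih.t0_sg (d : Dih mul B t₀ t₁ a₀ a₁) (u v : V) :
    t₀ (sg mul u v) = sg mul (t₀ u) (t₀ v) := by
  rw [sg, sg, map_sub, map_smul, map_add, d.m0]

theorem Dih.t1_sg (d : Dih mul B t₀ t₁ a₀ a₁) (u v : V) :
    t₁ (sg mul u v) = sg mul (t₁ u) (t₁ v) := d.swap.t0_sg u v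

/-- `σ(a₀, v)` is fixed by `t₀` -/
theorem Dih.sg_inv0 (d : Dih mul B t₀ t₁ a₀ a₁) (v : V) :
    sg mul a₀ (t₀ v) = sg mul a₀ v := by
  have h := d.e0 v
  rw [map_sub] at h
  rw [sg, sg]
  have e : mul a₀ (t₀ v) - (1 / 32 : ℝ) • (a₀ + t₀ v) - (mul a₀ v - (1 / 32 : ℝ) • (a₀ + v))
      = -(mul a₀ v - mul a₀ (t₀ v) - (1 / 32 : ℝ) • (v - t₀ v)) := by module
  rw [h, sub_self, neg_zero] at e
  exact sub_eq_zero.mp e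

theorem Dih.sg_inv1 (d : Dih mul B t₀ t₁ a₀ a₁) (v : V) :
    sg mul a₁ (t₁ v) = sg mul a₁ v := d.swap.sg_inv0 v

theorem Dih.t0_sg0 (d : Dih mul B t₀ t₁ a₀ a₁) (v : V) :
    t₀ (sg mul a₀ v) = sg mul a₀ v := by
  rw [d.t0_sg, d.f0, d.sg_inv0]

theorem Dih.t1_sg1 (d : Dih mul B t₀ t₁ a₀ a₁) (v : V) :
    t₁ (sg mul a₁ v) = sg mul a₁ v := d.swap.t0_sg0 v

/-- general form of the formula for `a₀ · σ(a₀, v)` -/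
theorem Dih.ad_sg0 (d : Dih mul B t₀ t₁ a₀ a₁) (v : V) :
    mul a₀ (sg mul a₀ v) = (3 / 4 * B v a₀ - 25 / 1024) • a₀ + (7 / 32 : ℝ) • sg mul a₀ v
      + (7 / 2048 : ℝ) • (v + t₀ v) := by
  have hw : t₀ (v + t₀ v) = v + t₀ v := by rw [map_add, d.i0, add_comm]
  have h := d.q0 (v + t₀ v) hw
  have hB : B (v + t₀ v) a₀ = 2 * B v a₀ := by
    have := d.b0 v a₀
    rw [d.f0] at this
    rw [map_add, LinearMap.add_apply, this]; ring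
  have hm : mul a₀ (v + t₀ v) = (2 : ℝ) • sg mul a₀ v + (1 / 16 : ℝ) • a₀
      + (1 / 32 : ℝ) • (v + t₀ v) := by
    rw [map_add, mul_eq_sg mul a₀ v, mul_eq_sg mul a₀ (t₀ v), d.sg_inv0]; module
  rw [hm, hB] at h
  simp only [map_add, map_smul, d.id0] at h
  rw [← map_add, hm] at h
  have e : mul a₀ (sg mul a₀ v) - ((3 / 4 * B v a₀ - 25 / 1024) • a₀ + (7 / 32 : ℝ) • sg mul a₀ v
      + (7 / 2048 : ℝ) • (v + t₀ v)) = (1 / 2 : ℝ) • ((2 : ℝ) • mul a₀ (sg mul a₀ v)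
        + (1 / 16 : ℝ) • a₀ + (1 / 32 : ℝ) • ((2 : ℝ) • sg mul a₀ v + (1 / 16 : ℝ) • a₀
      + (1 / 32 : ℝ) • (v + t₀ v)) - ((1 / 4 : ℝ) • ((2 : ℝ) • sg mul a₀ v + (1 / 16 : ℝ) • a₀
      + (1 / 32 : ℝ) • (v + t₀ v)) + (3 / 4 * (2 * B v a₀)) • a₀)) := by module
  rw [h, sub_self, smul_zero] at e
  exact sub_eq_zero.mp e

theorem Dih.ad_sg1 (d : Dih mul B t₀ t₁ a₀ a₁) (v : V) :
    mul a₁ (sg mul a₁ v) = (3 / 4 * B v a₁ - 25 / 1024) • a₁ + (7 / 32 : ℝ) • sg mul a₁ v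
      + (7 / 2048 : ℝ) • (v + t₁ v) := d.swap.ad_sg0 v

/-- `(σ(a₀, v), a₀)` -/
theorem Dih.form_sg0 (d : Dih mul B t₀ t₁ a₀ a₁) (v : V) :
    B (sg mul a₀ v) a₀ = (31 * B v a₀ - 1) / 32 := by
  have h := d.assoc a₀ a₀ v
  rw [d.id0] at h
  rw [sg, map_sub, LinearMap.sub_apply, map_smul, LinearMap.smul_apply, map_add,
    LinearMap.add_apply, d.n0, d.bsymm (mul a₀ v) a₀, h, d.bsymm a₀ v, smul_eq_mul]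
  ring

theorem Dih.form_sg1 (d : Dih mul B t₀ t₁ a₀ a₁) (v : V) :
    B (sg mul a₁ v) a₁ = (31 * B v a₁ - 1) / 32 := d.swap.form_sg0 v

end

end Cfsg.Agent.Helper69.Sak
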