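import Mathlib
import Cfsg.Agent.Helper69.SakB

/-!
Helper library (helper69): the two "resurrection" computations in the proof of Sakuma's theorem,
stated for abstract vectors: `S_core` computes `σ · σ` and `Z_core` computes `a₀ · z` from the
multiplicativity of the `σ`-map of `a₀`.
-/

set_option autoImplicit false

namespace Cfsg.Agent.Helper69.Sak

variable {V : Type*} [AddCommGroup V] [Module ℝ V]

theorem S_core (mul : V →ₗ[ℝ] V →ₗ[ℝ] V) (B : LinearMap.BilinForm ℝ V) (a0 b c s y z : V)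
    (x l2 : ℝ) (comm : ∀ u v : V, mul u v = mul v u) (h00 : mul a0 a0 = a0)
    (h0b : mul a0 b = (2 : ℝ) • s + (1 / 16 : ℝ) • a0 + (1 / 32 : ℝ) • b)
    (h0c : mul a0 c = (2 : ℝ) • y + (1 / 16 : ℝ) • a0 + (1 / 32 : ℝ) • c)
    (h0s : mul a0 s = (3 / 4 * x - 25 / 1024) • a0 + (7 / 32 : ℝ) • s + (7 / 2048 : ℝ) • b)
    (hbb : mul b b = (17 / 16 : ℝ) • b + (2 : ℝ) • z)
    (hbs : mul b s = (3 / 4 * x - 25 / 1024) • b + (7 / 16 : ℝ) • s
      + (7 / 2048 : ℝ) • ((2 : ℝ) • a0 + c))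
    (Bb : B b a0 = 2 * x) (Bs : B s a0 = (31 * x - 1) / 32) (Bc : B c a0 = 2 * l2)
    (B0 : B a0 a0 = 1)
    (hF : mul b s - (8 : ℝ) • mul a0 (mul b s) + (8 * B (mul b s) a0) • a0 =
      mul (b - (8 : ℝ) • mul a0 b + (8 * B b a0) • a0)
        (s - (8 : ℝ) • mul a0 s + (8 * B s a0) • a0)) :
    mul s s = (7 / 6 * x ^ 2 - 7 / 384 * x + 7 / 1536 * l2 - 7 / 98304) • a0
      + (49 / 768 * x - 245 / 196608) • b + (49 / 196608 : ℝ) • c
      + (-5 / 12 * x - 13 / 1536) • s - (7 / 1536 : ℝ) • y + (7 / 2048 : ℝ) • z := by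
  have hsb : mul s b = (3 / 4 * x - 25 / 1024) • b + (7 / 16 : ℝ) • s
      + (7 / 2048 : ℝ) • ((2 : ℝ) • a0 + c) := by rw [comm]; exact hbs
  have hb0 : mul b a0 = (2 : ℝ) • s + (1 / 16 : ℝ) • a0 + (1 / 32 : ℝ) • b := by
    rw [comm]; exact h0b
  have hs0 : mul s a0 = (3 / 4 * x - 25 / 1024) • a0 + (7 / 32 : ℝ) • s + (7 / 2048 : ℝ) • b := by
    rw [comm]; exact h0s
  rw [hbs, h0b, h0s, Bb, Bs] at hF
  simp only [map_add, map_sub, map_smul, LinearMap.add_apply, LinearMap.sub_apply,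
    LinearMap.smul_apply, h00, h0b, h0c, h0s, hbb, hbs, hsb, hb0, hs0, Bb, Bs, Bc, B0,
    smul_eq_mul] at hF
  linear_combination (norm := module) (-1 / 12 : ℝ) • hF

theorem Z_core (mul : V →ₗ[ℝ] V →ₗ[ℝ] V) (B : LinearMap.BilinForm ℝ V) (a0 b c s y z : V)
    (x l2 : ℝ) (comm : ∀ u v : V, mul u v = mul v u) (h00 : mul a0 a0 = a0)
    (h0b : mul a0 b = (2 : ℝ) • s + (1 / 16 : ℝ) • a0 + (1 / 32 : ℝ) • b)
    (h0s : mul a0 s = (3 / 4 * x - 25 / 1024) • a0 + (7 / 32 : ℝ) • s + (7 / 2048 : ℝ) • b)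
    (hbb : mul b b = (17 / 16 : ℝ) • b + (2 : ℝ) • z)
    (hbs : mul b s = (3 / 4 * x - 25 / 1024) • b + (7 / 16 : ℝ) • s
      + (7 / 2048 : ℝ) • ((2 : ℝ) • a0 + c))
    (hss : mul s s = (7 / 6 * x ^ 2 - 7 / 384 * x + 7 / 1536 * l2 - 7 / 98304) • a0
      + (49 / 768 * x - 245 / 196608) • b + (49 / 196608 : ℝ) • c
      + (-5 / 12 * x - 13 / 1536) • s - (7 / 1536 : ℝ) • y + (7 / 2048 : ℝ) • z)
    (Bb : B b a0 = 2 * x) (Bz : B z a0 = (30 * x + l2 - 1) / 32)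
    (hF : mul b b - (8 : ℝ) • mul a0 (mul b b) + (8 * B (mul b b) a0) • a0 =
      mul (b - (8 : ℝ) • mul a0 b + (8 * B b a0) • a0)
        (b - (8 : ℝ) • mul a0 b + (8 * B b a0) • a0)) :
    mul a0 z = (-32 / 3 * x ^ 2 + 5 / 3 * x - 1 / 24 * l2 - 127 / 3072) • a0
      + (1 / 6 * x - 19 / 3072) • b + (7 / 6144 : ℝ) • c + (32 / 3 * x - 19 / 48) • s
      + (7 / 96 : ℝ) • y := by
  have hsb : mul s b = (3 / 4 * x - 25 / 1024) • b + (7 / 16 : ℝ) • s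
      + (7 / 2048 : ℝ) • ((2 : ℝ) • a0 + c) := by rw [comm]; exact hbs
  have hb0 : mul b a0 = (2 : ℝ) • s + (1 / 16 : ℝ) • a0 + (1 / 32 : ℝ) • b := by
    rw [comm]; exact h0b
  have hs0 : mul s a0 = (3 / 4 * x - 25 / 1024) • a0 + (7 / 32 : ℝ) • s + (7 / 2048 : ℝ) • b := by
    rw [comm]; exact h0s
  rw [hbb, h0b, Bb] at hF
  simp only [map_add, map_sub, map_smul, LinearMap.add_apply, LinearMap.sub_apply,
    LinearMap.smul_apply, h00, h0b, h0s, hbb, hbs, hsb, hb0, hs0, hss, Bb, Bz,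
    smul_eq_mul] at hF
  linear_combination (norm := module) (-1 / 16 : ℝ) • hF

end Cfsg.Agent.Helper69.Sak
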