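import Mathlib
import Cfsg.Agent.Helper69.SakC

/-!
Helper library (helper69): the dihedral configuration of two Majorana axes: the axes
`a₋₃, …, a₄`, the invariant vectors `σ, y, z`, their products and inner products, the formulas
for `σ · σ` and `a₀ · z`, the universal relation `R` between `y` and `z`, and the resulting
recurrences `T0`, `T1`.
-/

set_option autoImplicit false

namespace Cfsg.Agent.Helper69.Sak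

variable {V : Type*} [AddCommGroup V] [Module ℝ V]

/-- the coefficient `G` -/
noncomputable def cG (x l2 : ℝ) : ℝ := 32768 / 7 * x ^ 2 - 512 / 7 * x + 128 / 7 * l2 - 9 / 7

/-- the coefficient `H` -/
noncomputable def cH (x : ℝ) : ℝ := 256 * x - 5

section

variable {mul : V →ₗ[ℝ] V →ₗ[ℝ] V} {B : LinearMap.BilinForm ℝ V} {t₀ t₁ : V ≃ₗ[ℝ] V}
  {a₀ a₁ : V}

local notation "A₋₁" => t₀ a₁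
local notation "A₂" => t₁ a₀
local notation "A₋₂" => t₀ (t₁ a₀)
local notation "A₃" => t₁ (t₀ a₁)
local notation "A₋₃" => t₀ (t₁ (t₀ a₁))
local notation "A₄" => t₁ (t₀ (t₁ a₀))
local notation "Sσ" => sg mul a₀ a₁
local notation "Yσ" => sg mul a₀ (t₁ a₀)
local notation "Zσ" => sg mul a₁ (t₀ a₁)
local notation "Λ₁" => B a₀ a₁
local notation "Λ₂" => B a₀ (t₁ a₀)
local notation "Λ₃" => B a₀ (t₁ (t₀ a₁))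

theorem Dih.t0S (d : Dih mul B t₀ t₁ a₀ a₁) : t₀ Sσ = Sσ := d.t0_sg0 a₁

theorem Dih.t1S (d : Dih mul B t₀ t₁ a₀ a₁) : t₁ Sσ = Sσ := by
  rw [d.sg_comm a₀ a₁]; exact d.t1_sg1 a₀

theorem Dih.t0Y (d : Dih mul B t₀ t₁ a₀ a₁) : t₀ Yσ = Yσ := d.t0_sg0 _

theorem Dih.t1Y (d : Dih mul B t₀ t₁ a₀ a₁) : t₁ Yσ = Yσ := by
  rw [d.t1_sg, d.i1, d.sg_comm]

theorem Dih.t1Z (d : Dih mul B t₀ t₁ a₀ a₁) : t₁ Zσ = Zσ := d.t1_sg1 _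

theorem Dih.t0Z (d : Dih mul B t₀ t₁ a₀ a₁) : t₀ Zσ = Zσ := by
  rw [d.t0_sg, d.i0, d.sg_comm]

theorem Dih.sg0m1 (d : Dih mul B t₀ t₁ a₀ a₁) : sg mul a₀ A₋₁ = Sσ := d.sg_inv0 a₁

theorem Dih.sg12 (d : Dih mul B t₀ t₁ a₀ a₁) : sg mul a₁ A₂ = Sσ := by
  rw [d.sg_inv1 a₀, d.sg_comm]

theorem Dih.sgm1m2 (d : Dih mul B t₀ t₁ a₀ a₁) : sg mul A₋₁ A₋₂ = Sσ := by
  rw [← d.t0_sg, d.sg12, d.t0S]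

theorem Dih.sg23 (d : Dih mul B t₀ t₁ a₀ a₁) : sg mul A₂ A₃ = Sσ := by
  rw [← d.t1_sg, d.sg0m1, d.t1S]

theorem Dih.sg0m2 (d : Dih mul B t₀ t₁ a₀ a₁) : sg mul a₀ A₋₂ = Yσ := d.sg_inv0 _

theorem Dih.sg13 (d : Dih mul B t₀ t₁ a₀ a₁) : sg mul a₁ A₃ = Zσ := d.sg_inv1 _

theorem Dih.idm1 (d : Dih mul B t₀ t₁ a₀ a₁) : mul A₋₁ A₋₁ = A₋₁ := by rw [← d.m0, d.id1]

theorem Dih.id2 (d : Dih mul B t₀ t₁ a₀ a₁) : mul A₂ A₂ = A₂ := by rw [← d.m1, d.id0]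

theorem Dih.id3 (d : Dih mul B t₀ t₁ a₀ a₁) : mul A₃ A₃ = A₃ := by rw [← d.m1, d.idm1]

/-! inner products, test vector `a₀` -/

theorem Dih.ip_1_0 (d : Dih mul B t₀ t₁ a₀ a₁) : B a₁ a₀ = Λ₁ := d.bsymm _ _

theorem Dih.ip_m1_0 (d : Dih mul B t₀ t₁ a₀ a₁) : B A₋₁ a₀ = Λ₁ := by
  have := d.b0 a₁ a₀
  rw [d.f0] at this
  rw [this, d.bsymm]

theorem Dih.ip_2_0 (d : Dih mul B t₀ t₁ a₀ a₁) : B A₂ a₀ = Λ₂ := d.bsymm _ _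

theorem Dih.ip_m2_0 (d : Dih mul B t₀ t₁ a₀ a₁) : B A₋₂ a₀ = Λ₂ := by
  have := d.b0 A₂ a₀
  rw [d.f0] at this
  rw [this, d.bsymm]

theorem Dih.ip_3_0 (d : Dih mul B t₀ t₁ a₀ a₁) : B A₃ a₀ = Λ₃ := d.bsymm _ _

theorem Dih.ip_S_0 (d : Dih mul B t₀ t₁ a₀ a₁) : B Sσ a₀ = (31 * Λ₁ - 1) / 32 := by
  have := d.form_sg0 a₁
  rwa [d.bsymm a₁ a₀] at this

theorem Dih.ip_S_1 (d : Dih mul B t₀ t₁ a₀ a₁) : B Sσ a₁ = (31 * Λ₁ - 1) / 32 := by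
  have := d.form_sg1 a₀
  rwa [d.sg_comm a₁ a₀] at this

theorem Dih.ip_Y_0 (d : Dih mul B t₀ t₁ a₀ a₁) : B Yσ a₀ = (31 * Λ₂ - 1) / 32 := by
  have := d.form_sg0 A₂
  rwa [d.bsymm A₂ a₀] at this

/-! test vector `A₂` -/

theorem Dih.ip_0_2 (d : Dih mul B t₀ t₁ a₀ a₁) : B a₀ A₂ = Λ₂ := rfl

theorem Dih.ip_1_2 (d : Dih mul B t₀ t₁ a₀ a₁) : B a₁ A₂ = Λ₁ := by
  have := d.b1 a₁ a₀
  rw [d.f1] at this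
  rw [this, d.bsymm]

theorem Dih.ip_2_2 (d : Dih mul B t₀ t₁ a₀ a₁) : B A₂ A₂ = 1 := by rw [d.b1, d.n0]

theorem Dih.ip_m1_2 (d : Dih mul B t₀ t₁ a₀ a₁) : B A₋₁ A₂ = Λ₃ := by
  have := d.b1 A₃ a₀
  rw [d.i1] at this
  rw [this, d.bsymm]

theorem Dih.ip_3_2 (d : Dih mul B t₀ t₁ a₀ a₁) : B A₃ A₂ = Λ₁ := by
  rw [d.b1, d.ip_m1_0]

theorem Dih.ip_4_2 (d : Dih mul B t₀ t₁ a₀ a₁) : B A₄ A₂ = Λ₂ := by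
  rw [d.b1, d.ip_m2_0]

theorem Dih.ip_S_2 (d : Dih mul B t₀ t₁ a₀ a₁) : B Sσ A₂ = (31 * Λ₁ - 1) / 32 := by
  have := d.b1 Sσ a₀
  rw [d.t1S] at this
  rw [this, d.ip_S_0]

theorem Dih.ip_Y_2 (d : Dih mul B t₀ t₁ a₀ a₁) : B Yσ A₂ = (31 * Λ₂ - 1) / 32 := by
  have := d.b1 Yσ a₀
  rw [d.t1Y] at this
  rw [this, d.ip_Y_0]

/-! test vector `a₁` -/

theorem Dih.ip_1_1 (d : Dih mul B t₀ t₁ a₀ a₁) : B a₁ a₁ = 1 := d.n1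

theorem Dih.ip_2_1 (d : Dih mul B t₀ t₁ a₀ a₁) : B A₂ a₁ = Λ₁ := by
  rw [d.bsymm, d.ip_1_2]

theorem Dih.ip_m2_1 (d : Dih mul B t₀ t₁ a₀ a₁) : B A₋₂ a₁ = Λ₃ := by
  have := d.b0 A₂ A₋₁
  rw [d.i0] at this
  rw [this, d.bsymm, d.ip_m1_2]

theorem Dih.ip_Y_1 (d : Dih mul B t₀ t₁ a₀ a₁) : B Yσ a₁ = (30 * Λ₁ + Λ₂ - 1) / 32 := by
  have h := d.assoc a₀ A₂ a₁
  rw [d.comm A₂ a₁, mul_eq_sg mul a₁ A₂, d.sg12] at h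
  have hS : B a₀ Sσ = (31 * Λ₁ - 1) / 32 := by rw [d.bsymm, d.ip_S_0]
  rw [sg, map_sub, LinearMap.sub_apply, ← h]
  simp only [map_add, map_smul, LinearMap.add_apply, LinearMap.smul_apply, smul_eq_mul, hS,
    d.ip_2_1]
  ring

theorem Dih.q0S (d : Dih mul B t₀ t₁ a₀ a₁) :
    mul a₀ Sσ = (3 / 4 * Λ₁ - 25 / 1024) • a₀ + (7 / 32 : ℝ) • Sσ
      + (7 / 2048 : ℝ) • (a₁ + A₋₁) := by
  have := d.ad_sg0 a₁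
  rwa [d.bsymm a₁ a₀] at this

theorem Dih.q1S (d : Dih mul B t₀ t₁ a₀ a₁) :
    mul a₁ Sσ = (3 / 4 * Λ₁ - 25 / 1024) • a₁ + (7 / 32 : ℝ) • Sσ
      + (7 / 2048 : ℝ) • (a₀ + A₂) := by
  have := d.ad_sg1 a₀
  rwa [d.sg_comm a₁ a₀] at this

theorem Dih.qm1S (d : Dih mul B t₀ t₁ a₀ a₁) :
    mul A₋₁ Sσ = (3 / 4 * Λ₁ - 25 / 1024) • A₋₁ + (7 / 32 : ℝ) • Sσ
      + (7 / 2048 : ℝ) • (a₀ + A₋₂) := by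
  have := congrArg t₀ d.q1S
  rw [d.m0, d.t0S] at this
  rw [this]
  simp only [map_add, map_smul, d.t0S, d.f0]

theorem Dih.q0Y (d : Dih mul B t₀ t₁ a₀ a₁) :
    mul a₀ Yσ = (3 / 4 * Λ₂ - 25 / 1024) • a₀ + (7 / 32 : ℝ) • Yσ
      + (7 / 2048 : ℝ) • (A₂ + A₋₂) := by
  have := d.ad_sg0 A₂
  rwa [d.bsymm A₂ a₀] at this

/-- `(a₁, a₋₁) = (a₀, a₂)` -/
theorem Dih.ip_m1_1 (d : Dih mul B t₀ t₁ a₀ a₁) : B A₋₁ a₁ = Λ₂ := by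
  have h1 := d.assoc Sσ a₀ a₁
  have h2 := d.assoc Sσ a₁ a₀
  rw [d.comm a₁ a₀] at h2
  have h3 : B (mul Sσ a₀) a₁ = B (mul Sσ a₁) a₀ := h1.symm.trans h2
  rw [d.comm Sσ a₀, d.comm Sσ a₁, d.q0S, d.q1S] at h3
  simp only [map_add, map_smul, LinearMap.add_apply, LinearMap.smul_apply, smul_eq_mul, d.ip_S_0,
    d.ip_S_1, d.n0, d.n1, d.ip_1_0, d.ip_2_0] at h3
  linarith

theorem Dih.ip_3_1 (d : Dih mul B t₀ t₁ a₀ a₁) : B A₃ a₁ = Λ₂ := by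
  have := d.b1 A₋₁ a₁
  rw [d.f1] at this
  rw [this, d.ip_m1_1]

theorem Dih.ip_Z_0 (d : Dih mul B t₀ t₁ a₀ a₁) : B Zσ a₀ = (30 * Λ₁ + Λ₂ - 1) / 32 := by
  have := d.swap.ip_Y_1
  rw [d.bsymm a₁ a₀, d.bsymm a₁ A₋₁, d.ip_m1_1] at this
  exact this

/-! test vector `A₃` -/

theorem Dih.ip_0_3 (d : Dih mul B t₀ t₁ a₀ a₁) : B a₀ A₃ = Λ₃ := rfl

theorem Dih.ip_1_3 (d : Dih mul B t₀ t₁ a₀ a₁) : B a₁ A₃ = Λ₂ := by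
  rw [d.bsymm, d.ip_3_1]

theorem Dih.ip_2_3 (d : Dih mul B t₀ t₁ a₀ a₁) : B A₂ A₃ = Λ₁ := by
  rw [d.bsymm, d.ip_3_2]

theorem Dih.ip_S_3 (d : Dih mul B t₀ t₁ a₀ a₁) : B Sσ A₃ = (31 * Λ₁ - 1) / 32 := by
  have h1 := d.b0 Sσ a₁
  rw [d.t0S] at h1
  have h2 := d.b1 Sσ A₋₁
  rw [d.t1S] at h2
  rw [h2, h1, d.ip_S_1]

theorem Dih.ip_Y_3 (d : Dih mul B t₀ t₁ a₀ a₁) : B Yσ A₃ = (30 * Λ₁ + Λ₂ - 1) / 32 := by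
  have h1 := d.b0 Yσ a₁
  rw [d.t0Y] at h1
  have h2 := d.b1 Yσ A₋₁
  rw [d.t1Y] at h2
  rw [h2, h1, d.ip_Y_1]

/-! the products needed by the core lemmas -/

theorem Dih.p0b (d : Dih mul B t₀ t₁ a₀ a₁) :
    mul a₀ (a₁ + A₋₁) = (2 : ℝ) • Sσ + (1 / 16 : ℝ) • a₀ + (1 / 32 : ℝ) • (a₁ + A₋₁) := by
  rw [map_add, mul_eq_sg mul a₀ a₁, mul_eq_sg mul a₀ A₋₁, d.sg0m1]; module

theorem Dih.p0c (d : Dih mul B t₀ t₁ a₀ a₁) :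
    mul a₀ (A₂ + A₋₂) = (2 : ℝ) • Yσ + (1 / 16 : ℝ) • a₀ + (1 / 32 : ℝ) • (A₂ + A₋₂) := by
  rw [map_add, mul_eq_sg mul a₀ A₂, mul_eq_sg mul a₀ A₋₂, d.sg0m2]; module

theorem Dih.pbb (d : Dih mul B t₀ t₁ a₀ a₁) :
    mul (a₁ + A₋₁) (a₁ + A₋₁) = (17 / 16 : ℝ) • (a₁ + A₋₁) + (2 : ℝ) • Zσ := by
  simp only [map_add, LinearMap.add_apply, d.id1, d.idm1, d.comm A₋₁ a₁]
  rw [mul_eq_sg mul a₁ A₋₁]; module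

theorem Dih.pbS (d : Dih mul B t₀ t₁ a₀ a₁) :
    mul (a₁ + A₋₁) Sσ = (3 / 4 * Λ₁ - 25 / 1024) • (a₁ + A₋₁) + (7 / 16 : ℝ) • Sσ
      + (7 / 2048 : ℝ) • ((2 : ℝ) • a₀ + (A₂ + A₋₂)) := by
  rw [map_add, LinearMap.add_apply, d.q1S, d.qm1S]; module

theorem Dih.Bb0 (d : Dih mul B t₀ t₁ a₀ a₁) : B (a₁ + A₋₁) a₀ = 2 * Λ₁ := by
  rw [map_add, LinearMap.add_apply, d.ip_1_0, d.ip_m1_0]; ring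

theorem Dih.Bc0 (d : Dih mul B t₀ t₁ a₀ a₁) : B (A₂ + A₋₂) a₀ = 2 * Λ₂ := by
  rw [map_add, LinearMap.add_apply, d.ip_2_0, d.ip_m2_0]; ring

theorem Dih.tb0 (d : Dih mul B t₀ t₁ a₀ a₁) : t₀ (a₁ + A₋₁) = a₁ + A₋₁ := by
  rw [map_add, d.i0, add_comm]

theorem Dih.S_formula (d : Dih mul B t₀ t₁ a₀ a₁) :
    mul Sσ Sσ = (7 / 6 * Λ₁ ^ 2 - 7 / 384 * Λ₁ + 7 / 1536 * Λ₂ - 7 / 98304) • a₀
      + (49 / 768 * Λ₁ - 245 / 196608) • (a₁ + A₋₁) + (49 / 196608 : ℝ) • (A₂ + A₋₂)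
      + (-5 / 12 * Λ₁ - 13 / 1536) • Sσ - (7 / 1536 : ℝ) • Yσ + (7 / 2048 : ℝ) • Zσ :=
  S_core mul B a₀ (a₁ + A₋₁) (A₂ + A₋₂) Sσ Yσ Zσ Λ₁ Λ₂ d.comm d.id0 d.p0b d.p0c d.q0S d.pbb
    d.pbS d.Bb0 d.ip_S_0 d.Bc0 d.n0 (d.s0 (a₁ + A₋₁) Sσ d.tb0 d.t0S)

theorem Dih.Z_formula (d : Dih mul B t₀ t₁ a₀ a₁) :
    mul a₀ Zσ = (-32 / 3 * Λ₁ ^ 2 + 5 / 3 * Λ₁ - 1 / 24 * Λ₂ - 127 / 3072) • a₀
      + (1 / 6 * Λ₁ - 19 / 3072) • (a₁ + A₋₁) + (7 / 6144 : ℝ) • (A₂ + A₋₂)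
      + (32 / 3 * Λ₁ - 19 / 48) • Sσ + (7 / 96 : ℝ) • Yσ :=
  Z_core mul B a₀ (a₁ + A₋₁) (A₂ + A₋₂) Sσ Yσ Zσ Λ₁ Λ₂ d.comm d.id0 d.p0b d.q0S d.pbb d.pbS
    d.S_formula d.Bb0 d.ip_Z_0 (d.s0 (a₁ + A₋₁) (a₁ + A₋₁) d.tb0 d.tb0)

/-- the universal relation between `y = σ(a₀, a₂)` and `z = σ(a₁, a₋₁)` -/
theorem Dih.R (d : Dih mul B t₀ t₁ a₀ a₁) :
    Yσ - Zσ = ((cG Λ₁ Λ₂ - cH Λ₁ + 1) / 32) • (a₀ - a₁) + ((cH Λ₁ - 1) / 32) • (A₋₁ - A₂)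
      + (1 / 32 : ℝ) • (A₋₂ - A₃) := by
  have h1 := d.S_formula
  have h2 := d.swap.S_formula
  rw [d.sg_comm a₁ a₀, d.bsymm a₁ a₀, d.bsymm a₁ A₋₁, d.ip_m1_1] at h2
  have h3 := h1.symm.trans h2
  unfold cG cH
  linear_combination (norm := module) (-6144 / 49 : ℝ) • h3

theorem Dih.T0 (d : Dih mul B t₀ t₁ a₀ a₁) :
    A₃ - A₋₃ = cG Λ₁ Λ₂ • (A₋₁ - a₁) + cH Λ₁ • (A₋₂ - A₂) := by
  have h := d.R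
  have h' := congrArg t₀ d.R
  simp only [map_sub, map_add, map_smul, d.t0Y, d.t0Z, d.f0, d.i0] at h'
  linear_combination (norm := module) (32 : ℝ) • h - (32 : ℝ) • h'

theorem Dih.T1 (d : Dih mul B t₀ t₁ a₀ a₁) :
    A₄ - A₋₂ = cG Λ₁ Λ₂ • (a₀ - A₂) + cH Λ₁ • (A₋₁ - A₃) := by
  have h := d.R
  have h' := congrArg t₁ d.R
  simp only [map_sub, map_add, map_smul, d.t1Y, d.t1Z, d.f1, d.i1] at h'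
  linear_combination (norm := module) (32 : ℝ) • h - (32 : ℝ) • h'

end

end Cfsg.Agent.Helper69.Sak
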