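import Mathlib
import Cfsg.Agent.Helper69.SakD

/-!
Helper library (helper69): the dihedral configuration of two Majorana axes: the inner products
`(a₀, a₃)`, `(a₋₂, a₂)`, `(a₋₂, a₃)` as polynomials, the product `a₀ · a₃`, and the two scalar
identities obtained from the associativity of the form.
-/

set_option autoImplicit false

namespace Cfsg.Agent.Helper69.Sak

variable {V : Type*} [AddCommGroup V] [Module ℝ V]

section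

variable {mul : V →ₗ[ℝ] V →ₗ[ℝ] V} {B : LinearMap.BilinForm ℝ V} {t₀ t₁ : V ≃ₗ[ℝ] V}
  {a₀ a₁ : V}

local notation "A₋₁" => t₀ a₁
local notation "A₂" => t₁ a₀
local notation "A₋₂" => t₀ (t₁ a₀)
local notation "A₃" => t₁ (t₀ a₁)
local notation "A₋₃" => t₀ (t₁ (t₀ a₁))
local notation "A₄" => t₁ (t₀ (t₁ a₀))
local notation "Sσ" => sg mul a₀ a₁
local notation "Yσ" => sg mul a₀ (t₁ a₀)
local notation "Zσ" => sg mul a₁ (t₀ a₁)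
local notation "Λ₁" => B a₀ a₁
local notation "Λ₂" => B a₀ (t₁ a₀)
local notation "Λ₃" => B a₀ (t₁ (t₀ a₁))
local notation "Λ₄" => B (t₀ (t₁ a₀)) (t₁ a₀)
local notation "Λ₅" => B (t₀ (t₁ a₀)) (t₁ (t₀ a₁))
local notation "Gc" => cG (B a₀ a₁) (B a₀ (t₁ a₀))
local notation "Hc" => cH (B a₀ a₁)

theorem Dih.L3 (d : Dih mul B t₀ t₁ a₀ a₁) :
    Λ₃ = Λ₂ + (Gc - Hc + 1) * (1 - Λ₁) + (Hc - 1) * (Λ₁ - Λ₂) - 30 * (Λ₂ - Λ₁) := by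
  have h := congrArg (fun v => B v a₀) d.R
  simp only [map_add, map_sub, map_smul, LinearMap.add_apply, LinearMap.sub_apply,
    LinearMap.smul_apply, smul_eq_mul, d.ip_Y_0, d.ip_Z_0, d.n0, d.ip_1_0, d.ip_m1_0, d.ip_2_0,
    d.ip_m2_0, d.ip_3_0] at h
  linear_combination (32 : ℝ) * h

theorem Dih.L4e (d : Dih mul B t₀ t₁ a₀ a₁) :
    Λ₄ = Λ₂ - Gc * (Λ₂ - 1) - Hc * (Λ₃ - Λ₁) := by
  have h := congrArg (fun v => B v A₂) d.T1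
  simp only [map_add, map_sub, map_smul, LinearMap.add_apply, LinearMap.sub_apply,
    LinearMap.smul_apply, smul_eq_mul, d.ip_4_2, d.ip_2_2, d.ip_m1_2, d.ip_3_2] at h
  linear_combination (-1 : ℝ) * h

theorem Dih.ip_m1_3 (d : Dih mul B t₀ t₁ a₀ a₁) : B A₋₁ A₃ = Λ₄ := by
  have h := congrArg (fun v => B v a₁) d.T0
  have e : B A₋₃ a₁ = B A₋₁ A₃ := by
    have := d.b0 A₃ A₋₁
    rw [d.i0] at this
    rw [this, d.bsymm]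
  simp only [map_add, map_sub, map_smul, LinearMap.add_apply, LinearMap.sub_apply,
    LinearMap.smul_apply, smul_eq_mul, d.ip_3_1, e, d.ip_m1_1, d.ip_1_1, d.ip_m2_1,
    d.ip_2_1] at h
  rw [d.L4e]
  linear_combination (-1 : ℝ) * h

theorem Dih.L5 (d : Dih mul B t₀ t₁ a₀ a₁) :
    Λ₅ = Λ₁ - Gc * (Λ₃ - Λ₁) - Hc * (Λ₄ - 1) := by
  have h := congrArg (fun v => B v A₂) d.T0
  have e : B A₋₃ A₂ = Λ₅ := by
    have := d.b0 A₃ A₋₂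
    rw [d.i0] at this
    rw [this, d.bsymm]
  simp only [map_add, map_sub, map_smul, LinearMap.add_apply, LinearMap.sub_apply,
    LinearMap.smul_apply, smul_eq_mul, d.ip_3_2, e, d.ip_m1_2, d.ip_1_2, d.ip_2_2] at h
  linear_combination (-1 : ℝ) * h

theorem Dih.m0m1 (d : Dih mul B t₀ t₁ a₀ a₁) :
    mul a₀ A₋₁ = Sσ + (1 / 32 : ℝ) • (a₀ + A₋₁) := by
  rw [mul_eq_sg mul a₀ A₋₁, d.sg0m1]

theorem Dih.m0m2 (d : Dih mul B t₀ t₁ a₀ a₁) :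
    mul a₀ A₋₂ = Yσ + (1 / 32 : ℝ) • (a₀ + A₋₂) := by
  rw [mul_eq_sg mul a₀ A₋₂, d.sg0m2]

/-- the product `a₀ · a₃` -/
theorem Dih.A03 (d : Dih mul B t₀ t₁ a₀ a₁) :
    mul a₀ A₃ = (-1 / 24 : ℝ) • A₋₂ + (5 * Hc / 96 - 1 / 8) • A₋₁
      + (-5 * Gc / 12 + 3 * Hc ^ 2 / 32 - 7 * Hc / 32 + 1 / 12) • a₀
      + (-Gc / 32 + 5 * Hc / 96 - 1 / 8) • a₁ + (-Hc / 32 - 1 / 24) • A₂
      + (-Gc + 10 * Hc / 3 - 8) • Sσ + (-Hc - 8 / 3) • Yσ := by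
  have h := congrArg (mul a₀) d.R
  simp only [map_sub, map_add, map_smul, d.id0, d.q0Y, d.Z_formula] at h
  rw [mul_eq_sg mul a₀ a₁, d.m0m1, mul_eq_sg mul a₀ A₂, d.m0m2] at h
  unfold cG cH at h ⊢
  linear_combination (norm := module) (32 : ℝ) • h

theorem Dih.K1raw (d : Dih mul B t₀ t₁ a₀ a₁) :
    (-1 / 24) * Λ₄ + (5 * Hc / 96 - 1 / 8) * Λ₃
      + (-5 * Gc / 12 + 3 * Hc ^ 2 / 32 - 7 * Hc / 32 + 1 / 12) * Λ₂
      + (-Gc / 32 + 5 * Hc / 96 - 1 / 8) * Λ₁ + (-Hc / 32 - 1 / 24)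
      + (-Gc + 10 * Hc / 3 - 8) * ((31 * Λ₁ - 1) / 32)
      + (-Hc - 8 / 3) * ((31 * Λ₂ - 1) / 32)
      = (31 * Λ₁ - 1) / 32 + (Λ₂ + Λ₃) / 32 := by
  have h := d.assoc a₀ A₃ A₂
  have hS : B a₀ Sσ = (31 * Λ₁ - 1) / 32 := by rw [d.bsymm, d.ip_S_0]
  rw [d.comm A₃ A₂, mul_eq_sg mul A₂ A₃, d.sg23, d.A03] at h
  simp only [map_add, map_sub, map_smul, LinearMap.add_apply, LinearMap.sub_apply,
    LinearMap.smul_apply, smul_eq_mul, hS, d.ip_m1_2, d.ip_1_2, d.ip_2_2, d.ip_S_2,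
    d.ip_Y_2] at h
  linear_combination (-1 : ℝ) * h

theorem Dih.K4raw (d : Dih mul B t₀ t₁ a₀ a₁) :
    (-1 / 24) * Λ₅ + (5 * Hc / 96 - 1 / 8) * Λ₄
      + (-5 * Gc / 12 + 3 * Hc ^ 2 / 32 - 7 * Hc / 32 + 1 / 12) * Λ₃
      + (-Gc / 32 + 5 * Hc / 96 - 1 / 8) * Λ₂ + (-Hc / 32 - 1 / 24) * Λ₁
      + (-Gc + 10 * Hc / 3 - 8) * ((31 * Λ₁ - 1) / 32)
      + (-Hc - 8 / 3) * ((30 * Λ₁ + Λ₂ - 1) / 32) = Λ₃ := by
  have h := d.assoc a₀ A₃ A₃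
  rw [d.id3, d.A03] at h
  simp only [map_add, map_sub, map_smul, LinearMap.add_apply, LinearMap.sub_apply,
    LinearMap.smul_apply, smul_eq_mul, d.ip_m1_3, d.ip_1_3, d.ip_2_3, d.ip_S_3, d.ip_Y_3] at h
  linear_combination (-1 : ℝ) * h

end

end Cfsg.Agent.Helper69.Sak
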