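import Mathlib
import Cfsg.Agent.Helper69.SakE

/-!
Helper library (helper69): the end of the proof of Sakuma's theorem: the nine solutions of the
scalar equations, the resulting coincidences of axes, and the order of the product of the two
Majorana involutions.
-/

set_option autoImplicit false

namespace Cfsg.Agent.Helper69.Sak

open Cfsg Cfsg.Axial

/-- the scalar equations have exactly nine solutions, each of which forces a coincidence -/
theorem nine_points (x l2 l3 l4 l5 G H : ℝ)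
    (hG : G = 32768 / 7 * x ^ 2 - 512 / 7 * x + 128 / 7 * l2 - 9 / 7) (hH : H = 256 * x - 5)
    (h3 : l3 = l2 + (G - H + 1) * (1 - x) + (H - 1) * (x - l2) - 30 * (l2 - x))
    (h4 : l4 = l2 - G * (l2 - 1) - H * (l3 - x))
    (h5 : l5 = x - G * (l3 - x) - H * (l4 - 1))
    (K1 : (-1 / 24) * l4 + (5 * H / 96 - 1 / 8) * l3
      + (-5 * G / 12 + 3 * H ^ 2 / 32 - 7 * H / 32 + 1 / 12) * l2
      + (-G / 32 + 5 * H / 96 - 1 / 8) * x + (-H / 32 - 1 / 24)
      + (-G + 10 * H / 3 - 8) * ((31 * x - 1) / 32)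
      + (-H - 8 / 3) * ((31 * l2 - 1) / 32)
      = (31 * x - 1) / 32 + (l2 + l3) / 32)
    (K4 : (-1 / 24) * l5 + (5 * H / 96 - 1 / 8) * l4
      + (-5 * G / 12 + 3 * H ^ 2 / 32 - 7 * H / 32 + 1 / 12) * l3
      + (-G / 32 + 5 * H / 96 - 1 / 8) * l2 + (-H / 32 - 1 / 24) * x
      + (-G + 10 * H / 3 - 8) * ((31 * x - 1) / 32)
      + (-H - 8 / 3) * ((30 * x + l2 - 1) / 32) = l3) :
    x = 1 ∨ l2 = 1 ∨ l3 = 1 ∨ l4 = 1 ∨ l5 = 1 ∨ (G = 0 ∧ H = 0) := by
  have hx : x = (H + 5) / 256 := by linarith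
  subst hx
  have hl2 : l2 = (14 * G + 13 - 6 * H - H ^ 2) / 256 := by
    linear_combination (-7 / 128 : ℝ) * hG
  subst hl2
  subst h5
  subst h4
  subst h3
  have hK1n : 56 * G ^ 2 - (3 * H - 283) * (H + 1) * G - H * (H - 1) * (41 * H + 69) = 0 := by
    linear_combination (-8192 / 3 : ℝ) * K1
  have hK4n : (H + 1) * (G * (H ^ 2 + 602 * H + 3765) - H * (H - 1) * (61 * H + 747)) = 0 := by
    linear_combination (-229376 / 45 : ℝ) * K4 - ((69 * H + 867) / 45 * (8192 / 3)) * K1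
  clear K1 K4 hG hH
  rcases mul_eq_zero.mp hK4n with hH1 | hGD
  · have hH' : H = -1 := by linarith
    subst hH'
    have h2 : (G - 1) * (G + 1) = 0 := by linear_combination (1 / 56 : ℝ) * hK1n
    rcases mul_eq_zero.mp h2 with h | h
    · have hG' : G = 1 := by linarith
      subst hG'
      right; right; right; left; norm_num
    · have hG' : G = -1 := by linarith
      subst hG'
      right; right; left; norm_num
  · have key : H * (H - 1) * (H - 3) * (H - 8) * (H - 27) * (H + 5) * (H - 251) = 0 := by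
      linear_combination (-(H ^ 2 + 602 * H + 3765) ^ 2 / 224) * hK1n
        + ((56 * (G * (H ^ 2 + 602 * H + 3765) + H * (H - 1) * (61 * H + 747))
          - (3 * H - 283) * (H + 1) * (H ^ 2 + 602 * H + 3765)) / 224) * hGD
    simp only [mul_eq_zero] at key
    rcases key with (((((h | h) | h) | h) | h) | h) | h
    · have hH' : H = 0 := h
      subst hH'
      have hG' : G = 0 := by linear_combination (1 / 3765 : ℝ) * hGD
      exact Or.inr (Or.inr (Or.inr (Or.inr (Or.inr ⟨hG', rfl⟩))))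
    · have hH' : H = 1 := by linarith
      subst hH'
      have hG' : G = 0 := by linear_combination (1 / 4368 : ℝ) * hGD
      subst hG'
      right; right; right; right; left; norm_num
    · have hH' : H = 3 := by linarith
      subst hH'
      have hG' : G = 1 := by linear_combination (1 / 5580 : ℝ) * hGD
      subst hG'
      right; right; right; left; norm_num
    · have hH' : H = 8 := by linarith
      subst hH'
      have hG' : G = 8 := by linear_combination (1 / 8645 : ℝ) * hGD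
      subst hG'
      right; right; left; norm_num
    · have hH' : H = 27 := by linarith
      subst hH'
      have hG' : G = 81 := by linear_combination (1 / 20748 : ℝ) * hGD
      subst hG'
      right; left; norm_num
    · have hH' : H = -5 := by linarith
      subst hH'
      have hG' : G = 17 := by linear_combination (1 / 780 : ℝ) * hGD
      subst hG'
      right; left; norm_num
    · have hH' : H = 251 := by linarith
      subst hH'
      left; norm_num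

/-! group words in two involutions -/

section grp

variable {Γ : Type*} [Group Γ] (s t : Γ)

theorem inv_cancel_word (hs : s * s = 1) (X : Γ) : s * (s * X) = X := by
  rw [← mul_assoc, hs, one_mul]

theorem ord2 (hs : s * s = 1) (ht : t * t = 1) (h : t * s * t⁻¹ = 1 * s * 1⁻¹) :
    (s * t) ^ 2 = 1 := by
  have hsi : s⁻¹ = s := inv_eq_of_mul_eq_one_right hs
  have hti : t⁻¹ = t := inv_eq_of_mul_eq_one_right ht
  simp only [mul_inv_rev, inv_one, one_mul, mul_one, hsi, hti, mul_assoc] at h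
  rw [pow_succ, pow_succ, pow_zero]
  simp only [one_mul, mul_assoc]
  rw [h, hs]

theorem ord3 (hs : s * s = 1) (ht : t * t = 1)
    (h : (t * s) * t * (t * s)⁻¹ = 1 * s * 1⁻¹) : (s * t) ^ 3 = 1 := by
  have hsi : s⁻¹ = s := inv_eq_of_mul_eq_one_right hs
  have hti : t⁻¹ = t := inv_eq_of_mul_eq_one_right ht
  simp only [mul_inv_rev, inv_one, one_mul, mul_one, hsi, hti, mul_assoc] at h
  rw [pow_succ, pow_succ, pow_succ, pow_zero]
  simp only [one_mul, mul_assoc]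
  rw [h, hs]

theorem ord4 (hs : s * s = 1) (ht : t * t = 1)
    (h : (s * t) * s * (s * t)⁻¹ = t * s * t⁻¹) : (s * t) ^ 4 = 1 := by
  have hsi : s⁻¹ = s := inv_eq_of_mul_eq_one_right hs
  have hti : t⁻¹ = t := inv_eq_of_mul_eq_one_right ht
  simp only [mul_inv_rev, inv_one, one_mul, mul_one, hsi, hti, mul_assoc] at h
  rw [pow_succ, pow_succ, pow_succ, pow_succ, pow_zero]
  simp only [one_mul, mul_assoc]
  rw [← h]
  simp only [inv_cancel_word s hs, inv_cancel_word t ht, hs, ht]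

theorem ord5 (hs : s * s = 1) (ht : t * t = 1)
    (h : (s * t) * s * (s * t)⁻¹ = (t * s) * t * (t * s)⁻¹) : (s * t) ^ 5 = 1 := by
  have hsi : s⁻¹ = s := inv_eq_of_mul_eq_one_right hs
  have hti : t⁻¹ = t := inv_eq_of_mul_eq_one_right ht
  simp only [mul_inv_rev, inv_one, one_mul, mul_one, hsi, hti, mul_assoc] at h
  rw [pow_succ, pow_succ, pow_succ, pow_succ, pow_succ, pow_zero]
  simp only [one_mul, mul_assoc]
  rw [← h]
  simp only [inv_cancel_word s hs, inv_cancel_word t ht, hs, ht]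

theorem ord6 (hs : s * s = 1) (ht : t * t = 1)
    (h : (t * s) * t * (t * s)⁻¹ = (s * t * s) * t * (s * t * s)⁻¹) : (s * t) ^ 6 = 1 := by
  have hsi : s⁻¹ = s := inv_eq_of_mul_eq_one_right hs
  have hti : t⁻¹ = t := inv_eq_of_mul_eq_one_right ht
  simp only [mul_inv_rev, inv_one, one_mul, mul_one, hsi, hti, mul_assoc] at h
  rw [pow_succ, pow_succ, pow_succ, pow_succ, pow_succ, pow_succ, pow_zero]
  simp only [one_mul, mul_assoc]
  rw [h]
  simp only [inv_cancel_word s hs, inv_cancel_word t ht, hs, ht]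

end grp

variable {V : Type*} [AddCommGroup V] [Module ℝ V]

/-- automorphisms of the algebra preserving the form -/
def IsAutIso (mul : V →ₗ[ℝ] V →ₗ[ℝ] V) (B : LinearMap.BilinForm ℝ V) (g : V ≃ₗ[ℝ] V) : Prop :=
  (∀ u v : V, g (mul u v) = mul (g u) (g v)) ∧ ∀ u v : V, B (g u) (g v) = B u v

theorem IsAutIso.one (mul : V →ₗ[ℝ] V →ₗ[ℝ] V) (B : LinearMap.BilinForm ℝ V) :
    IsAutIso mul B 1 :=
  ⟨fun _ _ => rfl, fun _ _ => rfl⟩

theorem IsAutIso.comp {mul : V →ₗ[ℝ] V →ₗ[ℝ] V} {B : LinearMap.BilinForm ℝ V} {g g' : V ≃ₗ[ℝ] V}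
    (hg : IsAutIso mul B g) (hg' : IsAutIso mul B g') : IsAutIso mul B (g * g') := by
  refine ⟨fun u v => ?_, fun u v => ?_⟩
  · show g (g' (mul u v)) = mul (g (g' u)) (g (g' v))
    rw [hg'.1, hg.1]
  · show B (g (g' u)) (g (g' v)) = B u v
    rw [hg.2, hg'.2]

theorem conj_eq (mul : V →ₗ[ℝ] V →ₗ[ℝ] V) (B : LinearMap.BilinForm ℝ V) (μ μ' : V ≃ₗ[ℝ] V)
    (a a' : V) (h : IsMajoranaPair mul B μ a) (h' : IsMajoranaPair mul B μ' a')
    (g g' : V ≃ₗ[ℝ] V) (hg : IsAutIso mul B g) (hg' : IsAutIso mul B g') (e : g a = g' a') :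
    g * μ * g⁻¹ = g' * μ' * g'⁻¹ := by
  have p := pair_conj mul B μ a h g hg.1 hg.2
  have p' := pair_conj mul B μ' a' h' g' hg'.1 hg'.2
  rw [e] at p
  exact mu_unique mul B _ _ _ p p'

theorem unit_eq (B : LinearMap.BilinForm ℝ V) (hsym : ∀ u v : V, B u v = B v u)
    (hpos : ∀ u : V, u ≠ 0 → 0 < B u u) (u v : V) (hu : B u u = 1) (hv : B v v = 1)
    (huv : B u v = 1) : u = v := by
  by_contra hne
  have h := hpos (u - v) (sub_ne_zero.mpr hne)
  simp only [map_sub, LinearMap.sub_apply, hu, hv, huv, hsym v u] at h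
  norm_num at h

/-- Sakuma's theorem: the product of two Majorana involutions has order at most 6 -/
theorem sakuma (mul : V →ₗ[ℝ] V →ₗ[ℝ] V) (B : LinearMap.BilinForm ℝ V)
    (hV : IsMajoranaAmbient mul B) (μ₀ μ₁ : V ≃ₗ[ℝ] V) (a₀ a₁ : V)
    (h₀ : IsMajoranaPair mul B μ₀ a₀) (h₁ : IsMajoranaPair mul B μ₁ a₁)
    (hn₀ : B a₀ a₀ = 1) (hn₁ : B a₁ a₁ = 1) :
    ∃ n : ℕ, 1 ≤ n ∧ n ≤ 6 ∧ (μ₀ * μ₁) ^ n = 1 := by
  have d := Dih.of_pairs mul B hV μ₀ μ₁ a₀ a₁ h₀ h₁ hn₀ hn₁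
  have hs : μ₀ * μ₀ = 1 := by ext v; exact d.i0 v
  have ht : μ₁ * μ₁ = 1 := by ext v; exact d.i1 v
  have i0 : IsAutIso mul B μ₀ := ⟨d.m0, d.b0⟩
  have i1 : IsAutIso mul B μ₁ := ⟨d.m1, d.b1⟩
  have i1' := IsAutIso.one mul B
  have n2 : B (μ₁ a₀) (μ₁ a₀) = 1 := by rw [d.b1, hn₀]
  have nm1 : B (μ₀ a₁) (μ₀ a₁) = 1 := by rw [d.b0, hn₁]
  have n3 : B (μ₁ (μ₀ a₁)) (μ₁ (μ₀ a₁)) = 1 := by rw [d.b1, nm1]
  have nm2 : B (μ₀ (μ₁ a₀)) (μ₀ (μ₁ a₀)) = 1 := by rw [d.b0, n2]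
  have ue := unit_eq B hV.2.1 hV.2.2.1
  have key := nine_points (B a₀ a₁) (B a₀ (μ₁ a₀)) (B a₀ (μ₁ (μ₀ a₁)))
    (B (μ₀ (μ₁ a₀)) (μ₁ a₀)) (B (μ₀ (μ₁ a₀)) (μ₁ (μ₀ a₁)))
    (cG (B a₀ a₁) (B a₀ (μ₁ a₀))) (cH (B a₀ a₁)) rfl rfl d.L3 d.L4e d.L5 d.K1raw d.K4raw
  rcases key with h | h | h | h | h | ⟨hG, hH⟩
  · have e : a₀ = a₁ := ue a₀ a₁ hn₀ hn₁ h
    subst e
    have e2 := mu_unique mul B μ₀ μ₁ a₀ h₀ h₁
    subst e2
    exact ⟨1, le_refl 1, by norm_num, by rw [pow_one, hs]⟩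
  · have e : a₀ = μ₁ a₀ := ue _ _ hn₀ n2 h
    have c := conj_eq mul B μ₀ μ₀ a₀ a₀ h₀ h₀ μ₁ 1 i1 i1' e.symm
    exact ⟨2, by norm_num, by norm_num, ord2 μ₀ μ₁ hs ht c⟩
  · have e : a₀ = μ₁ (μ₀ a₁) := ue _ _ hn₀ n3 h
    have c := conj_eq mul B μ₁ μ₀ a₁ a₀ h₁ h₀ (μ₁ * μ₀) 1 (i1.comp i0) i1' e.symm
    exact ⟨3, by norm_num, by norm_num, ord3 μ₀ μ₁ hs ht c⟩
  · have e : μ₀ (μ₁ a₀) = μ₁ a₀ := ue _ _ nm2 n2 h
    have c := conj_eq mul B μ₀ μ₀ a₀ a₀ h₀ h₀ (μ₀ * μ₁) μ₁ (i0.comp i1) i1 e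
    exact ⟨4, by norm_num, by norm_num, ord4 μ₀ μ₁ hs ht c⟩
  · have e : μ₀ (μ₁ a₀) = μ₁ (μ₀ a₁) := ue _ _ nm2 n3 h
    have c := conj_eq mul B μ₀ μ₁ a₀ a₁ h₀ h₁ (μ₀ * μ₁) (μ₁ * μ₀) (i0.comp i1) (i1.comp i0) e
    exact ⟨5, by norm_num, by norm_num, ord5 μ₀ μ₁ hs ht c⟩
  · have T := d.T0
    rw [hG, hH, zero_smul, zero_smul, add_zero] at T
    have e : μ₁ (μ₀ a₁) = μ₀ (μ₁ (μ₀ a₁)) := sub_eq_zero.mp T
    have c := conj_eq mul B μ₁ μ₁ a₁ a₁ h₁ h₁ (μ₁ * μ₀) (μ₀ * μ₁ * μ₀) (i1.comp i0)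
      ((i0.comp i1).comp i0) e
    exact ⟨6, by norm_num, by norm_num, ord6 μ₀ μ₁ hs ht c⟩

end Cfsg.Agent.Helper69.Sak
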