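import Mathlib
import Cfsg.Agent.Helper30.BGSinger
import Cfsg.Agent.Helper69.BGLSING

set_option autoImplicit false

/-!
# PIECE B2 of CALL S5970 (helper69)

A block-diagonal Singer-type element of `SL_n(F)` of order `r` with a prescribed fixed space, and
the bad element for the Singer normalizer when `2 ≤ ord_n(q) ≤ n - 2`.
-/

namespace Cfsg.Agent.Helper69

open Matrix

theorem bgl_exists_fpf_gen {F : Type*} [Field F] [Fintype F] (p : ℕ) [Fact p.Prime] [CharP F p] (n r : ℕ) [Fact r.Prime]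
    (hi2 : 2 ≤ orderOf ((Fintype.card F : ℕ) : ZMod r)) (d e : ℕ) (hde : d + e = n) (hdpos : 0 < d)
    (hrdvd : r ∣ Fintype.card F ^ d - 1) :
    ∃ x : Matrix.SpecialLinearGroup (Fin n) F,
      ((x ^ r : Matrix.SpecialLinearGroup (Fin n) F) : Matrix (Fin n) (Fin n) F) = 1 ∧
      (∀ c : F, (x : Matrix (Fin n) (Fin n) F) ≠ c • (1 : Matrix (Fin n) (Fin n) F)) ∧
      Module.finrank F ↥(LinearMap.ker (Matrix.toLin' (x : Matrix (Fin n) (Fin n) F) - 1)) = e := by
  classical
  have hr := (Fact.out : r.Prime)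
  have : NeZero d := ⟨hdpos.ne'⟩
  obtain ⟨A, hAr, hAdet⟩ := Cfsg.Agent.Helper30.bgSinger_exists (F := F) p d r hrdvd
  have hdetA : A.det = 1 := by
    apply bgl_root_unity_trivial r hi2
    rw [← Matrix.det_pow, hAr, Matrix.det_one]
  let σ : Fin d ⊕ Fin e ≃ Fin n := finSumFinEquiv.trans (finCongr hde)
  let B : Matrix (Fin d ⊕ Fin e) (Fin d ⊕ Fin e) F := Matrix.fromBlocks A 0 0 1
  have hBr : B ^ r = 1 := by
    show (Matrix.fromBlocks A 0 0 (1 : Matrix (Fin e) (Fin e) F)) ^ r = 1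
    rw [bgl_fromBlocks_pow, hAr, Matrix.fromBlocks_one]
  have hBdet : B.det = 1 := by
    show (Matrix.fromBlocks A 0 0 (1 : Matrix (Fin e) (Fin e) F)).det = 1
    rw [Matrix.det_fromBlocks_zero₁₂, hdetA, Matrix.det_one, one_mul]
  let φ := Matrix.reindexAlgEquiv F F σ
  have hxdet : (φ B).det = 1 := by
    rw [Matrix.det_reindexAlgEquiv, hBdet]
  -- the action of `φ B`
  have hmulVec : ∀ v : Fin n → F, (φ B) *ᵥ v =
      (Sum.elim (A *ᵥ (v ∘ σ ∘ Sum.inl)) (v ∘ σ ∘ Sum.inr)) ∘ σ.symm := by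
    intro v
    have h1 : φ B = B.submatrix σ.symm σ.symm := rfl
    rw [h1, Matrix.submatrix_mulVec_equiv]
    have h2 : v ∘ ⇑σ.symm.symm = Sum.elim (v ∘ σ ∘ Sum.inl) (v ∘ σ ∘ Sum.inr) := by
      funext a
      cases a <;> rfl
    rw [h2]
    show ((Matrix.fromBlocks A 0 0 (1 : Matrix (Fin e) (Fin e) F)) *ᵥ
      Sum.elim (v ∘ σ ∘ Sum.inl) (v ∘ σ ∘ Sum.inr)) ∘ σ.symm = _
    rw [Matrix.fromBlocks_mulVec]
    simp
  let x : Matrix.SpecialLinearGroup (Fin n) F := ⟨φ B, hxdet⟩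
  refine ⟨x, ?_, ?_, ?_⟩
  · rw [Matrix.SpecialLinearGroup.coe_pow]
    show (φ B) ^ r = 1
    rw [← map_pow, hBr, map_one]
  · intro c hc
    have hc' : φ B = c • (1 : Matrix (Fin n) (Fin n) F) := hc
    have hB : B = c • (1 : Matrix (Fin d ⊕ Fin e) (Fin d ⊕ Fin e) F) := by
      apply φ.injective
      rw [hc', map_smul, map_one]
    have hA : A = c • (1 : Matrix (Fin d) (Fin d) F) := by
      ext a b
      have h1 := congrFun (congrFun hB (Sum.inl a)) (Sum.inl b)
      simp only [B, Matrix.fromBlocks_apply₁₁, Matrix.smul_apply, Matrix.one_apply,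
        Sum.inl.injEq] at h1
      rw [h1]
      simp [Matrix.one_apply]
    have hcr : c ^ r = 1 := by
      have h2 : A.det ^ r = 1 := by rw [hdetA, one_pow]
      have h3 : (c • (1 : Matrix (Fin d) (Fin d) F)) ^ r = 1 := hA ▸ hAr
      rw [smul_pow, one_pow] at h3
      have h4 := congrFun (congrFun h3 ⟨0, hdpos⟩) ⟨0, hdpos⟩
      simpa using h4
    have hc1 : c = 1 := bgl_root_unity_trivial r hi2 c hcr
    apply hAdet
    have hne : Nonempty (Fin d) := ⟨⟨0, hdpos⟩⟩
    rw [hA, hc1, one_smul, sub_self, Matrix.det_zero]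
  · show Module.finrank F ↥(LinearMap.ker (Matrix.toLin' (φ B) - 1)) = e
    let L : (Fin n → F) →ₗ[F] (Fin d → F) := LinearMap.funLeft F F (σ ∘ Sum.inl)
    have hker : LinearMap.ker (Matrix.toLin' (φ B) - 1) = LinearMap.ker L := by
      ext v
      rw [LinearMap.mem_ker, LinearMap.mem_ker, LinearMap.sub_apply, Matrix.toLin'_apply,
        Module.End.one_apply, sub_eq_zero, hmulVec]
      constructor
      · intro h
        have h1 : A *ᵥ (v ∘ σ ∘ Sum.inl) = v ∘ σ ∘ Sum.inl := by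
          funext a
          have h2 := congrFun h (σ (Sum.inl a))
          simpa using h2
        have h3 : (A - 1) *ᵥ (v ∘ σ ∘ Sum.inl) = 0 := by
          rw [Matrix.sub_mulVec, h1, Matrix.one_mulVec, sub_self]
        exact Matrix.eq_zero_of_mulVec_eq_zero hAdet h3
      · intro h
        have h0 : v ∘ σ ∘ Sum.inl = 0 := h
        rw [h0, Matrix.mulVec_zero]
        funext k
        obtain ⟨a, rfl⟩ := σ.surjective k
        cases a with
        | inl a =>
          have := congrFun h0 a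
          simpa using this.symm
        | inr b => simp
    have hsurj : LinearMap.range L = ⊤ := by
      rw [LinearMap.range_eq_top]
      intro u
      refine ⟨(Sum.elim u 0) ∘ σ.symm, ?_⟩
      funext a
      simp [L, LinearMap.funLeft_apply]
    have hrn := LinearMap.finrank_range_add_finrank_ker L
    rw [hsurj, finrank_top, Module.finrank_fin_fun, Module.finrank_fin_fun] at hrn
    rw [hker]
    omega


/-- PIECE B2 -/
theorem sng_bad_nonsplit {F : Type*} [Field F] [Fintype F] (p : ℕ) [Fact p.Prime] [CharP F p]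
    {n : ℕ} [Fact n.Prime]
    (hi2 : 2 ≤ orderOf ((Fintype.card F : ℕ) : ZMod n))
    (hi : orderOf ((Fintype.card F : ℕ) : ZMod n) + 2 ≤ n) :
    ∃ x : Matrix.SpecialLinearGroup (Fin n) F,
      ((x ^ n : Matrix.SpecialLinearGroup (Fin n) F) : Matrix (Fin n) (Fin n) F) = 1 ∧
      (∀ c : F, (x : Matrix (Fin n) (Fin n) F) ≠ c • (1 : Matrix (Fin n) (Fin n) F)) ∧
      2 ≤ Module.finrank F ↥(LinearMap.ker (Matrix.toLin' (x : Matrix (Fin n) (Fin n) F) - 1)) := by
  have hrdvd : n ∣ Fintype.card F ^ orderOf ((Fintype.card F : ℕ) : ZMod n) - 1 := by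
    have h1 : ((Fintype.card F : ℕ) : ZMod n) ^ orderOf ((Fintype.card F : ℕ) : ZMod n) = 1 :=
      pow_orderOf_eq_one _
    have hpos : 1 ≤ Fintype.card F ^ orderOf ((Fintype.card F : ℕ) : ZMod n) :=
      Nat.one_le_pow _ _ Fintype.card_pos
    rw [← ZMod.natCast_eq_zero_iff, Nat.cast_sub hpos, Nat.cast_pow, h1, Nat.cast_one, sub_self]
  obtain ⟨x, hx1, hx2, hx3⟩ := bgl_exists_fpf_gen (F := F) p n n hi2
    (orderOf ((Fintype.card F : ℕ) : ZMod n)) (n - orderOf ((Fintype.card F : ℕ) : ZMod n))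
    (by omega) (by omega) hrdvd
  exact ⟨x, hx1, hx2, by rw [hx3]; omega⟩

end Cfsg.Agent.Helper69
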