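import Mathlib
import Cfsg.Prelude.Def_GeometricClasses
import Cfsg.Agent.Helper98.FieldSub

/-!
# A non-scalar Frobenius element of the normalizer of a field subalgebra (helper69; adapted from
helper67's `Cfsg.Agent.Helper67.sng_exists_frob`, PIECE G of CALL S5970)

`sng_exists_frob_ns`: for a field subalgebra `K` of prime degree `n` of the `n × n` matrices over a
finite field, the normalizer of `K` contains a non-scalar element `g` with `g ^ n = 1`.
-/

set_option autoImplicit false
open Matrix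

namespace Cfsg.Agent.Helper69

theorem sng_exists_frob_ns {F : Type*} [Field F] [Fintype F] {n : ℕ} (hn : n.Prime)
    (K : Subalgebra F (Matrix (Fin n) (Fin n) F)) (hK : Cfsg.Geo.IsFieldSubalgebra n K) :
    ∃ g : GL (Fin n) F, g ∈ Cfsg.Geo.subalgebraNormalizer K ∧ g ^ n = 1 ∧
      ∀ z : F, (g : Matrix (Fin n) (Fin n) F) ≠ z • (1 : Matrix (Fin n) (Fin n) F) := by
  classical
  have hn2 : 2 ≤ n := hn.two_le
  have hne : Nonempty (Fin n) := ⟨⟨0, hn.pos⟩⟩
  have hS : Helper98.IsFS K := Helper98.IsFS.of hK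
  let _i1 : Field ↥K := hS.field
  let _i2 : Fintype ↥K := Fintype.ofFinite _
  obtain ⟨q, hq⟩ : ∃ q : ℕ, q = Fintype.card F := ⟨_, rfl⟩
  have hq2 : 2 ≤ q := by rw [hq]; exact Fintype.one_lt_card
  have hcardK : Fintype.card ↥K = q ^ n := by
    rw [hq, Module.card_eq_pow_finrank (K := F) (V := ↥K), hK.finrank_eq]
  have hpowK : ∀ k : ↥K, k ^ (q ^ n) = k := by
    intro k
    rw [← hcardK]
    exact FiniteField.pow_card k
  let φ : ↥K →ₐ[F] ↥K := FiniteField.frobeniusAlgHom F ↥K
  have hφ : ∀ k : ↥K, φ k = k ^ q := by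
    intro k
    rw [hq]
    rfl
  -- the coordinate isomorphism K ≃ V
  obtain ⟨v0, hv0⟩ : ∃ v0 : Fin n → F, v0 ≠ 0 := by
    refine ⟨Pi.single ⟨0, hn.pos⟩ 1, ?_⟩
    intro h
    have := congrFun h ⟨0, hn.pos⟩
    simp at this
  let ε : ↥K →ₗ[F] (Fin n → F) :=
    { toFun := fun a => (a : Matrix (Fin n) (Fin n) F) *ᵥ v0
      map_add' := fun a b => by rw [Subalgebra.coe_add, Matrix.add_mulVec]
      map_smul' := fun c a => by
        rw [Subalgebra.coe_smul, Matrix.smul_mulVec, RingHom.id_apply] }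
  have hε : ∀ a : ↥K, ε a = (a : Matrix (Fin n) (Fin n) F) *ᵥ v0 := fun a => rfl
  have hεinj : Function.Injective ε := by
    rw [injective_iff_map_eq_zero]
    intro a ha
    by_contra hne0
    have h1 : (a : Matrix (Fin n) (Fin n) F) ≠ 0 := fun h => hne0 (Subtype.ext h)
    exact hv0 (hS.mulVec_eq_zero a.2 h1 ha)
  have hfr : Module.finrank F ↥K = Module.finrank F (Fin n → F) := by
    rw [hK.finrank_eq, Module.finrank_fintype_fun_eq_card, Fintype.card_fin]
  have hεsurj : Function.Surjective ε :=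
    (LinearMap.injective_iff_surjective_of_finrank_eq_finrank hfr).mp hεinj
  let e : ↥K ≃ₗ[F] (Fin n → F) := LinearEquiv.ofBijective ε ⟨hεinj, hεsurj⟩
  have he : ∀ a : ↥K, e a = (a : Matrix (Fin n) (Fin n) F) *ᵥ v0 := fun a => rfl
  -- the Frobenius map on V
  let f : Module.End F (Fin n → F) :=
    e.toLinearMap ∘ₗ φ.toLinearMap ∘ₗ e.symm.toLinearMap
  have hf : ∀ a : ↥K, f (e a) = e (a ^ q) := by
    intro a
    show e (φ (e.symm (e a))) = _
    rw [LinearEquiv.symm_apply_apply, hφ]
  have hfpow : ∀ (j : ℕ) (a : ↥K), (f ^ j) (e a) = e (a ^ (q ^ j)) := by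
    intro j
    induction j with
    | zero =>
      intro a
      rw [pow_zero, pow_zero, pow_one, Module.End.one_apply]
    | succ j ih =>
      intro a
      rw [pow_succ', Module.End.mul_apply, ih, hf, ← pow_mul, ← pow_succ]
  have hfn : f ^ n = 1 := by
    apply LinearMap.ext
    intro w
    obtain ⟨a, rfl⟩ := e.surjective w
    rw [hfpow, hpowK, Module.End.one_apply]
  have hfK : ∀ (k : ↥K) (w : Fin n → F),
      f ((k : Matrix (Fin n) (Fin n) F) *ᵥ w)
        = ((k : Matrix (Fin n) (Fin n) F) ^ q) *ᵥ f w := by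
    intro k w
    obtain ⟨a, rfl⟩ := e.surjective w
    have h1 : (k : Matrix (Fin n) (Fin n) F) *ᵥ e a = e (k * a) := by
      rw [he, he, Subalgebra.coe_mul, Matrix.mulVec_mulVec]
    rw [h1, hf, hf, mul_pow, he, he, Subalgebra.coe_mul, Subalgebra.coe_pow,
      Matrix.mulVec_mulVec]
  have hf1 : f ≠ 1 := by
    intro h1
    have hall : ∀ a : ↥K, a ^ q = a := by
      intro a
      have h2 := hf a
      rw [h1, Module.End.one_apply] at h2
      exact (e.injective h2).symm
    obtain ⟨ζ, hζ⟩ := IsCyclic.exists_generator (α := (↥K)ˣ)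
    have hord : orderOf ζ = q ^ n - 1 := by
      rw [orderOf_eq_card_of_forall_mem_zpowers hζ, Nat.card_eq_fintype_card, Fintype.card_units,
        hcardK]
    have h3 : ζ ^ q = ζ := by
      apply Units.ext
      rw [Units.val_pow_eq_pow_val]
      exact hall _
    have h4 : ζ ^ (q - 1) = 1 := by
      have h5 : ζ ^ (q - 1) * ζ = 1 * ζ := by
        rw [← pow_succ, one_mul, Nat.sub_add_cancel (by omega)]
        exact h3
      exact mul_right_cancel h5
    have h6 := orderOf_dvd_of_pow_eq_one h4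
    rw [hord] at h6
    have h7 := Nat.le_of_dvd (by omega) h6
    have h8 : q ^ 2 ≤ q ^ n := Nat.pow_le_pow_right (by omega) hn2
    have h9 : q ^ n ≤ q := by
      have := Nat.one_le_pow n q (by omega)
      omega
    have h10 : q * q ≤ q := by
      rw [← sq]
      omega
    nlinarith
  -- the matrix of f
  obtain ⟨M, hM⟩ : ∃ M : Matrix (Fin n) (Fin n) F, M = LinearMap.toMatrixAlgEquiv' f := ⟨_, rfl⟩
  have hMv : ∀ w : Fin n → F, M *ᵥ w = f w := by
    intro w
    rw [hM, ← Matrix.toLin'_apply]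
    show Matrix.toLin' (LinearMap.toMatrix' f) w = f w
    rw [Matrix.toLin'_toMatrix']
  have hMn : M ^ n = 1 := by
    rw [hM, ← map_pow, hfn, map_one]
  have hM1 : M ≠ 1 := by
    intro h
    apply hf1
    apply LinearMap.ext
    intro w
    rw [← hMv, h, Matrix.one_mulVec, Module.End.one_apply]
  have hMM : M * M ^ (n - 1) = 1 := by
    rw [← pow_succ', Nat.sub_add_cancel (by omega), hMn]
  have hMM' : M ^ (n - 1) * M = 1 := by
    rw [← pow_succ, Nat.sub_add_cancel (by omega), hMn]
  obtain ⟨g, hg⟩ : ∃ g : GL (Fin n) F, (g : Matrix (Fin n) (Fin n) F) = M :=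
    ⟨⟨M, M ^ (n - 1), hMM, hMM'⟩, rfl⟩
  have hginv : ((g⁻¹ : GL (Fin n) F) : Matrix (Fin n) (Fin n) F) = M ^ (n - 1) := by
    have h1 : (g : Matrix (Fin n) (Fin n) F) * ((g⁻¹ : GL (Fin n) F) : Matrix (Fin n) (Fin n) F)
        = 1 := by rw [← Units.val_mul, mul_inv_cancel, Units.val_one]
    rw [hg] at h1
    calc ((g⁻¹ : GL (Fin n) F) : Matrix (Fin n) (Fin n) F)
        = (M ^ (n - 1) * M) * ((g⁻¹ : GL (Fin n) F) : Matrix (Fin n) (Fin n) F) := by
          rw [hMM', one_mul]
      _ = M ^ (n - 1) := by rw [mul_assoc, h1, mul_one]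
  have hcomm : ∀ k ∈ K, M * k = k ^ q * M := by
    intro k hk
    apply Matrix.toLin'.injective
    apply LinearMap.ext
    intro w
    rw [Matrix.toLin'_apply, Matrix.toLin'_apply, ← Matrix.mulVec_mulVec, ← Matrix.mulVec_mulVec,
      hMv, hMv]
    exact hfK ⟨k, hk⟩ w
  have hconj : ∀ k ∈ K, M * k * M ^ (n - 1) = k ^ q := by
    intro k hk
    rw [hcomm k hk, mul_assoc, hMM, mul_one]
  refine ⟨g, ?_, ?_, ?_⟩
  · intro k
    rw [hg, hginv]
    constructor
    · intro hk
      rw [hconj k hk]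
      exact K.pow_mem hk q
    · intro hk'
      -- k' := M k M^(n-1) ∈ K; k'' := k' ^ (q ^ (n-1)) satisfies M k'' M^(n-1) = k'
      have hk'' : (M * k * M ^ (n - 1)) ^ (q ^ (n - 1)) ∈ K := K.pow_mem hk' _
      have h1 := hconj _ hk''
      have h2 : ((M * k * M ^ (n - 1)) ^ (q ^ (n - 1))) ^ q = M * k * M ^ (n - 1) := by
        rw [← pow_mul, ← pow_succ, Nat.sub_add_cancel (by omega)]
        have := hpowK ⟨_, hk'⟩
        have h3 := congrArg Subtype.val this
        rw [Subalgebra.coe_pow] at h3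
        exact h3
      rw [h2] at h1
      -- cancel M
      have h4 : (M * k * M ^ (n - 1)) ^ (q ^ (n - 1)) = k := by
        have h5 : M ^ (n - 1) * (M * (M * k * M ^ (n - 1)) ^ (q ^ (n - 1)) * M ^ (n - 1)) * M
            = M ^ (n - 1) * (M * k * M ^ (n - 1)) * M := by rw [h1]
        calc (M * k * M ^ (n - 1)) ^ (q ^ (n - 1))
            = (M ^ (n - 1) * M) * (M * k * M ^ (n - 1)) ^ (q ^ (n - 1)) * (M ^ (n - 1) * M) := by
              rw [hMM', one_mul, mul_one]
          _ = M ^ (n - 1) * (M * (M * k * M ^ (n - 1)) ^ (q ^ (n - 1)) * M ^ (n - 1)) * M := by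
              simp only [mul_assoc]
          _ = M ^ (n - 1) * (M * k * M ^ (n - 1)) * M := h5
          _ = (M ^ (n - 1) * M) * k * (M ^ (n - 1) * M) := by simp only [mul_assoc]
          _ = k := by rw [hMM', one_mul, mul_one]
      rw [← h4]
      exact hk''
  · apply Units.ext
    rw [Units.val_pow_eq_pow_val, hg, hMn, Units.val_one]
  · intro z hz
    rw [hg] at hz
    have hfix : M *ᵥ v0 = v0 := by
      have h1 := hf 1
      rw [one_pow] at h1
      have h2 : e (1 : ↥K) = v0 := by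
        rw [he, Subalgebra.coe_one, Matrix.one_mulVec]
      rw [h2] at h1
      rw [hMv]
      exact h1
    rw [hz, Matrix.smul_mulVec, Matrix.one_mulVec] at hfix
    have hz1 : z = 1 := by
      by_contra hne1
      apply hv0
      have h3 : (z - 1) • v0 = 0 := by rw [sub_smul, hfix, one_smul, sub_self]
      rcases smul_eq_zero.mp h3 with h4 | h4
      · exact absurd (sub_eq_zero.mp h4) hne1
      · exact h4
    apply hM1
    rw [hz, hz1, one_smul]

end Cfsg.Agent.Helper69
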