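import Mathlib
import Cfsg.Prelude.Def_GeometricClasses
import Cfsg.Agent.Helper10.SngN
import Cfsg.Agent.Helper10.SngB1
import Cfsg.Agent.Helper67.SngG
import Cfsg.Agent.Helper67.SngC
import Cfsg.Agent.Helper69.SngB2
import Cfsg.Agent.Helper69.SngG2
import Cfsg.Agent.Helper40.SemisimpleMat

set_option autoImplicit false

/-!
# Core of S5970 / S5971 (helper69): conjugacy of elements of order `n` of `PSL_n(q)` into the
normalizer of a field subalgebra of prime degree `n`.
-/

namespace Cfsg.Agent.Helper69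

/-- an eigenspace of a conjugate -/
theorem sng_ker_conj_gen {F : Type*} [Field F] {n : ℕ} (x P : Matrix.SpecialLinearGroup (Fin n) F)
    (c : F) :
    Module.finrank F ↥(LinearMap.ker (Matrix.toLin' (x : Matrix (Fin n) (Fin n) F) -
        c • (1 : Module.End F (Fin n → F)))) ≤
      Module.finrank F ↥(LinearMap.ker (Matrix.toLin'
        ((P⁻¹ * x * P : Matrix.SpecialLinearGroup (Fin n) F) : Matrix (Fin n) (Fin n) F) -
          c • (1 : Module.End F (Fin n → F)))) := by
  have hPP : (P : Matrix (Fin n) (Fin n) F) *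
      ((P⁻¹ : Matrix.SpecialLinearGroup (Fin n) F) : Matrix (Fin n) (Fin n) F) = 1 := by
    rw [← Matrix.SpecialLinearGroup.coe_mul, mul_inv_cancel, Matrix.SpecialLinearGroup.coe_one]
  have hPP' : ((P⁻¹ : Matrix.SpecialLinearGroup (Fin n) F) : Matrix (Fin n) (Fin n) F) *
      (P : Matrix (Fin n) (Fin n) F) = 1 := by
    rw [← Matrix.SpecialLinearGroup.coe_mul, inv_mul_cancel, Matrix.SpecialLinearGroup.coe_one]
  let e : (Fin n → F) ≃ₗ[F] (Fin n → F) :=
    LinearEquiv.ofLinearMap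
      (Matrix.toLin' ((P⁻¹ : Matrix.SpecialLinearGroup (Fin n) F) : Matrix (Fin n) (Fin n) F))
      (Matrix.toLin' (P : Matrix (Fin n) (Fin n) F))
      (by rw [← Matrix.toLin'_mul, hPP', Matrix.toLin'_one])
      (by rw [← Matrix.toLin'_mul, hPP, Matrix.toLin'_one])
  have hle : (LinearMap.ker (Matrix.toLin' (x : Matrix (Fin n) (Fin n) F) -
      c • (1 : Module.End F (Fin n → F)))).map
      e.toLinearMap ≤ LinearMap.ker (Matrix.toLin'
        ((P⁻¹ * x * P : Matrix.SpecialLinearGroup (Fin n) F) : Matrix (Fin n) (Fin n) F) -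
          c • (1 : Module.End F (Fin n → F))) := by
    rintro _ ⟨v, hv, rfl⟩
    have hv' : Matrix.toLin' (x : Matrix (Fin n) (Fin n) F) v = c • v := by
      have h1 := LinearMap.mem_ker.mp hv
      rw [LinearMap.sub_apply, LinearMap.smul_apply, Module.End.one_apply, sub_eq_zero] at h1
      exact h1
    rw [LinearMap.mem_ker, LinearMap.sub_apply, LinearMap.smul_apply, Module.End.one_apply,
      sub_eq_zero]
    show Matrix.toLin' _ (Matrix.toLin' _ v) = c • Matrix.toLin' _ v
    rw [← LinearMap.comp_apply, ← Matrix.toLin'_mul, Matrix.SpecialLinearGroup.coe_mul,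
      Matrix.SpecialLinearGroup.coe_mul, Matrix.mul_assoc, hPP, Matrix.mul_one, Matrix.toLin'_mul,
      LinearMap.comp_apply, hv', map_smul]
  calc Module.finrank F ↥(LinearMap.ker (Matrix.toLin' (x : Matrix (Fin n) (Fin n) F) -
        c • (1 : Module.End F (Fin n → F))))
      = Module.finrank F ↥((LinearMap.ker (Matrix.toLin' (x : Matrix (Fin n) (Fin n) F) -
          c • (1 : Module.End F (Fin n → F)))).map
          e.toLinearMap) := (LinearEquiv.finrank_map_eq e _).symm
    _ ≤ _ := Submodule.finrank_mono hle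

/-- a non-scalar element with a 2-dimensional eigenspace is not conjugate into the normalizer -/
theorem sng_not_conj {F : Type*} [Field F] [Fintype F] {n : ℕ} (hnP : n.Prime)
    (K : Subalgebra F (Matrix (Fin n) (Fin n) F)) (hK : Cfsg.Geo.IsFieldSubalgebra n K)
    (x : Matrix.SpecialLinearGroup (Fin n) F)
    (hx2 : ∀ z : F, (x : Matrix (Fin n) (Fin n) F) ≠ z • (1 : Matrix (Fin n) (Fin n) F)) (c : F)
    (hx3 : 2 ≤ Module.finrank F ↥(LinearMap.ker (Matrix.toLin' (x : Matrix (Fin n) (Fin n) F) -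
        c • (1 : Module.End F (Fin n → F))))) :
    ¬ ∃ P : Matrix.SpecialLinearGroup (Fin n) F, P⁻¹ * x * P ∈
      ((Cfsg.Geo.subalgebraNormalizer K).comap (Matrix.SpecialLinearGroup.toGL :
        Matrix.SpecialLinearGroup (Fin n) F →* GL (Fin n) F)) := by
  rintro ⟨P, hP⟩
  rw [Subgroup.mem_comap] at hP
  have hns : ∀ z : F, ((Matrix.SpecialLinearGroup.toGL (P⁻¹ * x * P) : GL (Fin n) F) :
      Matrix (Fin n) (Fin n) F) ≠ z • (1 : Matrix (Fin n) (Fin n) F) := by
    intro z hz
    apply hx2 z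
    have hz' : ((P⁻¹ * x * P : Matrix.SpecialLinearGroup (Fin n) F) :
        Matrix (Fin n) (Fin n) F) = z • (1 : Matrix (Fin n) (Fin n) F) := hz
    have hxe : x = P * (P⁻¹ * x * P) * P⁻¹ := by group
    rw [hxe, Matrix.SpecialLinearGroup.coe_mul, Matrix.SpecialLinearGroup.coe_mul, hz',
      Matrix.mul_smul, Matrix.smul_mul, Matrix.mul_one, ← Matrix.SpecialLinearGroup.coe_mul,
      mul_inv_cancel, Matrix.SpecialLinearGroup.coe_one]
  have hN := Cfsg.Agent.Helper10.sng_normalizer_ker hnP K hK _ hP hns c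
  have hle := sng_ker_conj_gen x P c
  have hN' : Module.finrank F ↥(LinearMap.ker (Matrix.toLin'
      ((P⁻¹ * x * P : Matrix.SpecialLinearGroup (Fin n) F) : Matrix (Fin n) (Fin n) F) -
        c • (1 : Module.End F (Fin n → F)))) ≤ 1 := hN
  omega

/-- from a determinant-one intertwiner to the statement's form -/
theorem sng_conj_of_intertw {F : Type*} [Field F] {n : ℕ}
    (K : Subalgebra F (Matrix (Fin n) (Fin n) F)) (x : Matrix.SpecialLinearGroup (Fin n) F)
    (g : GL (Fin n) F) (hgN : g ∈ Cfsg.Geo.subalgebraNormalizer K)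
    (P : Matrix (Fin n) (Fin n) F) (hPdet : P.det = 1)
    (hP : P * (x : Matrix (Fin n) (Fin n) F) = (g : Matrix (Fin n) (Fin n) F) * P) :
    ∃ P : Matrix.SpecialLinearGroup (Fin n) F, P⁻¹ * x * P ∈
      ((Cfsg.Geo.subalgebraNormalizer K).comap (Matrix.SpecialLinearGroup.toGL :
        Matrix.SpecialLinearGroup (Fin n) F →* GL (Fin n) F)) := by
  let P' : Matrix.SpecialLinearGroup (Fin n) F := ⟨P, hPdet⟩
  refine ⟨P'⁻¹, ?_⟩
  rw [Subgroup.mem_comap]
  have hgeq : Matrix.SpecialLinearGroup.toGL (P'⁻¹⁻¹ * x * P'⁻¹) = g := by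
    apply Units.ext
    rw [inv_inv]
    show ((P' * x * P'⁻¹ : Matrix.SpecialLinearGroup (Fin n) F) : Matrix (Fin n) (Fin n) F) = _
    rw [Matrix.SpecialLinearGroup.coe_mul, Matrix.SpecialLinearGroup.coe_mul]
    show P * (x : Matrix (Fin n) (Fin n) F) * _ = _
    rw [hP, Matrix.mul_assoc]
    have : P * ((P'⁻¹ : Matrix.SpecialLinearGroup (Fin n) F) : Matrix (Fin n) (Fin n) F) = 1 := by
      show (P' : Matrix (Fin n) (Fin n) F) * _ = 1
      rw [← Matrix.SpecialLinearGroup.coe_mul, mul_inv_cancel, Matrix.SpecialLinearGroup.coe_one]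
    rw [this, Matrix.mul_one]
  rw [hgeq]
  exact hgN

/-- if `ord_n(q) = n - 1` every element of order `n` is conjugate into the normalizer -/
theorem sng_conj_into {F : Type*} [Field F] [Fintype F] {p : ℕ} [Fact p.Prime] [CharP F p]
    (n : ℕ) (hnP : n.Prime) (K : Subalgebra F (Matrix (Fin n) (Fin n) F))
    (hK : Cfsg.Geo.IsFieldSubalgebra n K) (hn3 : 3 ≤ n) (hnp : n ≠ p)
    (hord : orderOf ((Fintype.card F : ℕ) : ZMod n) = n - 1)
    (x : Matrix.SpecialLinearGroup (Fin n) F)
    (hx : ∃ z : F, ((x ^ n : Matrix.SpecialLinearGroup (Fin n) F) : Matrix (Fin n) (Fin n) F) =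
      z • (1 : Matrix (Fin n) (Fin n) F))
    (hns : ∀ z : F, (x : Matrix (Fin n) (Fin n) F) ≠ z • (1 : Matrix (Fin n) (Fin n) F)) :
    ∃ P : Matrix.SpecialLinearGroup (Fin n) F, P⁻¹ * x * P ∈
      ((Cfsg.Geo.subalgebraNormalizer K).comap (Matrix.SpecialLinearGroup.toGL :
        Matrix.SpecialLinearGroup (Fin n) F →* GL (Fin n) F)) := by
  classical
  have : Fact n.Prime := ⟨hnP⟩
  obtain ⟨z, hz⟩ := hx
  rw [Matrix.SpecialLinearGroup.coe_pow] at hz
  have hi2 : 2 ≤ orderOf ((Fintype.card F : ℕ) : ZMod n) := by omega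
  have hne : Nonempty (Fin n) := ⟨⟨0, by omega⟩⟩
  have hz1 : z = 1 := by
    apply bgl_root_unity_trivial n hi2
    have h1 := congrArg Matrix.det hz
    rw [Matrix.det_pow, Matrix.SpecialLinearGroup.det_coe, one_pow, Matrix.det_smul,
      Matrix.det_one, mul_one, Fintype.card_fin] at h1
    exact h1.symm
  rw [hz1, one_smul] at hz
  have hx1 : (x : Matrix (Fin n) (Fin n) F) ≠ 1 := by
    intro h1
    exact hns 1 (by rw [h1, one_smul])
  obtain ⟨g, hgN, hgn, hg1⟩ := Cfsg.Agent.Helper67.sng_exists_frob hnP K hK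
  have hgn' : (g : Matrix (Fin n) (Fin n) F) ^ n = 1 := by
    rw [← Units.val_pow_eq_pow_val, hgn, Units.val_one]
  have hg1' : (g : Matrix (Fin n) (Fin n) F) ≠ 1 := by
    intro h1
    exact hg1 (Units.ext h1)
  obtain ⟨P, hPdet, hP⟩ := Cfsg.Agent.Helper67.sng_conj p hnp hn3 hord
    (x : Matrix (Fin n) (Fin n) F) (g : Matrix (Fin n) (Fin n) F) hz hgn' hx1 hg1'
  exact sng_conj_of_intertw K x g hgN P hPdet hP

/-- S5970 -/
theorem sng_main {F : Type*} [Field F] [Fintype F] {p : ℕ} [Fact p.Prime] [CharP F p]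
    (n : ℕ) (hnP : n.Prime) (K : Subalgebra F (Matrix (Fin n) (Fin n) F))
    (hK : Cfsg.Geo.IsFieldSubalgebra n K) (hn3 : 3 < n) (hnp : n ≠ p) :
    (∀ x : Matrix.SpecialLinearGroup (Fin n) F,
      (∃ z : F, ((x ^ n : Matrix.SpecialLinearGroup (Fin n) F) : Matrix (Fin n) (Fin n) F) = z • (1 : Matrix (Fin n) (Fin n) F)) →
      (∀ z : F, (x : Matrix (Fin n) (Fin n) F) ≠ z • (1 : Matrix (Fin n) (Fin n) F)) →
      ∃ P : Matrix.SpecialLinearGroup (Fin n) F, P⁻¹ * x * P ∈ ((Cfsg.Geo.subalgebraNormalizer K).comap (Matrix.SpecialLinearGroup.toGL : Matrix.SpecialLinearGroup (Fin n) F →* GL (Fin n) F))) ↔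
    orderOf ((Fintype.card F : ℕ) : ZMod n) = n - 1 := by
  classical
  have : Fact n.Prime := ⟨hnP⟩
  have hpP := (Fact.out : p.Prime)
  have hn5 : 5 ≤ n := by
    rcases Nat.lt_or_ge n 5 with h | h
    · have h4 : n = 4 := by omega
      rw [h4] at hnP
      exact absurd hnP (by decide)
    · exact h
  have hq0 : ((Fintype.card F : ℕ) : ZMod n) ≠ 0 := by
    intro h0
    rw [ZMod.natCast_eq_zero_iff] at h0
    obtain ⟨f, -, hf⟩ := FiniteField.card F p
    rw [hf] at h0
    exact hnp ((Nat.prime_dvd_prime_iff_eq hnP hpP).mp (hnP.dvd_of_dvd_pow h0))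
  have hidvd : orderOf ((Fintype.card F : ℕ) : ZMod n) ∣ n - 1 :=
    orderOf_dvd_of_pow_eq_one (ZMod.pow_card_sub_one_eq_one hq0)
  have hipos : 0 < orderOf ((Fintype.card F : ℕ) : ZMod n) :=
    Nat.pos_of_dvd_of_pos hidvd (by omega)
  constructor
  · intro h
    by_contra hne
    obtain ⟨x, hx1, hx2, hx3⟩ : ∃ x : Matrix.SpecialLinearGroup (Fin n) F,
        ((x ^ n : Matrix.SpecialLinearGroup (Fin n) F) : Matrix (Fin n) (Fin n) F) = 1 ∧
        (∀ c : F, (x : Matrix (Fin n) (Fin n) F) ≠ c • (1 : Matrix (Fin n) (Fin n) F)) ∧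
        2 ≤ Module.finrank F ↥(LinearMap.ker (Matrix.toLin' (x : Matrix (Fin n) (Fin n) F) - 1)) := by
      rcases Nat.lt_or_ge (orderOf ((Fintype.card F : ℕ) : ZMod n)) 2 with h1 | h2
      · have h1' : orderOf ((Fintype.card F : ℕ) : ZMod n) = 1 := by omega
        rw [orderOf_eq_one_iff] at h1'
        have hdvd : n ∣ Fintype.card F - 1 := by
          have hpos : 1 ≤ Fintype.card F := Fintype.card_pos
          rw [← ZMod.natCast_eq_zero_iff, Nat.cast_sub hpos, h1', Nat.cast_one, sub_self]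
        exact Cfsg.Agent.Helper10.sng_bad_split hn5 hdvd
      · apply sng_bad_nonsplit p h2
        obtain ⟨t, ht⟩ := hidvd
        have ht2 : 2 ≤ t := by
          rcases Nat.lt_or_ge t 2 with h | h
          · interval_cases t
            · omega
            · rw [mul_one] at ht
              exact absurd ht.symm hne
          · exact h
        have : 2 * orderOf ((Fintype.card F : ℕ) : ZMod n) ≤ n - 1 := by
          rw [ht, mul_comm]
          exact Nat.mul_le_mul_left _ ht2
        omega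
    have hx3' : 2 ≤ Module.finrank F ↥(LinearMap.ker (Matrix.toLin'
        (x : Matrix (Fin n) (Fin n) F) - (1 : F) • (1 : Module.End F (Fin n → F)))) := by
      rw [one_smul]
      exact hx3
    exact sng_not_conj hnP K hK x hx2 1 hx3' (h x ⟨1, by rw [hx1, one_smul]⟩ hx2)
  · intro hord x hx hns
    exact sng_conj_into n hnP K hK (by omega) hnp hord x hx hns

end Cfsg.Agent.Helper69
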