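import Mathlib
import Cfsg.Prelude.Def_GeometricClasses
import Cfsg.Agent.Helper69.SngCore
import Cfsg.Agent.Helper28.Sng3U
import Cfsg.Agent.Helper28.Sng3D9
import Cfsg.Agent.Helper84.Sng3CARD
import Cfsg.Agent.Helper84.Sng3E

set_option autoImplicit false

/-!
# Core of S5971 (helper69): elements of order 3 of `PSL_3(q)` and the Singer normalizer.
-/

namespace Cfsg.Agent.Helper69

theorem sng3_order_two : orderOf ((2 : ℕ) : ZMod 3) = 2 :=
  orderOf_eq_prime (p := 2) (by decide) (by decide)

theorem sng3_main {F : Type*} [Field F] [Fintype F] {p : ℕ} [Fact p.Prime] [CharP F p]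
    (K : Subalgebra F (Matrix (Fin 3) (Fin 3) F)) (hK : Cfsg.Geo.IsFieldSubalgebra 3 K)
    (hΩ : 3 ∣ ((Cfsg.Geo.subalgebraNormalizer K).comap (Matrix.SpecialLinearGroup.toGL : Matrix.SpecialLinearGroup (Fin 3) F →* GL (Fin 3) F)).index) :
    (∀ x : Matrix.SpecialLinearGroup (Fin 3) F,
      (∃ z : F, ((x ^ 3 : Matrix.SpecialLinearGroup (Fin 3) F) : Matrix (Fin 3) (Fin 3) F) = z • (1 : Matrix (Fin 3) (Fin 3) F)) →
      (∀ z : F, (x : Matrix (Fin 3) (Fin 3) F) ≠ z • (1 : Matrix (Fin 3) (Fin 3) F)) →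
      ∃ P : Matrix.SpecialLinearGroup (Fin 3) F, P⁻¹ * x * P ∈ ((Cfsg.Geo.subalgebraNormalizer K).comap (Matrix.SpecialLinearGroup.toGL : Matrix.SpecialLinearGroup (Fin 3) F →* GL (Fin 3) F))) ↔
    (Fintype.card F % 9 = 4 ∨ Fintype.card F % 9 = 7 ∨ Fintype.card F % 9 = 8) := by
  classical
  have hpP := (Fact.out : p.Prime)
  have h3P : Nat.Prime 3 := Nat.prime_three
  have : Fact (Nat.Prime 3) := ⟨h3P⟩
  obtain ⟨f, -, hf⟩ := FiniteField.card F p
  have hq1 : 1 ≤ Fintype.card F := Fintype.card_pos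
  by_cases hp3 : p = 3
  · -- characteristic 3: both sides are false
    have h3q : 3 ∣ Fintype.card F := by
      rw [hf, hp3]
      exact dvd_pow_self 3 f.ne_zero
    have hR : ¬ (Fintype.card F % 9 = 4 ∨ Fintype.card F % 9 = 7 ∨ Fintype.card F % 9 = 8) := by
      omega
    refine iff_of_false ?_ hR
    intro h
    obtain ⟨x, hx1, hx2, hx3⟩ := Cfsg.Agent.Helper28.sng_bad_unip (F := F) p (n := 3) le_rfl
    have hx3' : 2 ≤ Module.finrank F ↥(LinearMap.ker (Matrix.toLin'
        (x : Matrix (Fin 3) (Fin 3) F) - (1 : F) • (1 : Module.End F (Fin 3 → F)))) := by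
      rw [one_smul]
      exact hx3
    refine sng_not_conj h3P K hK x hx2 1 hx3' (h x ⟨1, ?_⟩ hx2)
    rw [one_smul, ← hx1, hp3]
  · have h3F : (3 : F) ≠ 0 := by
      intro h0
      have h1 : ((3 : ℕ) : F) = 0 := by exact_mod_cast h0
      rw [CharP.cast_eq_zero_iff F p] at h1
      exact hp3 ((Nat.prime_dvd_prime_iff_eq hpP h3P).mp h1)
    have h3q : ¬ 3 ∣ Fintype.card F := by
      intro h
      rw [hf] at h
      exact hp3 ((Nat.prime_dvd_prime_iff_eq h3P hpP).mp (h3P.dvd_of_dvd_pow h)).symm
    have hcop : Nat.Coprime 3 p := (Nat.coprime_primes h3P hpP).mpr (Ne.symm hp3)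
    rcases (by omega : Fintype.card F % 3 = 1 ∨ Fintype.card F % 3 = 2) with hmod | hmod
    · -- q ≡ 1 mod 3
      have h3dvd : 3 ∣ Fintype.card F - 1 := by omega
      by_cases h9 : 9 ∣ Fintype.card F - 1
      · have hR : ¬ (Fintype.card F % 9 = 4 ∨ Fintype.card F % 9 = 7 ∨ Fintype.card F % 9 = 8) := by
          omega
        refine iff_of_false ?_ hR
        intro h
        obtain ⟨x, c, z, hx1, hx2, hx3⟩ := Cfsg.Agent.Helper28.sng_bad_nine (F := F) h9
        exact sng_not_conj h3P K hK x hx2 c hx3 (h x ⟨z, hx1⟩ hx2)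
      · have hR : Fintype.card F % 9 = 4 ∨ Fintype.card F % 9 = 7 ∨ Fintype.card F % 9 = 8 := by
          omega
        refine iff_of_true ?_ hR
        intro x hx hns
        obtain ⟨z, hz⟩ := hx
        rw [Matrix.SpecialLinearGroup.coe_pow] at hz
        have hz1 : z = 1 := Cfsg.Agent.Helper84.sng3_scalar_one h3dvd h9 _ z hz
          (Matrix.SpecialLinearGroup.det_coe x)
        rw [hz1, one_smul] at hz
        -- a primitive cube root of unity
        obtain ⟨w, hw1, hw3⟩ : ∃ w : F, w ≠ 1 ∧ w ^ 3 = 1 := by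
          obtain ⟨u, hu⟩ := exists_prime_orderOf_dvd_card' (G := Fˣ) 3
            (by rw [Nat.card_eq_fintype_card, Fintype.card_units]; exact h3dvd)
          refine ⟨(u : F), ?_, ?_⟩
          · intro h1
            have h2 : u = 1 := Units.ext h1
            rw [h2, orderOf_one] at hu
            omega
          · rw [← Units.val_pow_eq_pow_val, ← hu, pow_orderOf_eq_one, Units.val_one]
        have hxc : (x : Matrix (Fin 3) (Fin 3) F).charpoly = Polynomial.X ^ 3 - 1 :=
          Cfsg.Agent.Helper84.sng3_charpoly h3F w hw1 hw3 _ hz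
            (Cfsg.Agent.Helper84.sng3_eigen_le_one h3F _ hz (Matrix.SpecialLinearGroup.det_coe x)
              hns)
        obtain ⟨g, hgN, hgn, hgns⟩ := sng_exists_frob_ns h3P K hK
        have hgn' : (g : Matrix (Fin 3) (Fin 3) F) ^ 3 = 1 := by
          rw [← Units.val_pow_eq_pow_val, hgn, Units.val_one]
        have hgc : (g : Matrix (Fin 3) (Fin 3) F).charpoly = Polynomial.X ^ 3 - 1 :=
          Cfsg.Agent.Helper84.sng3_charpoly h3F w hw1 hw3 _ hgn'
            (Cfsg.Agent.Helper10.sng_normalizer_ker h3P K hK g hgN hgns)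
        obtain ⟨P, hPdet, hP⟩ := Cfsg.Agent.Helper40.exists_conj_matrix p hcop hcop
          (x : Matrix (Fin 3) (Fin 3) F) (g : Matrix (Fin 3) (Fin 3) F) hz hgn' (hxc.trans hgc.symm)
        exact sng_conj_of_intertw K x g hgN P hPdet hP
    · -- q ≡ 2 mod 3
      have hord : orderOf ((Fintype.card F : ℕ) : ZMod 3) = 3 - 1 := by
        have h1 : ((Fintype.card F : ℕ) : ZMod 3) = ((2 : ℕ) : ZMod 3) := by
          rw [ZMod.natCast_eq_natCast_iff']
          omega
        rw [h1]
        exact sng3_order_two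
      by_cases h8 : Fintype.card F % 9 = 8
      · refine iff_of_true ?_ (Or.inr (Or.inr h8))
        intro x hx hns
        exact sng_conj_into 3 h3P K hK le_rfl (Ne.symm hp3) hord x hx hns
      · exfalso
        have h25 : Fintype.card F % 9 = 2 ∨ Fintype.card F % 9 = 5 := by omega
        have hcard := Cfsg.Agent.Helper84.sng_card_SL3 (F := F) h25
        apply hcard
        obtain ⟨g, hgN, hgn, hg1⟩ := Cfsg.Agent.Helper67.sng_exists_frob h3P K hK
        have hgn' : (g : Matrix (Fin 3) (Fin 3) F) ^ 3 = 1 := by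
          rw [← Units.val_pow_eq_pow_val, hgn, Units.val_one]
        have hdet : (g : Matrix (Fin 3) (Fin 3) F).det = 1 := by
          apply bgl_root_unity_trivial 3 (by rw [hord])
          rw [← Matrix.det_pow, hgn', Matrix.det_one]
        let g' : Matrix.SpecialLinearGroup (Fin 3) F := ⟨(g : Matrix (Fin 3) (Fin 3) F), hdet⟩
        have hg'GL : Matrix.SpecialLinearGroup.toGL g' = g := Units.ext rfl
        have hg'mem : g' ∈ (Cfsg.Geo.subalgebraNormalizer K).comap
            (Matrix.SpecialLinearGroup.toGL :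
              Matrix.SpecialLinearGroup (Fin 3) F →* GL (Fin 3) F) := by
          rw [Subgroup.mem_comap, hg'GL]
          exact hgN
        have hg'3 : g' ^ 3 = 1 := by
          apply Subtype.ext
          rw [Matrix.SpecialLinearGroup.coe_pow, Matrix.SpecialLinearGroup.coe_one]
          exact hgn'
        have hg'1 : g' ≠ 1 := by
          intro h1
          apply hg1
          rw [← hg'GL, h1, map_one]
        have hord' : orderOf (⟨g', hg'mem⟩ : ↥((Cfsg.Geo.subalgebraNormalizer K).comap
            (Matrix.SpecialLinearGroup.toGL :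
              Matrix.SpecialLinearGroup (Fin 3) F →* GL (Fin 3) F))) = 3 := by
          apply orderOf_eq_prime
          · exact Subtype.ext hg'3
          · intro h1
            exact hg'1 (congrArg Subtype.val h1)
        have h3H : 3 ∣ Nat.card ↥((Cfsg.Geo.subalgebraNormalizer K).comap
            (Matrix.SpecialLinearGroup.toGL :
              Matrix.SpecialLinearGroup (Fin 3) F →* GL (Fin 3) F)) := by
          have h1 := orderOf_dvd_natCard (⟨g', hg'mem⟩ : ↥((Cfsg.Geo.subalgebraNormalizer K).comap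
            (Matrix.SpecialLinearGroup.toGL :
              Matrix.SpecialLinearGroup (Fin 3) F →* GL (Fin 3) F)))
          rwa [hord'] at h1
        have hmul := Subgroup.card_mul_index ((Cfsg.Geo.subalgebraNormalizer K).comap
            (Matrix.SpecialLinearGroup.toGL :
              Matrix.SpecialLinearGroup (Fin 3) F →* GL (Fin 3) F))
        rw [← hmul]
        exact Nat.mul_dvd_mul h3H hΩ

end Cfsg.Agent.Helper69
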